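import Mathlib
import Cfsg.Agent.Helper13.TKDefs

set_option autoImplicit false

namespace Cfsg.Agent.Helper37.TI5956

open Module Polynomial
open Cfsg.Agent.Helper42.SpForm Cfsg.Agent.Helper42.SpGroup Cfsg.Agent.Helper42.SpModels
open Cfsg.Agent.Helper13.TIsp Cfsg.Agent.Helper90.BG
open Cfsg.Agent.Helper11.TI5955 Cfsg.Agent.Helper58.TI5955 Cfsg.Agent.Helper59.TI5955
open Cfsg.Agent.Helper51.TI5955 Cfsg.Agent.Helper70.TI5955
open Cfsg.Agent.Helper39.TI5961 Cfsg.Agent.Helper58.TI5961 Cfsg.Agent.Helper59.TI5961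
open Cfsg.Agent.Helper60.TI5961 Cfsg.Agent.Helper31.TI5961 Cfsg.Agent.Helper19.TI5961

section xf

variable {F : Type*} [Field F]

/-- BAD2M (case b): the `a`-type involution of maximal rank, `d` even, char 2.  Model: `V₀` the
standard symplectic space of dimension `d`, `V = V₀ × V₀`, `B' (u,v) (u',v') = B₀ u v' + B₀ v u'`,
`T (u, v) = (u + v, v)`; then `xfer`. -/
theorem bad_two_model (d : ℕ) (hd : 1 ≤ d) (hde : Even d) (h2 : (2 : F) = 0) :
    ∃ g : Matrix.symplecticGroup (Fin d) F, toEnd g ^ 2 = 1 ∧ toEnd g ≠ 1 ∧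
      (∀ v, stdForm d v ((toEnd g - 1) v) = 0) ∧
      LinearMap.ker (toEnd g - 1) ≤ LinearMap.range (toEnd g - 1) := by
  obtain ⟨e, rfl⟩ := hde
  have he : 1 ≤ e := by omega
  let V₀ := Fin e ⊕ Fin e → F
  let B₀ : LinearMap.BilinForm F V₀ := stdForm e
  have hskew : ∀ u v : V₀, B₀ v u = - B₀ u v := by
    intro u v
    have h := stdForm_self (F := F) e (u + v)
    have hu := stdForm_self (F := F) e u
    have hv := stdForm_self (F := F) e v
    simp only [map_add, LinearMap.add_apply] at h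
    rw [hu, hv] at h
    change stdForm e v u = - stdForm e u v
    linear_combination h
  let B' : LinearMap.BilinForm F (V₀ × V₀) :=
    B₀.comp (LinearMap.fst F V₀ V₀) (LinearMap.snd F V₀ V₀) +
      B₀.comp (LinearMap.snd F V₀ V₀) (LinearMap.fst F V₀ V₀)
  have hB' : ∀ x y : V₀ × V₀, B' x y = B₀ x.1 y.2 + B₀ x.2 y.1 := fun x y => rfl
  let T : Module.End F (V₀ × V₀) :=
    LinearMap.prod (LinearMap.fst F V₀ V₀ + LinearMap.snd F V₀ V₀) (LinearMap.snd F V₀ V₀)
  have hTapp : ∀ x : V₀ × V₀, T x = (x.1 + x.2, x.2) := fun x => rfl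
  have halt : ∀ x, B' x x = 0 := by
    intro x
    rw [hB', hskew x.1 x.2]
    ring
  have hnd : ∀ x, (∀ y, B' x y = 0) → x = 0 := by
    intro x hx
    apply Prod.ext
    · apply stdForm_nondeg e
      intro c'
      have h := hx (0, c')
      rw [hB'] at h
      simpa using h
    · apply stdForm_nondeg e
      intro c'
      have h := hx (c', 0)
      rw [hB'] at h
      simpa using h
  have hdim : Module.finrank F (V₀ × V₀) = 2 * (e + e) := by
    rw [Module.finrank_prod, Module.finrank_fintype_fun_eq_card]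
    simp only [Fintype.card_sum, Fintype.card_fin]
    ring
  have two_smul0 : ∀ c : F, c + c = 0 := by
    intro c
    have : c + c = 2 * c := by ring
    rw [this, h2, zero_mul]
  have hT : Preserves B' T := by
    intro x y
    rw [hB', hB', hTapp, hTapp]
    simp only [map_add, LinearMap.add_apply]
    have := two_smul0 (B₀ x.2 y.2)
    linear_combination this
  obtain ⟨g, Φ, hΦ, hg⟩ := xfer (e + e) (V₀ × V₀) B' halt hnd hdim T hT
  have hsub : ∀ x, (toEnd g - 1) (Φ x) = Φ ((T - 1) x) := by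
    intro x
    rw [LinearMap.sub_apply, LinearMap.sub_apply, hg, map_sub]
    rfl
  have hT1 : ∀ x : V₀ × V₀, (T - 1) x = (x.2, 0) := by
    intro x
    rw [LinearMap.sub_apply, hTapp]
    apply Prod.ext
    · change x.1 + x.2 - x.1 = x.2
      abel
    · change x.2 - x.2 = 0
      abel
  refine ⟨g, ?_, ?_, ?_, ?_⟩
  · apply LinearMap.ext
    intro w
    obtain ⟨x, rfl⟩ := Φ.surjective w
    rw [pow_two, Module.End.mul_apply, hg, hg, hTapp, hTapp, Module.End.one_apply]
    congr 1
    apply Prod.ext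
    · change x.1 + x.2 + x.2 = x.1
      funext i
      have := two_smul0 (x.2 i)
      change x.1 i + x.2 i + x.2 i = x.1 i
      linear_combination this
    · rfl
  · intro h1
    -- pick v ≠ 0
    have hne : ∃ v : V₀, v ≠ 0 := by
      refine ⟨fun _ => 1, fun h => ?_⟩
      have h5 : (1 : F) = 0 := congrFun h (Sum.inl ⟨0, by omega⟩)
      exact one_ne_zero h5
    obtain ⟨v, hv⟩ := hne
    have h3 := hsub (0, v)
    rw [h1, sub_self, LinearMap.zero_apply, hT1] at h3
    have h4 : ((v, 0) : V₀ × V₀) = 0 := Φ.injective (by rw [← h3, map_zero])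
    exact hv (congrArg Prod.fst h4)
  · intro w
    obtain ⟨x, rfl⟩ := Φ.surjective w
    rw [hsub, hΦ, hB', hT1]
    change B₀ x.1 0 + stdForm e x.2 x.2 = 0
    rw [stdForm_self, map_zero, add_zero]
  · intro w hw
    obtain ⟨x, rfl⟩ := Φ.surjective w
    rw [LinearMap.mem_ker, hsub, hT1] at hw
    have h4 : ((x.2, 0) : V₀ × V₀) = 0 := Φ.injective (by rw [hw, map_zero])
    have hx2 : x.2 = 0 := congrArg Prod.fst h4
    refine ⟨Φ (0, x.1), ?_⟩
    rw [hsub, hT1]
    congr 1
    exact Prod.ext rfl hx2.symm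

end xf

end Cfsg.Agent.Helper37.TI5956
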