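import Mathlib

set_option autoImplicit false

namespace Cfsg.Agent.Helper37.TI5956

/-- DARITH (case d; arithmetic). -/
theorem d_arith (c m n ρ : ℕ) (hc : 0 < c) (hce : Even c) (hme : Even m) (hcm : c ≤ m)
    (hmn : m ≤ n) (hρ : c * ρ ≤ n) (hk : m % c ≤ n % c) :
    ∃ h₁ e₁ : ℕ, h₁ ≤ ρ ∧ 2 * e₁ ≤ n - c * ρ ∧ c * h₁ + 2 * e₁ = m := by
  obtain ⟨c', hc'⟩ := hce
  obtain ⟨m', hm'⟩ := hme
  have hdm : c * (m / c) + m % c = m := Nat.div_add_mod m c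
  have hdn : c * (n / c) + n % c = n := Nat.div_add_mod n c
  have hρn : ρ ≤ n / c := (Nat.le_div_iff_mul_le hc).mpr (by rw [Nat.mul_comm]; exact hρ)
  have hρn' : c * ρ ≤ c * (n / c) := Nat.mul_le_mul_left c hρn
  by_cases ha : m / c ≤ ρ
  · have e1 : c * (m / c) = 2 * (c' * (m / c)) := by rw [hc']; ring
    refine ⟨m / c, m' - c' * (m / c), ha, ?_, ?_⟩
    · omega
    · omega
  · have hlt : ρ < m / c := not_le.mp ha
    have h1 : c * ρ ≤ c * (m / c) := Nat.mul_le_mul_left c hlt.le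
    have e1 : c * ρ = 2 * (c' * ρ) := by rw [hc']; ring
    refine ⟨ρ, m' - c' * ρ, le_refl _, ?_, ?_⟩
    · omega
    · omega

end Cfsg.Agent.Helper37.TI5956
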