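import Mathlib
import Cfsg.Agent.Helper13.TKDefs

set_option autoImplicit false

namespace Cfsg.Agent.Helper37.TI5956

open Module Polynomial
open Cfsg.Agent.Helper42.SpForm Cfsg.Agent.Helper42.SpGroup Cfsg.Agent.Helper42.SpModels
open Cfsg.Agent.Helper13.TIsp Cfsg.Agent.Helper90.BG
open Cfsg.Agent.Helper11.TI5955 Cfsg.Agent.Helper58.TI5955 Cfsg.Agent.Helper59.TI5955
open Cfsg.Agent.Helper51.TI5955 Cfsg.Agent.Helper70.TI5955
open Cfsg.Agent.Helper39.TI5961 Cfsg.Agent.Helper58.TI5961 Cfsg.Agent.Helper59.TI5961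
open Cfsg.Agent.Helper60.TI5961 Cfsg.Agent.Helper31.TI5961 Cfsg.Agent.Helper19.TI5961

section xf

variable {F : Type*} [Field F]

/-- FIXCONGR (case d): fixed points of an element of order `r` on the nondegenerate `m`-spaces
(`Equiv.Perm.card_fixedPoints_modEq` or a `ZMod r`-action). -/
theorem fix_congr [Fintype F] (d m : ℕ) (r : ℕ) [Fact r.Prime]
    (g : Matrix.symplecticGroup (Fin d) F) (hg : toEnd g ^ r = 1) :
    Nat.card {W : Submodule F (Fin d ⊕ Fin d → F) // finrank F W = m ∧ NondegOn (stdForm d) W} ≡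
      Nat.card {W : Submodule F (Fin d ⊕ Fin d → F) //
        (finrank F W = m ∧ NondegOn (stdForm d) W) ∧ W.map (toEnd g) ≤ W} [MOD r] := by
  classical
  have hr : 0 < r := (Fact.out : r.Prime).pos
  have hTS : toEnd g ^ (r - 1) * toEnd g = 1 := by
    rw [← pow_succ, Nat.sub_add_cancel hr, hg]
  have hinj : Function.Injective (toEnd g) := by
    intro x y hxy
    have hx : (toEnd g ^ (r - 1) * toEnd g) x = x := by rw [hTS]; rfl
    have hy : (toEnd g ^ (r - 1) * toEnd g) y = y := by rw [hTS]; rfl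
    rw [Module.End.mul_apply] at hx hy
    rw [← hx, ← hy, hxy]
  have hpres : Preserves (stdForm d) (toEnd g) := preserves_toEnd g
  have hfr : ∀ W : Submodule F (Fin d ⊕ Fin d → F), finrank F ↥(W.map (toEnd g)) = finrank F W :=
    fun W => (Submodule.equivMapOfInjective (toEnd g) hinj W).finrank_eq.symm
  have hnd : ∀ W : Submodule F (Fin d ⊕ Fin d → F), NondegOn (stdForm d) W →
      NondegOn (stdForm d) (W.map (toEnd g)) := by
    intro W hW v hv hvw
    obtain ⟨w, hw, rfl⟩ := Submodule.mem_map.mp hv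
    have : w = 0 := by
      apply hW w hw
      intro w₂ hw₂
      rw [← hpres w w₂]
      exact hvw _ (Submodule.mem_map_of_mem hw₂)
    rw [this, map_zero]
  let Ω := {W : Submodule F (Fin d ⊕ Fin d → F) // finrank F W = m ∧ NondegOn (stdForm d) W}
  let f : Function.End Ω := fun W => ⟨W.1.map (toEnd g), (hfr W.1).trans W.2.1, hnd W.1 W.2.2⟩
  have hfk : ∀ (k : ℕ) (W : Ω), ((f ^ k) W).1 = W.1.map (toEnd g ^ k) := by
    intro k
    induction k with
    | zero =>
      intro W
      rw [pow_zero, pow_zero]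
      change W.1 = Submodule.map LinearMap.id W.1
      exact (Submodule.map_id _).symm
    | succ k ih =>
      intro W
      rw [pow_succ', pow_succ']
      change (f ((f ^ k) W)).1 = _
      change ((f ^ k) W).1.map (toEnd g) = _
      rw [ih W, ← Submodule.map_comp]
      rfl
  have hf : f ^ r ^ 1 = 1 := by
    rw [pow_one]
    funext W
    apply Subtype.ext
    rw [hfk r W, hg]
    change Submodule.map LinearMap.id W.1 = W.1
    exact Submodule.map_id _
  haveI : Fintype Ω := Fintype.ofFinite Ω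
  have key := Equiv.Perm.card_fixedPoints_modEq (p := r) (n := 1) hf
  rw [← Nat.card_eq_fintype_card, ← Nat.card_eq_fintype_card] at key
  have e : ↥(Function.fixedPoints f) ≃ {W : Submodule F (Fin d ⊕ Fin d → F) //
        (finrank F W = m ∧ NondegOn (stdForm d) W) ∧ W.map (toEnd g) ≤ W} :=
    { toFun := fun x => ⟨x.1.1, x.1.2, le_of_eq (congrArg Subtype.val x.2)⟩
      invFun := fun y => ⟨⟨y.1, y.2.1⟩, Subtype.ext
        (Submodule.eq_of_le_of_finrank_eq y.2.2 (hfr y.1))⟩
      left_inv := fun x => rfl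
      right_inv := fun y => rfl }
  rw [Nat.card_congr e] at key
  exact key

end xf

end Cfsg.Agent.Helper37.TI5956
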