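import Mathlib
import Cfsg.Agent.Helper13.TKDefs

set_option autoImplicit false

namespace Cfsg.Agent.Helper37.TI5956

open Module Polynomial
open Cfsg.Agent.Helper42.SpForm Cfsg.Agent.Helper42.SpGroup Cfsg.Agent.Helper42.SpModels
open Cfsg.Agent.Helper13.TIsp Cfsg.Agent.Helper90.BG
open Cfsg.Agent.Helper11.TI5955 Cfsg.Agent.Helper58.TI5955 Cfsg.Agent.Helper59.TI5955
open Cfsg.Agent.Helper51.TI5955 Cfsg.Agent.Helper70.TI5955
open Cfsg.Agent.Helper39.TI5961 Cfsg.Agent.Helper58.TI5961 Cfsg.Agent.Helper59.TI5961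
open Cfsg.Agent.Helper60.TI5961 Cfsg.Agent.Helper31.TI5961 Cfsg.Agent.Helper19.TI5961

section geom

variable {F : Type*} [Field F] {V : Type*} [AddCommGroup V] [Module F V] [FiniteDimensional F V]
  (B : LinearMap.BilinForm F V)

/-- JTADD (case a): Jordan types add over independent invariant subspaces. -/
theorem jt_add (N : Module.End F V) (Z₁ Z₂ : Submodule F V) (h1 : ∀ v ∈ Z₁, N v ∈ Z₁)
    (h2 : ∀ v ∈ Z₂, N v ∈ Z₂) (hd : Z₁ ⊓ Z₂ = ⊥) (l₁ l₂ : Multiset ℕ) (hl₁ : JT N Z₁ l₁)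
    (hl₂ : JT N Z₂ l₂) : JT N (Z₁ ⊔ Z₂) (l₁ + l₂) := by
  intro k
  have hp1 : ∀ (k : ℕ) v, v ∈ Z₁ → (N ^ k) v ∈ Z₁ := by
    intro k
    induction k with
    | zero => intro v hv; simpa using hv
    | succ k ih => intro v hv; rw [pow_succ, Module.End.mul_apply]; exact ih _ (h1 v hv)
  have hp2 : ∀ (k : ℕ) v, v ∈ Z₂ → (N ^ k) v ∈ Z₂ := by
    intro k
    induction k with
    | zero => intro v hv; simpa using hv
    | succ k ih => intro v hv; rw [pow_succ, Module.End.mul_apply]; exact ih _ (h2 v hv)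
  have heq : (Z₁ ⊔ Z₂) ⊓ LinearMap.ker (N ^ k) =
      (Z₁ ⊓ LinearMap.ker (N ^ k)) ⊔ (Z₂ ⊓ LinearMap.ker (N ^ k)) := by
    apply le_antisymm
    · rintro w ⟨hw, hwk⟩
      obtain ⟨z₁, hz₁, z₂, hz₂, rfl⟩ := Submodule.mem_sup.mp hw
      have hsum : (N ^ k) z₁ + (N ^ k) z₂ = 0 := by rw [← map_add]; exact hwk
      have hz : (N ^ k) z₁ ∈ Z₁ ⊓ Z₂ := by
        refine ⟨hp1 k z₁ hz₁, ?_⟩
        have : (N ^ k) z₁ = - (N ^ k) z₂ := eq_neg_of_add_eq_zero_left hsum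
        rw [this]; exact Z₂.neg_mem (hp2 k z₂ hz₂)
      rw [hd] at hz
      have hz1 : (N ^ k) z₁ = 0 := (Submodule.mem_bot F).mp hz
      have hz2 : (N ^ k) z₂ = 0 := by rw [hz1, zero_add] at hsum; exact hsum
      exact Submodule.add_mem_sup ⟨hz₁, hz1⟩ ⟨hz₂, hz2⟩
    · exact sup_le (inf_le_inf_right _ le_sup_left) (inf_le_inf_right _ le_sup_right)
  have hdis : (Z₁ ⊓ LinearMap.ker (N ^ k)) ⊓ (Z₂ ⊓ LinearMap.ker (N ^ k)) = ⊥ := by
    apply le_bot_iff.mp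
    rw [← hd]
    exact inf_le_inf inf_le_left inf_le_left
  have hfin := Submodule.finrank_sup_add_finrank_inf_eq (Z₁ ⊓ LinearMap.ker (N ^ k))
    (Z₂ ⊓ LinearMap.ker (N ^ k))
  rw [hdis, finrank_bot, add_zero] at hfin
  rw [heq, Multiset.map_add, Multiset.sum_add, ← hl₁ k, ← hl₂ k]
  exact hfin

end geom

end Cfsg.Agent.Helper37.TI5956
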