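import Mathlib

set_option autoImplicit false

namespace Cfsg.Agent.Helper37.TI5956

/-- MSEXT (case a; combinatorics): a multiset of positive naturals is determined by the sums
`∑ min a k` (the number of parts `≥ k` is the difference of consecutive sums). -/
theorem ms_min_ext (l l' : Multiset ℕ) (hp : ∀ a ∈ l, 0 < a) (hp' : ∀ a ∈ l', 0 < a)
    (h : ∀ k : ℕ, (l.map (fun a => min a k)).sum = (l'.map (fun a => min a k)).sum) : l = l' := by
  classical
  have key : ∀ (s : Multiset ℕ) (k : ℕ), (s.map (fun a => min a (k+1))).sum =
      (s.map (fun a => min a k)).sum + s.countP (fun a => k + 1 ≤ a) := by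
    intro s k
    induction s using Multiset.induction_on with
    | empty => simp
    | cons a s ih =>
      simp only [Multiset.map_cons, Multiset.sum_cons, Multiset.countP_cons]
      rw [ih]
      split_ifs with hak
      · have : min a (k+1) = min a k + 1 := by omega
        omega
      · have : min a (k+1) = min a k := by omega
        omega
  have hc : ∀ k, l.countP (fun a => k + 1 ≤ a) = l'.countP (fun a => k + 1 ≤ a) := by
    intro k
    have h1 := key l k
    have h2 := key l' k
    have h3 := h k
    have h4 := h (k+1)
    omega
  have key2 : ∀ (s : Multiset ℕ) (a : ℕ), s.countP (fun b => a ≤ b) =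
      s.count a + s.countP (fun b => a + 1 ≤ b) := by
    intro s a
    induction s using Multiset.induction_on with
    | empty => simp
    | cons b s ih =>
      simp only [Multiset.countP_cons, Multiset.count_cons]
      rw [ih]
      split_ifs <;> omega
  ext a
  rcases Nat.eq_zero_or_pos a with rfl | ha
  · rw [Multiset.count_eq_zero_of_notMem, Multiset.count_eq_zero_of_notMem]
    · intro h0; exact absurd (hp' 0 h0) (lt_irrefl 0)
    · intro h0; exact absurd (hp 0 h0) (lt_irrefl 0)
  · obtain ⟨k, rfl⟩ : ∃ k, a = k + 1 := ⟨a - 1, by omega⟩
    have h1 := key2 l (k+1)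
    have h2 := key2 l' (k+1)
    have h3 := hc k
    have h4 := hc (k+1)
    omega

end Cfsg.Agent.Helper37.TI5956
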