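import Mathlib
import Cfsg.Agent.Helper71.T4Defs

set_option autoImplicit false

namespace Cfsg.Agent.Helper37.T4K5b

open Matrix Cfsg.Agent.Helper71.T4
open scoped Kronecker

variable {F : Type*} [Field F] {a b : ℕ}

/-- the entries of a matrix acting on the pure tensors `u ⊗ w` as `u' ⊗ B w` -/
theorem entry_of_line (g : Matrix (Fin a × Fin b) (Fin a × Fin b) F) (u u' : Fin a → F)
    (B : Matrix (Fin b) (Fin b) F) (h : ∀ w : Fin b → F, g *ᵥ pt u w = pt u' (B *ᵥ w))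
    (i : Fin a) (k l : Fin b) : ∑ j, g (i, k) (j, l) * u j = u' i * B k l := by
  have h1 := congrFun (h (Pi.single l 1)) (i, k)
  have h2 : (g *ᵥ pt u (Pi.single l 1)) (i, k) = ∑ j, g (i, k) (j, l) * u j := by
    simp only [Matrix.mulVec, dotProduct, pt, Fintype.sum_prod_type]
    refine Finset.sum_congr rfl (fun j _ => ?_)
    simp [Pi.single_apply]
  have h3 : pt u' (B *ᵥ Pi.single l 1) (i, k) = u' i * B k l := by
    simp [pt]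
  rw [← h2, h1, h3]

/-- an invertible matrix has no zero column -/
theorem col_ne_zero (g : Matrix (Fin a × Fin b) (Fin a × Fin b) F) (hg : g.det ≠ 0)
    (p : Fin a × Fin b) : ∃ q, g q p ≠ 0 := by
  by_contra hcon
  push Not at hcon
  have h0 : g *ᵥ Pi.single p 1 = 0 := by
    ext q
    simp [hcon q]
  have h1 := congrFun (Matrix.eq_zero_of_mulVec_eq_zero hg h0) p
  simp at h1

/-- the "left" vectors of two different lines are not parallel -/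
theorem not_parallel (g : Matrix (Fin a × Fin b) (Fin a × Fin b) F) (hg : g.det ≠ 0)
    (j₁ j₂ : Fin a) (hj : j₁ ≠ j₂) (U₁ U₂ : Fin a → F) (B₁ B₂ : Matrix (Fin b) (Fin b) F)
    (h₁ : ∀ w : Fin b → F, g *ᵥ pt (Pi.single j₁ 1) w = pt U₁ (B₁ *ᵥ w))
    (h₂ : ∀ w : Fin b → F, g *ᵥ pt (Pi.single j₂ 1) w = pt U₂ (B₂ *ᵥ w)) (l₀ : Fin b) :
    ∃ i₁ i₂, U₁ i₁ * U₂ i₂ - U₂ i₁ * U₁ i₂ ≠ 0 := by
  by_contra hcon
  push Not at hcon
  obtain ⟨⟨i₀, k₀⟩, hq⟩ := col_ne_zero g hg (j₁, l₀)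
  have e1 : g (i₀, k₀) (j₁, l₀) = U₁ i₀ * B₁ k₀ l₀ := by
    have := entry_of_line g _ _ _ h₁ i₀ k₀ l₀
    simpa [Pi.single_apply] using this
  have hU : U₁ i₀ ≠ 0 := by
    intro h0
    rw [e1, h0, zero_mul] at hq
    exact hq rfl
  obtain ⟨c, hc⟩ : ∃ c : F, c = U₂ i₀ / U₁ i₀ := ⟨_, rfl⟩
  have hU2 : ∀ i, U₂ i = c * U₁ i := by
    intro i
    have h3 := hcon i₀ i
    rw [hc]
    field_simp
    linear_combination h3
  by_cases hd : B₁.det = 0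
  · obtain ⟨w, hw, hw0⟩ := Matrix.exists_mulVec_eq_zero_iff.2 hd
    have h0 : g *ᵥ pt (Pi.single j₁ 1) w = 0 := by
      rw [h₁ w, hw0]
      ext p
      simp [pt]
    have h4 := Matrix.eq_zero_of_mulVec_eq_zero hg h0
    apply hw
    ext l
    have h5 := congrFun h4 (j₁, l)
    simpa [pt] using h5
  · have hinv : B₁ * B₁⁻¹ = 1 := Matrix.mul_nonsing_inv B₁ (Ne.isUnit hd)
    obtain ⟨v, hv⟩ : ∃ v : Fin b → F, v = B₂ *ᵥ Pi.single l₀ 1 := ⟨_, rfl⟩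
    obtain ⟨w₁, hw₁⟩ : ∃ w₁ : Fin b → F, w₁ = B₁⁻¹ *ᵥ (c • v) := ⟨_, rfl⟩
    have hB : B₁ *ᵥ w₁ = c • v := by
      rw [hw₁, Matrix.mulVec_mulVec, hinv, Matrix.one_mulVec]
    have h0 : g *ᵥ (pt (Pi.single j₂ 1) (Pi.single l₀ 1) - pt (Pi.single j₁ 1) w₁) = 0 := by
      rw [Matrix.mulVec_sub, h₂, h₁, hB, ← hv]
      ext ⟨i, k⟩
      simp only [pt, Pi.sub_apply, Pi.smul_apply, smul_eq_mul, Pi.zero_apply]
      rw [hU2 i]
      ring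
    have h4 := Matrix.eq_zero_of_mulVec_eq_zero hg h0
    have h5 := congrFun h4 (j₂, l₀)
    simp [pt, hj.symm] at h5

/-- PIECE K5b of CALL S5637. -/
theorem kron_of_lines (g : Matrix (Fin a × Fin b) (Fin a × Fin b) F) (hg : g.det ≠ 0)
    (h : ∀ u : Fin a → F, u ≠ 0 → ∃ (u' : Fin a → F) (B : Matrix (Fin b) (Fin b) F),
      ∀ w : Fin b → F, g *ᵥ pt u w = pt u' (B *ᵥ w)) : IsKron g := by
  rcases Nat.eq_zero_or_pos a with rfl | ha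
  · exact ⟨0, 0, by ext ⟨i, _⟩; exact i.elim0⟩
  rcases Nat.eq_zero_or_pos b with rfl | hb
  · exact ⟨0, 0, by ext ⟨_, k⟩; exact k.elim0⟩
  have hne : ∀ j : Fin a, (Pi.single j (1 : F) : Fin a → F) ≠ 0 := by
    intro j h0
    have := congrFun h0 j
    simp at this
  choose U Bm hUB using fun j => h (Pi.single j 1) (hne j)
  have E1 : ∀ i k j l, g (i, k) (j, l) = U j i * Bm j k l := by
    intro i k j l
    have := entry_of_line g _ _ _ (hUB j) i k l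
    simpa [Pi.single_apply] using this
  obtain ⟨j₀⟩ : Nonempty (Fin a) := ⟨⟨0, ha⟩⟩
  obtain ⟨l₀⟩ : Nonempty (Fin b) := ⟨⟨0, hb⟩⟩
  have M : ∀ j₁ j₂ k₁ l₁ k₂ l₂, Bm j₁ k₁ l₁ * Bm j₂ k₂ l₂ = Bm j₁ k₂ l₂ * Bm j₂ k₁ l₁ := by
    intro j₁ j₂ k₁ l₁ k₂ l₂
    by_cases hj : j₁ = j₂
    · subst hj; ring
    obtain ⟨i₁, i₂, hi⟩ := not_parallel g hg j₁ j₂ hj (U j₁) (U j₂) (Bm j₁) (Bm j₂)
      (hUB j₁) (hUB j₂) l₀
    have hne2 : (Pi.single j₁ (1 : F) + Pi.single j₂ 1 : Fin a → F) ≠ 0 := by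
      intro h0
      have := congrFun h0 j₁
      simp [hj] at this
    obtain ⟨u'', B'', h''⟩ := h _ hne2
    have E2 : ∀ i k l, U j₁ i * Bm j₁ k l + U j₂ i * Bm j₂ k l = u'' i * B'' k l := by
      intro i k l
      have := entry_of_line g _ _ _ h'' i k l
      rw [← E1, ← E1, ← this]
      simp [Pi.single_apply, mul_add, Finset.sum_add_distrib]
    have e11 := E2 i₁ k₁ l₁
    have e22 := E2 i₂ k₂ l₂
    have e12 := E2 i₁ k₂ l₂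
    have e21 := E2 i₂ k₁ l₁
    have key : (U j₁ i₁ * U j₂ i₂ - U j₂ i₁ * U j₁ i₂) *
        (Bm j₁ k₁ l₁ * Bm j₂ k₂ l₂ - Bm j₁ k₂ l₂ * Bm j₂ k₁ l₁) = 0 := by
      have p1 : (U j₁ i₁ * Bm j₁ k₁ l₁ + U j₂ i₁ * Bm j₂ k₁ l₁) *
          (U j₁ i₂ * Bm j₁ k₂ l₂ + U j₂ i₂ * Bm j₂ k₂ l₂)
          = (u'' i₁ * B'' k₁ l₁) * (u'' i₂ * B'' k₂ l₂) := by rw [e11, e22]
      have p2 : (U j₁ i₁ * Bm j₁ k₂ l₂ + U j₂ i₁ * Bm j₂ k₂ l₂) *
          (U j₁ i₂ * Bm j₁ k₁ l₁ + U j₂ i₂ * Bm j₂ k₁ l₁)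
          = (u'' i₁ * B'' k₂ l₂) * (u'' i₂ * B'' k₁ l₁) := by rw [e12, e21]
      linear_combination p1 - p2
    rcases mul_eq_zero.1 key with h0 | h0
    · exact absurd h0 hi
    · linear_combination h0
  obtain ⟨⟨i₀, k₀⟩, hq⟩ := col_ne_zero g hg (j₀, l₀)
  rw [E1] at hq
  have ht : Bm j₀ k₀ l₀ ≠ 0 := right_ne_zero_of_mul hq
  refine ⟨Matrix.of (fun i j => U j i * Bm j k₀ l₀ / Bm j₀ k₀ l₀), Bm j₀, ?_⟩
  ext ⟨i, k⟩ ⟨j, l⟩
  rw [Matrix.kronecker_apply, E1]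
  simp only [Matrix.of_apply]
  field_simp
  linear_combination (U j i) * M j j₀ k l k₀ l₀

end Cfsg.Agent.Helper37.T4K5b
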