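-- helper37 library: piece WORDS of helper69's CALL S6002.
import Mathlib
import Cfsg.Prelude.Def_GeometricClasses
import Cfsg.Prelude.Def_LieClassical
import Cfsg.Agent.Helper69.E4Def
import Cfsg.Agent.Helper69.E5Def

set_option autoImplicit false

namespace Cfsg.Agent.Helper37
open Cfsg.Agent.Helper69
open scoped Matrix

theorem e5I_mul_self {F : Type*} [Field F] : e5I F * e5I F = -1 := by
  ext i j
  fin_cases i <;> fin_cases j <;> simp [e5I, Matrix.mul_apply, Fin.sum_univ_four]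

theorem e5I_sq {F : Type*} [Field F] : e5I F ^ 2 = -1 := by
  rw [pow_two, e5I_mul_self]

theorem e5J_sq {F : Type*} [Field F] (a b : F) (hab : a ^ 2 + b ^ 2 = -1) : e5J a b ^ 2 = -1 := by
  rw [pow_two]
  ext i j
  fin_cases i <;> fin_cases j <;> simp [e5J, Matrix.mul_apply, Fin.sum_univ_four] <;>
    first | linear_combination hab | ring

theorem e5_IJ {F : Type*} [Field F] (a b : F) : e5I F * e5J a b = -(e5J a b * e5I F) := by
  ext i j
  fin_cases i <;> fin_cases j <;> simp [e5I, e5J, Matrix.mul_apply, Fin.sum_univ_four]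

theorem e5_IX {F : Type*} [Field F] : e5I F * e4X2 F = e4X2 F * e5I F := by
  ext i j
  fin_cases i <;> fin_cases j <;> simp [e5I, e4X2, Matrix.mul_apply, Fin.sum_univ_four]

theorem e5_IZ {F : Type*} [Field F] : e5I F * e4Z2 F = e4Z2 F * e5I F := by
  ext i j
  fin_cases i <;> fin_cases j <;> simp [e5I, e4Z2, Matrix.mul_apply, Fin.sum_univ_four]

theorem e5_JX {F : Type*} [Field F] (a b : F) : e5J a b * e4X2 F = e4X2 F * e5J a b := by
  ext i j
  fin_cases i <;> fin_cases j <;> simp [e5J, e4X2, Matrix.mul_apply, Fin.sum_univ_four]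

theorem e5_JZ {F : Type*} [Field F] (a b : F) : e5J a b * e4Z2 F = e4Z2 F * e5J a b := by
  ext i j
  fin_cases i <;> fin_cases j <;> simp [e5J, e4Z2, Matrix.mul_apply, Fin.sum_univ_four]

theorem e5_X2_mul_self {F : Type*} [Field F] : e4X2 F * e4X2 F = 1 := by
  ext i j
  fin_cases i <;> fin_cases j <;> simp [e4X2, Matrix.mul_apply, Fin.sum_univ_four]

theorem e5_Z2_mul_self {F : Type*} [Field F] : e4Z2 F * e4Z2 F = 1 := by
  ext i j
  fin_cases i <;> fin_cases j <;> simp [e4Z2, Matrix.mul_apply, Fin.sum_univ_four]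

theorem e5_ZX {F : Type*} [Field F] : e4Z2 F * e4X2 F = (-1 : F) • (e4X2 F * e4Z2 F) := by
  ext i j
  fin_cases i <;> fin_cases j <;> simp [e4X2, e4Z2, Matrix.mul_apply, Fin.sum_univ_four]

theorem e5_JI {F : Type*} [Field F] (a b : F) :
    e5J a b * e5I F = (-1 : F) • (e5I F * e5J a b) := by
  rw [e5_IJ]
  simp

/-- generic power commutation -/
theorem e5_pow_comm_one {F : Type*} [Field F] {n : Type*} [Fintype n] [DecidableEq n]
    (A B : Matrix n n F) (s : F) (h : B * A = s • (A * B)) (j : ℕ) :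
    B * A ^ j = s ^ j • (A ^ j * B) := by
  induction j with
  | zero => simp
  | succ j ih =>
    rw [pow_succ, ← mul_assoc, ih, Matrix.smul_mul, mul_assoc, h, Matrix.mul_smul,
      smul_smul, ← mul_assoc, pow_succ]

theorem e5_pow_comm {F : Type*} [Field F] {n : Type*} [Fintype n] [DecidableEq n]
    (A B : Matrix n n F) (s : F) (h : B * A = s • (A * B)) (k j : ℕ) :
    B ^ k * A ^ j = s ^ (k * j) • (A ^ j * B ^ k) := by
  induction k with
  | zero => simp
  | succ k ih =>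
    rw [pow_succ, mul_assoc, e5_pow_comm_one A B s h, Matrix.mul_smul, ← mul_assoc, ih,
      Matrix.smul_mul, smul_smul, mul_assoc, ← pow_succ, ← pow_add]
    congr 2
    ring

theorem e5_P1_mul {F : Type*} [Field F] (a b : F) (α β α' β' : ℕ) :
    (e5I F ^ α * e5J a b ^ β) * (e5I F ^ α' * e5J a b ^ β') =
      (-1 : F) ^ (β * α') • (e5I F ^ (α + α') * e5J a b ^ (β + β')) := by
  rw [mul_assoc, ← mul_assoc (e5J a b ^ β), e5_pow_comm _ _ _ (e5_JI a b), Matrix.smul_mul,
    Matrix.mul_smul, mul_assoc (e5I F ^ α'), ← mul_assoc, ← pow_add, ← pow_add]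

theorem e5_P2_mul {F : Type*} [Field F] (γ δ γ' δ' : ℕ) :
    (e4X2 F ^ γ * e4Z2 F ^ δ) * (e4X2 F ^ γ' * e4Z2 F ^ δ') =
      (-1 : F) ^ (δ * γ') • (e4X2 F ^ (γ + γ') * e4Z2 F ^ (δ + δ')) := by
  rw [mul_assoc, ← mul_assoc (e4Z2 F ^ δ), e5_pow_comm _ _ _ e5_ZX, Matrix.smul_mul,
    Matrix.mul_smul, mul_assoc (e4X2 F ^ γ'), ← mul_assoc, ← pow_add, ← pow_add]

theorem e5_P1P2_comm {F : Type*} [Field F] (a b : F) (α β γ δ : ℕ) :
    Commute (e5I F ^ α * e5J a b ^ β) (e4X2 F ^ γ * e4Z2 F ^ δ) :=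
  Commute.mul_left
    (Commute.mul_right
      (Commute.pow_pow (show Commute (e5I F) (e4X2 F) from e5_IX) α γ)
      (Commute.pow_pow (show Commute (e5I F) (e4Z2 F) from e5_IZ) α δ))
    (Commute.mul_right
      (Commute.pow_pow (show Commute (e5J a b) (e4X2 F) from e5_JX a b) β γ)
      (Commute.pow_pow (show Commute (e5J a b) (e4Z2 F) from e5_JZ a b) β δ))

theorem e5W_eq {F : Type*} [Field F] (a b : F) (α β γ δ : ℕ) :
    e5W a b α β γ δ = (e5I F ^ α * e5J a b ^ β) * (e4X2 F ^ γ * e4Z2 F ^ δ) := by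
  unfold e5W
  rw [mul_assoc (e5I F ^ α * e5J a b ^ β)]

/-- the product of two words, with the explicit sign -/
theorem e5_word_mul' {F : Type*} [Field F] (a b : F) (α β γ δ α' β' γ' δ' : ℕ) :
    e5W a b α β γ δ * e5W a b α' β' γ' δ' =
      (-1 : F) ^ (β * α' + δ * γ') • e5W a b (α + α') (β + β') (γ + γ') (δ + δ') := by
  rw [e5W_eq, e5W_eq, e5W_eq]
  have h1 : (e5I F ^ α * e5J a b ^ β) * (e4X2 F ^ γ * e4Z2 F ^ δ) *
      ((e5I F ^ α' * e5J a b ^ β') * (e4X2 F ^ γ' * e4Z2 F ^ δ')) =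
      ((e5I F ^ α * e5J a b ^ β) * (e5I F ^ α' * e5J a b ^ β')) *
        ((e4X2 F ^ γ * e4Z2 F ^ δ) * (e4X2 F ^ γ' * e4Z2 F ^ δ')) := by
    rw [mul_assoc, ← mul_assoc (e4X2 F ^ γ * e4Z2 F ^ δ), ← (e5_P1P2_comm a b α' β' γ δ).eq,
      mul_assoc (e5I F ^ α' * e5J a b ^ β'), ← mul_assoc]
  rw [h1, e5_P1_mul, e5_P2_mul, Matrix.smul_mul, Matrix.mul_smul, smul_smul, ← pow_add]

/-- the product of two words is a word up to sign -/
theorem e5_word_mul {F : Type*} [Field F] (a b : F) (hab : a ^ 2 + b ^ 2 = -1)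
    (α β γ δ α' β' γ' δ' : ℕ) :
    ∃ k : ℕ, e5W a b α β γ δ * e5W a b α' β' γ' δ' =
      (-1 : F) ^ k • e5W a b (α + α') (β + β') (γ + γ') (δ + δ') :=
  ⟨_, e5_word_mul' a b α β γ δ α' β' γ' δ'⟩

theorem e5_pow_mod_neg {F : Type*} [Field F] {n : Type*} [Fintype n] [DecidableEq n]
    (A : Matrix n n F) (hA : A ^ 2 = -1) (k : ℕ) :
    A ^ k = (-1 : F) ^ (k / 2) • A ^ (k % 2) := by
  conv_lhs => rw [← Nat.mod_add_div k 2]
  rw [pow_add, pow_mul, hA]
  rcases Nat.even_or_odd (k / 2) with he | ho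
  · rw [he.neg_one_pow, he.neg_one_pow, mul_one, one_smul]
  · rw [ho.neg_one_pow, ho.neg_one_pow]
    simp

theorem e5_pow_mod_one {F : Type*} [Field F] {n : Type*} [Fintype n] [DecidableEq n]
    (A : Matrix n n F) (hA : A ^ 2 = 1) (k : ℕ) :
    A ^ k = A ^ (k % 2) := by
  conv_lhs => rw [← Nat.mod_add_div k 2]
  rw [pow_add, pow_mul, hA, one_pow, mul_one]

/-- words only depend on the exponents modulo 2, up to sign -/
theorem e5_word_mod {F : Type*} [Field F] (a b : F) (hab : a ^ 2 + b ^ 2 = -1) (α β γ δ : ℕ) :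
    ∃ k : ℕ, e5W a b α β γ δ = (-1 : F) ^ k • e5W a b (α % 2) (β % 2) (γ % 2) (δ % 2) := by
  refine ⟨α / 2 + β / 2, ?_⟩
  unfold e5W
  rw [e5_pow_mod_neg (e5I F) e5I_sq α, e5_pow_mod_neg (e5J a b) (e5J_sq a b hab) β,
    e5_pow_mod_one (e4X2 F) (by rw [pow_two, e5_X2_mul_self]) γ,
    e5_pow_mod_one (e4Z2 F) (by rw [pow_two, e5_Z2_mul_self]) δ]
  simp only [Matrix.smul_mul, Matrix.mul_smul, smul_smul, pow_add]
  rw [mul_comm]

theorem e5_scalar_of_commute {F : Type*} [Field F] (h2 : (2 : F) ≠ 0) (a b : F)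
    (hab : a ^ 2 + b ^ 2 = -1) (M : Matrix (Fin 4) (Fin 4) F)
    (hI : M * e5I F = e5I F * M) (hJ : M * e5J a b = e5J a b * M)
    (hX : M * e4X2 F = e4X2 F * M) (hZ : M * e4Z2 F = e4Z2 F * M) :
    ∃ c : F, M = c • (1 : Matrix (Fin 4) (Fin 4) F) := by
  have kI : ∀ i j, (M * e5I F) i j = (e5I F * M) i j := fun i j => by rw [hI]
  have kJ : ∀ i j, (M * e5J a b) i j = (e5J a b * M) i j := fun i j => by rw [hJ]
  have kX : ∀ i j, (M * e4X2 F) i j = (e4X2 F * M) i j := fun i j => by rw [hX]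
  have kZ : ∀ i j, (M * e4Z2 F) i j = (e4Z2 F * M) i j := fun i j => by rw [hZ]
  have hz : ∀ x : F, (x = -x ∨ -x = x) → x = 0 := by
    rintro x (h | h)
    · have : (2 : F) * x = 0 := by linear_combination h
      exact (mul_eq_zero.mp this).resolve_left h2
    · have : (2 : F) * x = 0 := by linear_combination -h
      exact (mul_eq_zero.mp this).resolve_left h2
  have b1 : M 1 1 = M 0 0 := by
    have := kX 0 1
    simp [e4X2, Matrix.mul_apply, Fin.sum_univ_four] at this
    first | exact this | exact this.symm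
  have b2 : M 2 2 = M 0 0 := by
    have := kI 0 2
    simp [e5I, Matrix.mul_apply, Fin.sum_univ_four] at this
    first | exact this | exact this.symm
  have b3 : M 3 3 = M 2 2 := by
    have := kX 2 3
    simp [e4X2, Matrix.mul_apply, Fin.sum_univ_four] at this
    first | exact this | exact this.symm
  -- the entries (0,2), (2,0)
  have c1 : M 0 2 = -M 2 0 := by
    have := kI 0 0
    simp [e5I, Matrix.mul_apply, Fin.sum_univ_four] at this
    linear_combination this
  have c2 : M 0 0 * a + M 0 2 * b = a * M 0 0 + b * M 2 0 := by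
    have := kJ 0 0
    simpa [e5J, Matrix.mul_apply, Fin.sum_univ_four] using this
  have c3 : M 0 0 * b + M 0 2 * (-a) = a * M 0 2 + b * M 2 2 := by
    have := kJ 0 2
    simpa [e5J, Matrix.mul_apply, Fin.sum_univ_four] using this
  have d1 : M 1 3 = -M 3 1 := by
    have := kI 1 1
    simp [e5I, Matrix.mul_apply, Fin.sum_univ_four] at this
    linear_combination this
  have d2 : M 1 1 * a + M 1 3 * b = a * M 1 1 + b * M 3 1 := by
    have := kJ 1 1
    simpa [e5J, Matrix.mul_apply, Fin.sum_univ_four] using this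
  have d3 : M 1 1 * b + M 1 3 * (-a) = a * M 1 3 + b * M 3 3 := by
    have := kJ 1 3
    simpa [e5J, Matrix.mul_apply, Fin.sum_univ_four] using this
  have e02 : M 0 2 = 0 := by
    have h1 : (2 : F) * M 0 2 = 0 := by
      linear_combination (2 * M 0 2) * hab + a * c3 + (a * b) * b2 - b * c2 - (b * b) * c1
    exact (mul_eq_zero.mp h1).resolve_left h2
  have e20 : M 2 0 = 0 := by
    have : M 2 0 = -M 0 2 := by rw [c1]; ring
    rw [this, e02, neg_zero]
  have e13 : M 1 3 = 0 := by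
    have h1 : (2 : F) * M 1 3 = 0 := by
      linear_combination (2 * M 1 3) * hab + a * d3 + (a * b) * b3 + (a * b) * b2
        - (a * b) * b1 - b * d2 - (b * b) * d1
    exact (mul_eq_zero.mp h1).resolve_left h2
  have e31 : M 3 1 = 0 := by
    have : M 3 1 = -M 1 3 := by rw [d1]; ring
    rw [this, e13, neg_zero]
  refine ⟨M 0 0, ?_⟩
  ext i j
  have a4 := kZ i j
  fin_cases i <;> fin_cases j <;>
    simp [e4Z2, Matrix.mul_apply, Fin.sum_univ_four] at a4 ⊢
  all_goals
    first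
      | exact b1
      | exact b2
      | exact b3.trans b2
      | exact e02
      | exact e20
      | exact e13
      | exact e31
      | exact hz _ (Or.inl a4)
      | exact hz _ (Or.inr a4)

end Cfsg.Agent.Helper37
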