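import Mathlib
import Cfsg.Agent.Helper77.D1Defs2

universe u
set_option autoImplicit false
open Cfsg Cfsg.Agent.Helper77
open scoped ComplexConjugate

namespace Cfsg.Agent.Helper37

variable {G : Type u} [Group G] [Finite G]

/-- CENK: the centre is `K`. -/
theorem s4504s_center (p : ℕ) [Fact p.Prime] (x : G) (K : Subgroup G) (h : D1Hyp p x K)
    (hKc : ∀ k ∈ K, k ∈ Subgroup.center G) (hnn : ¬ (Subgroup.zpowers x).Normal) :
    Subgroup.center G = K := by
  have hp : p.Prime := Fact.out
  apply le_antisymm
  · intro z hz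
    have hzc := Subgroup.mem_center_iff.mp hz
    obtain ⟨i, k, hk, hzk⟩ := (h.hC z).mp (hzc x).symm
    by_cases hpi : p ∣ i
    · have hxi : x ^ i = 1 := by
        rw [← h.hx] at hpi
        exact orderOf_dvd_iff_pow_eq_one.mp hpi
      rw [hzk, hxi, one_mul]
      exact hk
    · exfalso
      apply hnn
      have hxic : x ^ i ∈ Subgroup.center G := by
        have : x ^ i = z * k⁻¹ := by rw [hzk]; group
        rw [this]
        exact Subgroup.mul_mem _ hz (Subgroup.inv_mem _ (hKc k hk))
      have hcop : i.Coprime (orderOf x) := by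
        rw [h.hx]
        exact (Nat.Coprime.symm ((Nat.Prime.coprime_iff_not_dvd hp).mpr hpi))
      obtain ⟨m, hm⟩ := exists_pow_eq_self_of_coprime hcop
      have hxc : x ∈ Subgroup.center G := by
        rw [← hm]
        exact Subgroup.pow_mem _ hxic m
      refine ⟨fun g hg n => ?_⟩
      have hgc : g ∈ Subgroup.center G := (Subgroup.zpowers_le.mpr hxc) hg
      rw [Subgroup.mem_center_iff.mp hgc n, mul_inv_cancel_right]
      exact hg
  · exact hKc

end Cfsg.Agent.Helper37
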