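import Mathlib
import Cfsg.Agent.Helper77.D1Defs2

universe u
set_option autoImplicit false
open Cfsg Cfsg.Agent.Helper77
open scoped ComplexConjugate

namespace Cfsg.Agent.Helper37

variable {G : Type u} [Group G] [Finite G]

/-- `x ^ b` only depends on `b` mod `p`. -/
theorem s4504sl_pow_val (p : ℕ) [Fact p.Prime] (x : G) (hx : orderOf x = p) (b : ℕ) :
    x ^ ((b : ZMod p)).val = x ^ b := by
  rw [ZMod.val_natCast, ← hx, pow_mod_orderOf]

theorem s4504sl_pow_mul (p : ℕ) [Fact p.Prime] (x : G) (hx : orderOf x = p) (s v : (ZMod p)ˣ) :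
    x ^ ((s : ZMod p).val * (v : ZMod p).val) = x ^ ((s * v : (ZMod p)ˣ) : ZMod p).val := by
  rw [Units.val_mul, ZMod.val_mul]
  have h1 := pow_mod_orderOf x ((s : ZMod p).val * (v : ZMod p).val)
  rw [hx] at h1
  exact h1.symm

theorem s4504sl_index (p : ℕ) [Fact p.Prime] (F : Subgroup (ZMod p)ˣ)
    (hcard : 2 * Nat.card F + 1 = p) : F.index = 2 := by
  have h1 := F.index_mul_card
  have h2 : Nat.card (ZMod p)ˣ = p - 1 := by
    rw [Nat.card_eq_fintype_card, ZMod.card_units]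
  have hpos : 0 < Nat.card F := Nat.card_pos
  rw [h2] at h1
  have h3 : F.index * Nat.card F = 2 * Nat.card F := by omega
  exact Nat.eq_of_mul_eq_mul_right hpos h3

/-- elements of `F` give conjugates of `x`. -/
theorem s4504sl_in (p : ℕ) [Fact p.Prime] (x : G)
    (F : Subgroup (ZMod p)ˣ) (hF : (F : Set (ZMod p)ˣ) = normUnits p x) (u : (ZMod p)ˣ)
    (hu : u ∈ F) : ∃ n : G, n * x * n⁻¹ = x ^ (u : ZMod p).val := by
  have : u ∈ (F : Set (ZMod p)ˣ) := hu
  rw [hF] at this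
  exact this

/-- elements outside `F` give conjugates of `x ^ v`. -/
theorem s4504sl_out (p : ℕ) [Fact p.Prime] (x : G) (hx : orderOf x = p)
    (F : Subgroup (ZMod p)ˣ) (hF : (F : Set (ZMod p)ˣ) = normUnits p x)
    (hcard : 2 * Nat.card F + 1 = p) (v : (ZMod p)ˣ) (hv : v ∉ F) (u : (ZMod p)ˣ)
    (hu : u ∉ F) : ∃ n : G, n * x ^ (v : ZMod p).val * n⁻¹ = x ^ (u : ZMod p).val := by
  have hidx := s4504sl_index p F hcard
  have hvinv : v⁻¹ ∉ F := fun h => hv (by simpa using F.inv_mem h)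
  have hs : u * v⁻¹ ∈ F := (Subgroup.mul_mem_iff_of_index_two hidx).mpr
    ⟨fun h => absurd h hu, fun h => absurd h hvinv⟩
  obtain ⟨n, hn⟩ := s4504sl_in p x F hF _ hs
  refine ⟨n, ?_⟩
  rw [← conj_pow, hn, ← pow_mul, s4504sl_pow_mul p x hx, inv_mul_cancel_right]

end Cfsg.Agent.Helper37
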