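import Mathlib
import Cfsg.Agent.Helper77.D1Defs2
import Cfsg.Agent.Helper37.S4504SLem

universe u
set_option autoImplicit false
open Cfsg Cfsg.Agent.Helper77
open scoped ComplexConjugate

namespace Cfsg.Agent.Helper37

variable {G : Type u} [Group G] [Finite G]

/-- CLS: the two classes of nontrivial elements of `⟨x⟩`. -/
theorem s4504s_cls (p : ℕ) [Fact p.Prime] (x : G) (hx : orderOf x = p)
    (F : Subgroup (ZMod p)ˣ) (hF : (F : Set (ZMod p)ˣ) = normUnits p x)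
    (hcard : 2 * Nat.card F + 1 = p) (v : (ZMod p)ˣ) (hv : v ∉ F) :
    (∀ b : ℕ, ¬ p ∣ b → (∃ n : G, n * x * n⁻¹ = x ^ b) ∨
        (∃ n : G, n * x ^ (v : ZMod p).val * n⁻¹ = x ^ b)) ∧
    (∃ n : G, n * x * n⁻¹ = x ^ ((v : ZMod p).val * (v : ZMod p).val)) := by
  classical
  have hidx := s4504sl_index p F hcard
  refine ⟨fun b hb => ?_, ?_⟩
  · have hb0 : (b : ZMod p) ≠ 0 := fun h => hb ((ZMod.natCast_eq_zero_iff b p).mp h)
    have hpow : x ^ ((Units.mk0 (b : ZMod p) hb0 : (ZMod p)ˣ) : ZMod p).val = x ^ b := by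
      rw [Units.val_mk0]; exact s4504sl_pow_val p x hx b
    by_cases hu : Units.mk0 (b : ZMod p) hb0 ∈ F
    · left
      obtain ⟨n, hn⟩ := s4504sl_in p x F hF _ hu
      exact ⟨n, by rw [hn, hpow]⟩
    · right
      obtain ⟨n, hn⟩ := s4504sl_out p x hx F hF hcard v hv _ hu
      exact ⟨n, by rw [hn, hpow]⟩
  · have hvv : v * v ∈ F := (Subgroup.mul_mem_iff_of_index_two hidx).mpr Iff.rfl
    obtain ⟨n, hn⟩ := s4504sl_in p x F hF _ hvv
    exact ⟨n, by rw [hn, ← s4504sl_pow_mul p x hx]⟩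

end Cfsg.Agent.Helper37
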