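import Mathlib
import Cfsg.Agent.Helper77.D1Defs2
import Cfsg.Agent.Helper37.S4504SLem

universe u
set_option autoImplicit false
open Cfsg Cfsg.Agent.Helper77
open scoped ComplexConjugate

namespace Cfsg.Agent.Helper37

variable {G : Type u} [Group G] [Finite G]

/-- SPLIT: the sum of a class function over `⟨x⟩`. -/
theorem s4504s_split (p : ℕ) [Fact p.Prime] (x : G) (hx : orderOf x = p)
    (F : Subgroup (ZMod p)ˣ) (hF : (F : Set (ZMod p)ˣ) = normUnits p x)
    (hcard : 2 * Nat.card F + 1 = p) (v : (ZMod p)ˣ) (hv : v ∉ F)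
    (φ : G → ℂ) (hφ : ∀ g y : G, φ (y * g * y⁻¹) = φ g) :
    ∑ b ∈ Finset.range p, φ (x ^ b)
      = φ 1 + (Nat.card F : ℂ) * (φ x + φ (x ^ (v : ZMod p).val)) := by
  classical
  have hp : p.Prime := Fact.out
  have h0 : 0 ∈ Finset.range p := Finset.mem_range.mpr hp.pos
  rw [← Finset.add_sum_erase _ _ h0, pow_zero]
  congr 1
  -- reindex by units
  have hre : ∑ b ∈ (Finset.range p).erase 0, φ (x ^ b)
      = ∑ u : (ZMod p)ˣ, φ (x ^ (u : ZMod p).val) := by
    symm
    refine Finset.sum_bij (fun u _ => (u : ZMod p).val) ?_ ?_ ?_ ?_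
    · intro u _
      rw [Finset.mem_erase, Finset.mem_range]
      exact ⟨fun h => u.ne_zero ((ZMod.val_eq_zero _).mp h), ZMod.val_lt _⟩
    · intro u _ u' _ h
      exact Units.ext (ZMod.val_injective p h)
    · intro b hb
      rw [Finset.mem_erase, Finset.mem_range] at hb
      have hb0 : (b : ZMod p) ≠ 0 := fun h =>
        hb.1 (Nat.eq_zero_of_dvd_of_lt ((ZMod.natCast_eq_zero_iff b p).mp h) hb.2)
      refine ⟨Units.mk0 (b : ZMod p) hb0, Finset.mem_univ _, ?_⟩
      rw [Units.val_mk0, ZMod.val_natCast_of_lt hb.2]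
    · intro u _
      rfl
  rw [hre, ← Finset.sum_filter_add_sum_filter_not Finset.univ (fun u : (ZMod p)ˣ => u ∈ F)]
  have h1 : ∑ u ∈ Finset.univ.filter (fun u : (ZMod p)ˣ => u ∈ F), φ (x ^ (u : ZMod p).val)
      = (Nat.card F : ℂ) * φ x := by
    rw [Finset.sum_congr rfl (g := fun _ => φ x)]
    · rw [Finset.sum_const, nsmul_eq_mul, Nat.card_eq_fintype_card, Fintype.card_subtype]
    · intro u hu
      obtain ⟨n, hn⟩ := s4504sl_in p x F hF u (Finset.mem_filter.mp hu).2
      rw [← hn, hφ]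
  have hcnt : (Finset.univ.filter (fun u : (ZMod p)ˣ => ¬ u ∈ F)).card = Nat.card F := by
    have h3 := Finset.card_filter_add_card_filter_not (s := (Finset.univ : Finset (ZMod p)ˣ))
      (fun u : (ZMod p)ˣ => u ∈ F)
    have h4 : (Finset.univ.filter (fun u : (ZMod p)ˣ => u ∈ F)).card = Nat.card F := by
      rw [Nat.card_eq_fintype_card, Fintype.card_subtype]
    have h5 : (Finset.univ : Finset (ZMod p)ˣ).card = p - 1 := by
      rw [Finset.card_univ, ZMod.card_units]
    omega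
  have h2 : ∑ u ∈ Finset.univ.filter (fun u : (ZMod p)ˣ => ¬ u ∈ F), φ (x ^ (u : ZMod p).val)
      = (Nat.card F : ℂ) * φ (x ^ (v : ZMod p).val) := by
    rw [Finset.sum_congr rfl (g := fun _ => φ (x ^ (v : ZMod p).val))]
    · rw [Finset.sum_const, nsmul_eq_mul, hcnt]
    · intro u hu
      obtain ⟨n, hn⟩ := s4504sl_out p x hx F hF hcard v hv u (Finset.mem_filter.mp hu).2
      rw [← hn, hφ]
  rw [h1, h2]
  ring

end Cfsg.Agent.Helper37
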