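import Mathlib
import Cfsg.Agent.Helper96.OHDefs
import Cfsg.Agent.Helper43.OTDefs
import Cfsg.Agent.Helper50.OTFIXV

set_option autoImplicit false
set_option linter.unusedSectionVars false
set_option linter.unusedVariables false

/-!
# CALL S5992 (helper96), piece ONOODD (helper37)

Wrapper of helper50's `ot_fixv` (CALL OT, piece FIXV) at `h = ph (op_qf Q hQ)`.
-/

namespace Cfsg.Agent.Helper37.OH5992

open Module Polynomial Cfsg Cfsg.Geo
open Cfsg.Agent.Helper13.TIu Cfsg.Agent.Helper96.OH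

variable {ι : Type} [Fintype ι] [DecidableEq ι] {F : Type*} [Field F] (Q : (ι → F) → F)

/-- ONOODD: an isometry of odd order has a nonzero fixed vector in every invariant nondegenerate
subspace of odd dimension.  (Basis of `U`, `M` the matrix of `T|U`, `G` the Gram matrix of `pB`:
`Mᵀ G M = G`, `det G ≠ 0`, so `det M ^ 2 = 1`, and `det M ^ r = 1` gives `det M = 1`;
`(M - 1)ᵀ G M = -G (M - 1)` gives `det (M - 1) = (-1) ^ dim * det (M - 1)`, so `det (M - 1) = 0`.
Alternative: minimal polynomial self-reciprocal of odd degree.) -/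
theorem o_no_odd (hQ : IsNondegenerateQuadraticForm Q) (h2 : (2 : F) ≠ 0)
    (T : Module.End F (ι → F)) (hT : OPres Q T) (r : ℕ) (hr : Odd r) (hTr : T ^ r = 1)
    (U : Submodule F (ι → F)) (hUT : U.map T ≤ U) (hU : ONd Q U) (hodd : Odd (finrank F U)) :
    U ⊓ LinearMap.ker (T - 1) ≠ ⊥ := by
  have hD : Cfsg.Agent.Helper90.HT.HNondegOn
      (Cfsg.Agent.Helper43.OT.ph (Cfsg.Agent.Helper98.op_qf Q hQ)) U := by
    intro v hv hvw
    by_contra hv0
    obtain ⟨-, x, hx, hne⟩ := hU v hv hv0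
    exact hne (hvw x hx)
  obtain ⟨v, hvU, hv0, hTv⟩ := Cfsg.Agent.Helper50.OT5972.ot_fixv
    (Cfsg.Agent.Helper43.OT.ph (Cfsg.Agent.Helper98.op_qf Q hQ))
    (Cfsg.Agent.Helper43.OT.isHerm_ph _) h2 T
    (Cfsg.Agent.Helper43.OT.hpres_ph (Cfsg.Agent.Helper98.op_qf Q hQ) T hT) r hr hTr U hUT hD hodd
  intro hbot
  apply hv0
  have hmem : v ∈ U ⊓ LinearMap.ker (T - 1) := by
    refine Submodule.mem_inf.2 ⟨hvU, ?_⟩
    rw [LinearMap.mem_ker, LinearMap.sub_apply, hTv]
    exact sub_self v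
  rw [hbot] at hmem
  exact (Submodule.mem_bot F).1 hmem

end Cfsg.Agent.Helper37.OH5992
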