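import Mathlib
import Cfsg.Agent.Helper96.OHDefs
import Cfsg.Agent.Helper37.OHONOODD
import Cfsg.Agent.Helper31.OHOPAIR
import Cfsg.Agent.Helper31.OHOPERP
import Cfsg.Agent.Helper31.OHORAD

set_option autoImplicit false
set_option linter.unusedSectionVars false
set_option linter.unusedVariables false

/-!
# CALL S5992 (helper96), piece OTYPEODD (helper37; double)

Uses the landed pieces OPAIR, OPERP, ORAD (helper31) and ONOODD; the `i` odd case of OATOM is
inlined (OPAIR + ONOODD), so the file does not depend on OATOM / OAEA.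
-/

namespace Cfsg.Agent.Helper37.OH5992

open Module Polynomial Cfsg Cfsg.Geo
open Cfsg.Agent.Helper13.TIu Cfsg.Agent.Helper96.OH

variable {ι : Type} [Fintype ι] [DecidableEq ι] {F : Type*} [Field F] (Q : (ι → F) → F)

/-- OTYPEODD (uses OATOM, OPERP, ORAD, ONOODD, `Cfsg.Agent.Helper90.BG.chain_exists`,
`Cfsg.Agent.Helper33.o_type_mul`, `o_plus_bot`): `i` odd.  Strong induction on `finrank N`.  An atom
`E ≤ N` (dimension `2i`) contains an invariant `A` of dimension `i` (`chain_exists`, as in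
Helper86/TLUPAIR.lean), which is not nondegenerate (ONOODD), so totally isotropic (ORAD), so totally
singular (`q_eq_zero_of_polar`): `E` is of plus type.  `N = E ⟂ N'` (OPERP), `N'` of plus type by
induction, `o_type_mul`. -/
theorem o_type_odd [Fintype F] (hQ : IsNondegenerateQuadraticForm Q) (h2 : (2 : F) ≠ 0)
    (T : Module.End F (ι → F)) (hT : OPres Q T) (r : ℕ) [Fact r.Prime] (hr2 : 2 < r)
    (hrF : (r : F) ≠ 0) (hTr : T ^ r = 1)
    (hodd : Odd (orderOf ((Fintype.card F : ℕ) : ZMod r)))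
    (N : Submodule F (ι → F)) (hNT : N.map T ≤ N) (hN : ONd Q N)
    (hNk : N ⊓ LinearMap.ker (T - 1) = ⊥) : OPl Q N := by
  have hrp : r.Prime := Fact.out
  have hrodd : Odd r := hrp.odd_of_ne_two (by omega)
  obtain ⟨n, hn⟩ : ∃ n, finrank F N = n := ⟨_, rfl⟩
  induction n using Nat.strong_induction_on generalizing N with
  | _ n ih =>
    by_cases hN0 : N = ⊥
    · subst hN0
      exact Cfsg.Agent.Helper33.o_plus_bot Q hQ
    · obtain ⟨i, hi⟩ : ∃ i, i = orderOf ((Fintype.card F : ℕ) : ZMod r) := ⟨_, rfl⟩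
      rw [← hi] at hodd
      have hi1 : 1 ≤ i := by
        obtain ⟨k, hk⟩ := hodd
        omega
      obtain ⟨E, hEN, hET, hE, hEdim⟩ : ∃ E : Submodule F (ι → F), E ≤ N ∧ E.map T ≤ E ∧
          ONd Q E ∧ finrank F E = 2 * i := by
        rcases Cfsg.Agent.Helper31.OH5992.o_hyp_pair Q hQ T hT r hrF hTr N hNT hN hN0 hNk with
          ⟨U₁, hU₁N, hU₁T, hU₁, hU₁dim⟩ | ⟨E₂, hE₂N, hE₂T, hE₂, hE₂dim⟩
        · exfalso
          have hU₁k : U₁ ⊓ LinearMap.ker (T - 1) = ⊥ := by
            rw [eq_bot_iff, ← hNk]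
            exact inf_le_inf_right _ hU₁N
          exact Cfsg.Agent.Helper37.OH5992.o_no_odd Q hQ h2 T hT r hrodd hTr U₁ hU₁T hU₁
            (by rw [hU₁dim, ← hi]; exact hodd) hU₁k
        · exact ⟨E₂, hE₂N, hE₂T, hE₂, by rw [hE₂dim, hi]⟩
      have hEk : E ⊓ LinearMap.ker (T - 1) = ⊥ := by
        rw [eq_bot_iff, ← hNk]
        exact inf_le_inf_right _ hEN
      -- an invariant subspace of dimension `i` in `E`
      obtain ⟨A, -, hAE, hAT, hAdim⟩ := Cfsg.Agent.Helper90.BG.chain_exists T ⊥ E bot_le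
        (by simp) hET (∑ j ∈ Finset.range r, (X : F[X]) ^ j)
        (Cfsg.Agent.Helper90.BG.phi_ne_zero r hrF)
        (fun v hv => by
          have h1 : aeval T (∑ j ∈ Finset.range r, (X : F[X]) ^ j) v ∈
              E ⊓ LinearMap.ker (T - 1) := by
            refine Submodule.mem_inf.2 ⟨Cfsg.Agent.Helper90.BG.aeval_mem T E hET _ hv, ?_⟩
            rw [LinearMap.mem_ker, ← Module.End.mul_apply,
              Cfsg.Agent.Helper90.BG.sub_one_mul_aeval_phi T r hTr, LinearMap.zero_apply]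
          rw [hEk] at h1
          exact h1) i
        (fun g hg hdvd => by
          rw [hi]
          exact Cfsg.Agent.Helper46.bgl_irr_factor_degree r hrF g hg hdvd) 1
        (by rw [finrank_bot, hEdim]; omega)
      rw [finrank_bot, zero_add, mul_one] at hAdim
      have hAk : A ⊓ LinearMap.ker (T - 1) = ⊥ := by
        rw [eq_bot_iff, ← hEk]
        exact inf_le_inf_right _ hAE
      have hAts : ∀ u ∈ A, ∀ v ∈ A, QuadraticMap.polar Q u v = 0 := by
        rcases Cfsg.Agent.Helper31.OH5992.o_rad_dich Q hQ T hT r hrF hTr A hAT hAk (by rw [hAdim, hi]) with hA | hA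
        · exact absurd hAk (Cfsg.Agent.Helper37.OH5992.o_no_odd Q hQ h2 T hT r hrodd hTr A hAT hA
            (by rw [hAdim]; exact hodd))
        · exact hA
      have hEpl : OPl Q E := by
        refine ⟨A, hAE, fun w hw => q_eq_zero_of_polar Q hQ h2 w (hAts w hw w hw), ?_⟩
        rw [hAdim, hEdim]
      obtain ⟨P, hPN, hPT, hP, hEP, hsup, horth, hdim⟩ :=
        Cfsg.Agent.Helper31.OH5992.o_perp Q hQ T hT r hrp.pos hTr N E hN hE hEN hNT hET
      have hPk : P ⊓ LinearMap.ker (T - 1) = ⊥ := by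
        rw [eq_bot_iff, ← hNk]
        exact inf_le_inf_right _ hPN
      have hPpl : OPl Q P := ih (finrank F P) (by omega) P hPT hP hPk rfl
      have hPev : Even (finrank F P) := by
        obtain ⟨U, -, -, hU⟩ := hPpl
        exact ⟨finrank F U, by omega⟩
      have hmul := Cfsg.Agent.Helper33.o_type_mul Q hQ E P hE hP horth
        ⟨i, by rw [hEdim]; omega⟩ hPev
      rw [hsup] at hmul
      exact hmul.2 ⟨fun _ => hPpl, fun _ => hEpl⟩

end Cfsg.Agent.Helper37.OH5992
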