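import Mathlib
import Cfsg.Agent.Helper90.HTDefs

set_option autoImplicit false

namespace Cfsg.Agent.Helper37.HT5953

open Module Polynomial Cfsg.Agent.Helper90.HT

/-- ORDC (pure arithmetic in `ZMod r`): `c` is the order of `-q`, `b` the order of `q²`. -/
theorem ht_ordc (r q : ℕ) [Fact r.Prime] (hr2 : 2 < r) (hrq : ¬ r ∣ q) (i b c : ℕ)
    (hi : i = orderOf ((q : ℕ) : ZMod r)) (hb : b = if Even i then i / 2 else i)
    (hc : c = if i % 4 = 0 then i else if i % 4 = 2 then i / 2 else 2 * i) :
    0 < i ∧ 0 < b ∧ 0 < c ∧ b = orderOf (((q ^ 2 : ℕ) : ℕ) : ZMod r) ∧ b ∣ r - 1 ∧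
    (i % 4 = 2 → c = b ∧ Odd b) ∧ (i % 4 ≠ 2 → c = 2 * b) ∧ (i = 2 ↔ r ∣ q + 1) ∧
    ∀ j, 1 ≤ j → (r ∣ (if Even j then q ^ j - 1 else q ^ j + 1) ↔ c ∣ j) := by
  have hr : r.Prime := Fact.out
  obtain ⟨x, hx⟩ : ∃ x : ZMod r, x = ((q : ℕ) : ZMod r) := ⟨_, rfl⟩
  rw [← hx] at hi
  have hq0 : 0 < q := by
    rcases Nat.eq_zero_or_pos q with h | h
    · exact absurd (h ▸ dvd_zero r) hrq
    · exact h
  have hx0 : x ≠ 0 := by
    rw [hx]; intro h; exact hrq ((ZMod.natCast_eq_zero_iff q r).mp h)
  have hxr : x ^ (r - 1) = 1 := ZMod.pow_card_sub_one_eq_one hx0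
  have hir : i ∣ r - 1 := by rw [hi]; exact orderOf_dvd_of_pow_eq_one hxr
  have hi0 : 0 < i := by
    rcases Nat.eq_zero_or_pos i with h | h
    · rw [h] at hir; have := Nat.eq_zero_of_zero_dvd hir; omega
    · exact h
  have F1 : ∀ j, x ^ j = 1 ↔ i ∣ j := by
    intro j; rw [hi]; exact (orderOf_dvd_iff_pow_eq_one).symm
  have F2 : (1 : ZMod r) ≠ -1 := by
    intro h
    have h2 : ((2 : ℕ) : ZMod r) = 0 := by
      have h3 : (1 : ZMod r) + 1 = 0 := by
        nth_rewrite 1 [h]; exact neg_add_cancel 1
      rw [← h3]; norm_num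
    have h4 := (ZMod.natCast_eq_zero_iff 2 r).mp h2
    have := Nat.le_of_dvd (by norm_num) h4
    omega
  have F3 : Even i → x ^ (i / 2) = -1 := by
    intro he
    have h1 : (x ^ (i / 2)) ^ 2 = 1 := by
      rw [← pow_mul, Nat.div_mul_cancel (even_iff_two_dvd.mp he)]; exact (F1 i).mpr dvd_rfl
    have h2 : x ^ (i / 2) ≠ 1 := by
      intro h
      have h3 := (F1 _).mp h
      obtain ⟨k, hk⟩ := he
      have := Nat.le_of_dvd (by omega : 0 < i / 2) h3
      omega
    rcases sq_eq_one_iff.mp h1 with h | h
    · exact absurd h h2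
    · exact h
  have hb0 : 0 < b := by
    rw [hb]; split_ifs with he
    · obtain ⟨k, hk⟩ := he; omega
    · exact hi0
  have hc0 : 0 < c := by
    rw [hc]; split_ifs with h1 h2 <;> omega
  have hbord : b = orderOf (((q ^ 2 : ℕ) : ℕ) : ZMod r) := by
    have h1 : (((q ^ 2 : ℕ) : ℕ) : ZMod r) = x ^ 2 := by rw [hx]; push_cast; ring
    rw [h1, orderOf_pow' x (by norm_num : (2 : ℕ) ≠ 0), ← hi, hb]
    split_ifs with he
    · have : Nat.gcd i 2 = 2 := Nat.gcd_eq_right (even_iff_two_dvd.mp he)
      rw [this]
    · have : Nat.gcd i 2 = 1 := by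
        have ho : Odd i := Nat.not_even_iff_odd.mp he
        exact (Nat.coprime_two_left.mpr ho).symm
      rw [this, Nat.div_one]
  have hbr : b ∣ r - 1 := by
    refine dvd_trans ?_ hir
    rw [hb]; split_ifs with he
    · exact Nat.div_dvd_of_dvd (even_iff_two_dvd.mp he)
    · exact dvd_rfl
  refine ⟨hi0, hb0, hc0, hbord, hbr, ?_, ?_, ?_, ?_⟩
  · intro h42
    have he : Even i := by rw [Nat.even_iff]; omega
    rw [hc, hb, if_pos he, if_neg (by omega), if_pos h42]
    exact ⟨rfl, by rw [Nat.odd_iff]; omega⟩
  · intro h42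
    rw [hc, hb]
    by_cases h40 : i % 4 = 0
    · have he : Even i := by rw [Nat.even_iff]; omega
      rw [if_pos h40, if_pos he]; omega
    · have he : ¬ Even i := by rw [Nat.even_iff]; omega
      rw [if_neg h40, if_neg h42, if_neg he]
  · have h1 : r ∣ q + 1 ↔ x = -1 := by
      rw [← ZMod.natCast_eq_zero_iff, hx]
      push_cast
      exact add_eq_zero_iff_eq_neg
    rw [h1, hi]
    haveI : Fact (Nat.Prime 2) := ⟨Nat.prime_two⟩
    rw [orderOf_eq_prime_iff, sq_eq_one_iff]
    constructor
    · rintro ⟨h | h, hne⟩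
      · exact absurd h hne
      · exact h
    · intro h
      exact ⟨Or.inr h, by rw [h]; exact fun h' => F2 h'.symm⟩
  · intro j hj
    have F4 : (r ∣ (if Even j then q ^ j - 1 else q ^ j + 1)) ↔
        (if Even j then x ^ j = 1 else x ^ j = -1) := by
      have hqj : 1 ≤ q ^ j := Nat.one_le_pow _ _ hq0
      split_ifs with he
      · rw [← ZMod.natCast_eq_zero_iff, Nat.cast_sub hqj, hx]
        push_cast
        exact sub_eq_zero
      · rw [← ZMod.natCast_eq_zero_iff, hx]
        push_cast
        exact add_eq_zero_iff_eq_neg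
    rw [F4]
    have hsq : x ^ j = -1 → i ∣ 2 * j := by
      intro h
      rw [← F1, pow_mul', h]; norm_num
    by_cases h40 : i % 4 = 0
    · have hci : c = i := by rw [hc, if_pos h40]
      rw [hci]
      split_ifs with he
      · exact F1 j
      · constructor
        · intro h
          have h1 := hsq h
          have h4 : 4 ∣ i := Nat.dvd_of_mod_eq_zero h40
          have h2 : 4 ∣ 2 * j := dvd_trans h4 h1
          exfalso; apply he; rw [Nat.even_iff]; omega
        · intro h
          exfalso; apply he
          have h4 : 2 ∣ i := by omega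
          exact even_iff_two_dvd.mpr (dvd_trans h4 h)
    · by_cases h42 : i % 4 = 2
      · have hci : c = i / 2 := by rw [hc, if_neg h40, if_pos h42]
        have hei : Even i := by rw [Nat.even_iff]; omega
        have hi2 : 2 * (i / 2) = i := by omega
        have hodd : Odd (i / 2) := by rw [Nat.odd_iff]; omega
        rw [hci]
        split_ifs with he
        · rw [F1]
          constructor
          · intro h; exact dvd_trans (Nat.div_dvd_of_dvd (even_iff_two_dvd.mp hei)) h
          · intro h
            rw [← hi2]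
            exact Nat.Coprime.mul_dvd_of_dvd_of_dvd (Nat.coprime_two_left.mpr hodd)
              (even_iff_two_dvd.mp he) h
        · constructor
          · intro h
            have h1 := hsq h
            have h1' : 2 * (i / 2) ∣ 2 * j := by rw [hi2]; exact h1
            exact Nat.dvd_of_mul_dvd_mul_left (by norm_num) h1'
          · rintro ⟨t, ht⟩
            have hto : Odd t := by
              by_contra hte
              rw [Nat.not_odd_iff_even] at hte
              apply he; rw [ht]; exact Even.mul_left hte _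
            rw [ht, pow_mul, F3 hei]
            exact Odd.neg_one_pow hto
      · have hci : c = 2 * i := by rw [hc, if_neg h40, if_neg h42]
        have hoi : Odd i := by rw [Nat.odd_iff]; omega
        rw [hci]
        split_ifs with he
        · rw [F1]
          constructor
          · intro h
            exact Nat.Coprime.mul_dvd_of_dvd_of_dvd (Nat.coprime_two_left.mpr hoi)
              (even_iff_two_dvd.mp he) h
          · intro h; exact dvd_trans (dvd_mul_left i 2) h
        · constructor
          · intro h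
            exfalso
            have h1 := hsq h
            have h2 : i ∣ j :=
              Nat.Coprime.dvd_of_dvd_mul_left (Nat.coprime_two_left.mpr hoi).symm h1
            have h3 := (F1 j).mpr h2
            rw [h3] at h
            exact F2 h
          · intro h
            exfalso; apply he
            exact even_iff_two_dvd.mpr (dvd_trans (dvd_mul_right 2 i) h)

end Cfsg.Agent.Helper37.HT5953
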