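-- helper37 library: piece ADJ of helper43's CALL S2720.
import Mathlib
import Cfsg.Agent.Helper45.IDMinus
import Cfsg.Agent.Helper43.OrthSemi
import Cfsg.Agent.Helper43.USimDet
import Cfsg.Agent.Helper43.NormGen

set_option autoImplicit false

namespace Cfsg.Agent.Helper37.PFADJ

open Cfsg Matrix Polynomial Cfsg.Agent.Helper45 Cfsg.Agent.Helper45.ID

universe u

variable {ι : Type} [Fintype ι] [DecidableEq ι] {F : Type u} [Field F] [Fintype F]

omit [Fintype F] [DecidableEq ι] in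
theorem pf_polar_inv (Q : QuadraticForm F (ι → F)) (G : Matrix ι ι F)
    (hG : ∀ x, Q (G *ᵥ x) = Q x) (x y : ι → F) :
    QuadraticMap.polar ⇑Q (G *ᵥ x) (G *ᵥ y) = QuadraticMap.polar ⇑Q x y := by
  unfold QuadraticMap.polar
  rw [← Matrix.mulVec_add, hG, hG, hG]

omit [Fintype F] in
theorem pf_adj_pow (Q : QuadraticForm F (ι → F)) (G : Matrix ι ι F)
    (hG : ∀ x, Q (G *ᵥ x) = Q x)
    (r : ℕ) (hr0 : 0 < r) (hGr : G ^ r = 1) (k : ℕ) (x y : ι → F) :
    QuadraticMap.polar ⇑Q ((G ^ k) *ᵥ x) y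
      = QuadraticMap.polar ⇑Q x (((G ^ (r - 1)) ^ k) *ᵥ y) := by
  have hGG : G * G ^ (r - 1) = 1 := by
    rw [← pow_succ', Nat.sub_add_cancel hr0, hGr]
  induction k generalizing x y with
  | zero => simp
  | succ k ih =>
    have h1 : (G ^ (k + 1)) *ᵥ x = G *ᵥ ((G ^ k) *ᵥ x) := by
      rw [pow_succ', Matrix.mulVec_mulVec]
    have h2 : y = G *ᵥ ((G ^ (r - 1)) *ᵥ y) := by
      rw [Matrix.mulVec_mulVec, hGG, Matrix.one_mulVec]
    have h3 : ((G ^ (r - 1)) ^ (k + 1)) *ᵥ y = ((G ^ (r - 1)) ^ k) *ᵥ ((G ^ (r - 1)) *ᵥ y) := by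
      rw [pow_succ, Matrix.mulVec_mulVec]
    rw [h1, h3, ← ih]
    conv_lhs => rw [h2]
    rw [pf_polar_inv Q G hG]

/-- ADJ: the adjoint of `a(G)` is `a(G⁻¹)`, `G⁻¹ = G ^ (r - 1)` -/
theorem pf_adj (Q : QuadraticForm F (ι → F)) (G : Matrix ι ι F) (hG : ∀ x, Q (G *ᵥ x) = Q x)
    (r : ℕ) (hr0 : 0 < r) (hGr : G ^ r = 1) (a : F[X]) (x y : ι → F) :
    QuadraticMap.polar ⇑Q ((aeval G a) *ᵥ x) y
      = QuadraticMap.polar ⇑Q x ((aeval (G ^ (r - 1)) a) *ᵥ y) := by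
  induction a using Polynomial.induction_on' with
  | add p q hp hq =>
    rw [map_add, map_add, Matrix.add_mulVec, Matrix.add_mulVec, QuadraticMap.polar_add_left,
      QuadraticMap.polar_add_right, hp, hq]
  | monomial n c =>
    rw [Polynomial.aeval_monomial, Polynomial.aeval_monomial, Algebra.algebraMap_eq_smul_one,
      Matrix.smul_mul, Matrix.smul_mul, Matrix.one_mul,
      Matrix.one_mul, Matrix.smul_mulVec, Matrix.smul_mulVec, QuadraticMap.polar_smul_left,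
      QuadraticMap.polar_smul_right, pf_adj_pow Q G hG r hr0 hGr]

end Cfsg.Agent.Helper37.PFADJ
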