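import Mathlib

set_option autoImplicit false

namespace Cfsg.Agent.Helper37

open Matrix Module

variable {F : Type*} [Field F] {n : ℕ}

/-- dimension of the `(-1)`-eigenspace -/
noncomputable def pglNu (A : Matrix (Fin n) (Fin n) F) : ℕ :=
  finrank F (LinearMap.ker (A + 1).mulVecLin)

theorem pgl_mem_ker_add (A : Matrix (Fin n) (Fin n) F) (v : Fin n → F) :
    v ∈ LinearMap.ker (A + 1).mulVecLin ↔ A *ᵥ v = -v := by
  rw [LinearMap.mem_ker, Matrix.mulVecLin_apply, Matrix.add_mulVec, Matrix.one_mulVec,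
    add_eq_zero_iff_eq_neg]

theorem pgl_mem_ker_sub (A : Matrix (Fin n) (Fin n) F) (v : Fin n → F) :
    v ∈ LinearMap.ker (A - 1).mulVecLin ↔ A *ᵥ v = v := by
  rw [LinearMap.mem_ker, Matrix.mulVecLin_apply, Matrix.sub_mulVec, Matrix.one_mulVec,
    sub_eq_zero]

theorem pgl_isCompl (h2 : (2 : F) ≠ 0) (A : Matrix (Fin n) (Fin n) F) (hA : A * A = 1) :
    IsCompl (LinearMap.ker (A + 1).mulVecLin) (LinearMap.ker (A - 1).mulVecLin) := by
  constructor
  · rw [Submodule.disjoint_def]
    intro v h1 h2'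
    rw [pgl_mem_ker_add] at h1
    rw [pgl_mem_ker_sub] at h2'
    have : (2 : F) • v = 0 := by
      rw [two_smul]
      nth_rewrite 1 [← h2']
      rw [h1, neg_add_cancel]
    exact (smul_eq_zero.mp this).resolve_left h2
  · rw [codisjoint_iff, eq_top_iff]
    intro v _
    rw [Submodule.mem_sup]
    refine ⟨(2 : F)⁻¹ • (v - A *ᵥ v), ?_, (2 : F)⁻¹ • (v + A *ᵥ v), ?_, ?_⟩
    · rw [pgl_mem_ker_add, Matrix.mulVec_smul, Matrix.mulVec_sub, Matrix.mulVec_mulVec, hA,
        Matrix.one_mulVec, ← smul_neg, neg_sub]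
    · rw [pgl_mem_ker_sub, Matrix.mulVec_smul, Matrix.mulVec_add, Matrix.mulVec_mulVec, hA,
        Matrix.one_mulVec, add_comm]
    · rw [← smul_add]
      have : v - A *ᵥ v + (v + A *ᵥ v) = (2 : F) • v := by rw [two_smul]; abel
      rw [this, smul_smul, inv_mul_cancel₀ h2, one_smul]

theorem pgl_of_linearEquiv (A B : Matrix (Fin n) (Fin n) F)
    (Φ : (Fin n → F) ≃ₗ[F] (Fin n → F)) (hΦ : ∀ v, Φ (A *ᵥ v) = B *ᵥ Φ v) :
    ∃ P : GL (Fin n) F, P.val * A = B * P.val := by
  refine ⟨⟨LinearMap.toMatrix' Φ.toLinearMap, LinearMap.toMatrix' Φ.symm.toLinearMap, ?_, ?_⟩, ?_⟩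
  · rw [← LinearMap.toMatrix'_comp]
    simp
  · rw [← LinearMap.toMatrix'_comp]
    simp
  · show LinearMap.toMatrix' Φ.toLinearMap * A = B * LinearMap.toMatrix' Φ.toLinearMap
    nth_rewrite 1 [← LinearMap.toMatrix'_toLin' A]
    nth_rewrite 1 [← LinearMap.toMatrix'_toLin' B]
    rw [← LinearMap.toMatrix'_comp, ← LinearMap.toMatrix'_comp]
    congr 1
    apply LinearMap.ext
    intro v
    rw [LinearMap.comp_apply, LinearMap.comp_apply, Matrix.toLin'_apply, Matrix.toLin'_apply]
    exact hΦ v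

theorem pgl_inv_conj (h2 : (2 : F) ≠ 0) (A B : Matrix (Fin n) (Fin n) F) (hA : A * A = 1)
    (hB : B * B = 1) (hν : pglNu A = pglNu B) : ∃ P : GL (Fin n) F, P.val * A = B * P.val := by
  have cA := pgl_isCompl h2 A hA
  have cB := pgl_isCompl h2 B hB
  have e1 : finrank F (LinearMap.ker (A + 1).mulVecLin) =
      finrank F (LinearMap.ker (B + 1).mulVecLin) := hν
  have e2 : finrank F (LinearMap.ker (A - 1).mulVecLin) =
      finrank F (LinearMap.ker (B - 1).mulVecLin) := by
    have hA' := Submodule.finrank_add_eq_of_isCompl cA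
    have hB' := Submodule.finrank_add_eq_of_isCompl cB
    omega
  let em := LinearEquiv.ofFinrankEq _ _ e1
  let ep := LinearEquiv.ofFinrankEq _ _ e2
  let Φ : (Fin n → F) ≃ₗ[F] (Fin n → F) :=
    (Submodule.prodEquivOfIsCompl _ _ cA).symm ≪≫ₗ (em.prodCongr ep) ≪≫ₗ
      (Submodule.prodEquivOfIsCompl _ _ cB)
  apply pgl_of_linearEquiv A B Φ
  intro v
  obtain ⟨⟨x, y⟩, rfl⟩ := (Submodule.prodEquivOfIsCompl _ _ cA).surjective v
  have hx := (pgl_mem_ker_add A x.1).mp x.2
  have hy := (pgl_mem_ker_sub A y.1).mp y.2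
  have hx' := (pgl_mem_ker_add B (em x).1).mp (em x).2
  have hy' := (pgl_mem_ker_sub B (ep y).1).mp (ep y).2
  have h1 : A *ᵥ (Submodule.prodEquivOfIsCompl _ _ cA (x, y)) =
      Submodule.prodEquivOfIsCompl _ _ cA (-x, y) := by
    rw [Submodule.coe_prodEquivOfIsCompl', Submodule.coe_prodEquivOfIsCompl', Matrix.mulVec_add,
      hx, hy]
    rfl
  rw [h1]
  have h3 : ∀ p, Φ (Submodule.prodEquivOfIsCompl _ _ cA p) =
      Submodule.prodEquivOfIsCompl _ _ cB (em p.1, ep p.2) := by
    intro p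
    simp only [Φ, LinearEquiv.trans_apply, LinearEquiv.symm_apply_apply]
    rfl
  rw [h3, h3, Submodule.coe_prodEquivOfIsCompl', Submodule.coe_prodEquivOfIsCompl',
    Matrix.mulVec_add, hx', hy']
  simp

end Cfsg.Agent.Helper37

namespace Cfsg.Agent.Helper37

open Matrix Module

variable {F : Type*} [Field F] {n : ℕ}

theorem pglNu_conj (A B : Matrix (Fin n) (Fin n) F) (P : GL (Fin n) F)
    (h : P.val * A = B * P.val) : pglNu A = pglNu B := by
  unfold pglNu
  let e : (Fin n → F) ≃ₗ[F] (Fin n → F) :=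
    LinearEquiv.ofLinearMap P.val.mulVecLin (P⁻¹).val.mulVecLin
      (by rw [← Matrix.mulVecLin_mul, Units.mul_inv, Matrix.mulVecLin_one])
      (by rw [← Matrix.mulVecLin_mul, Units.inv_mul, Matrix.mulVecLin_one])
  have hker : LinearMap.ker (A + 1).mulVecLin =
      (LinearMap.ker (B + 1).mulVecLin).comap e.toLinearMap := by
    ext v
    rw [Submodule.mem_comap, pgl_mem_ker_add, pgl_mem_ker_add]
    show A *ᵥ v = -v ↔ B *ᵥ (P.val *ᵥ v) = -(P.val *ᵥ v)
    rw [Matrix.mulVec_mulVec, ← h, ← Matrix.mulVec_mulVec, ← Matrix.mulVec_neg]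
    constructor
    · intro h'; rw [h']
    · intro h'
      have := congrArg (fun w => (P⁻¹).val *ᵥ w) h'
      simpa [Matrix.mulVec_mulVec] using this
  rw [hker, Submodule.comap_equiv_eq_map_symm, LinearEquiv.finrank_map_eq]

theorem pgl_ker_neg (A : Matrix (Fin n) (Fin n) F) :
    LinearMap.ker (-A + 1).mulVecLin = LinearMap.ker (A - 1).mulVecLin := by
  ext v
  rw [LinearMap.mem_ker, LinearMap.mem_ker, Matrix.mulVecLin_apply, Matrix.mulVecLin_apply,
    show -A + 1 = -(A - 1) by abel, Matrix.neg_mulVec, neg_eq_zero]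

theorem pglNu_neg (h2 : (2 : F) ≠ 0) (A : Matrix (Fin n) (Fin n) F) (hA : A * A = 1) :
    pglNu A + pglNu (-A) = n := by
  unfold pglNu
  rw [pgl_ker_neg]
  have := Submodule.finrank_add_eq_of_isCompl (pgl_isCompl h2 A hA)
  rw [this]
  simp

theorem pgl_eq_of_mulVec (A B : Matrix (Fin n) (Fin n) F) (h : ∀ v, A *ᵥ v = B *ᵥ v) : A = B := by
  ext i j
  have := congrFun (h (Pi.single j 1)) i
  rwa [Matrix.mulVec_single_one, Matrix.mulVec_single_one] at this

theorem pglNu_eq_card (A : Matrix (Fin n) (Fin n) F)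
    (h : pglNu A = n) : A = -1 := by
  have htop : LinearMap.ker (A + 1).mulVecLin = ⊤ := by
    apply Submodule.eq_top_of_finrank_eq
    rw [show finrank F (LinearMap.ker (A + 1).mulVecLin) = n from h]
    simp
  apply pgl_eq_of_mulVec
  intro v
  have : v ∈ LinearMap.ker (A + 1).mulVecLin := by rw [htop]; exact Submodule.mem_top
  rw [pgl_mem_ker_add] at this
  rw [this, Matrix.neg_mulVec, Matrix.one_mulVec]

theorem pglNu_eq_zero (h2 : (2 : F) ≠ 0) (A : Matrix (Fin n) (Fin n) F) (hA : A * A = 1)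
    (h : pglNu A = 0) : A = 1 := by
  have h' : pglNu (-A) = n := by
    have := pglNu_neg h2 A hA
    omega
  have := pglNu_eq_card (-A) h'
  rw [← neg_neg A, this, neg_neg]

/-- the standard diagonal involution -/
def pglD (F : Type*) [Field F] (n k : ℕ) : Matrix (Fin n) (Fin n) F :=
  Matrix.diagonal (fun i : Fin n => if i.val < k then (-1 : F) else 1)

theorem pglD_sq (n k : ℕ) : pglD F n k * pglD F n k = 1 := by
  unfold pglD
  rw [Matrix.diagonal_mul_diagonal, ← Matrix.diagonal_one]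
  congr 1
  funext i
  split_ifs <;> simp

theorem pglNu_D (h2 : (2 : F) ≠ 0) (n k : ℕ) (hk : k ≤ n) : pglNu (pglD F n k) = k := by
  classical
  unfold pglNu
  have hrn := LinearMap.finrank_range_add_finrank_ker (pglD F n k + 1).mulVecLin
  have hD : pglD F n k + 1 = Matrix.diagonal (fun i : Fin n => if i.val < k then (0 : F) else 2) := by
    unfold pglD
    rw [← Matrix.diagonal_one, Matrix.diagonal_add]
    congr 1
    funext i
    split_ifs
    · simp
    · norm_num
  have hrank : finrank F (LinearMap.range (pglD F n k + 1).mulVecLin) = n - k := by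
    show (pglD F n k + 1).rank = n - k
    rw [hD, Matrix.rank_diagonal, Fintype.card_subtype]
    have h1 : (Finset.univ.filter (fun i : Fin n => (if i.val < k then (0 : F) else 2) ≠ 0)) =
        Finset.univ.filter (fun i : Fin n => ¬ (i.val < k)) := by
      ext i
      simp only [Finset.mem_filter, Finset.mem_univ, true_and]
      split_ifs with h
      · simp [h]
      · simp [h2, h]
    rw [h1, Finset.filter_not, Finset.card_sdiff_of_subset (Finset.filter_subset _ _),
      Finset.card_univ, Fintype.card_fin, Fin.card_filter_val_lt, min_eq_right hk]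
  rw [hrank] at hrn
  simp only [finrank_pi, Fintype.card_fin] at hrn
  omega

end Cfsg.Agent.Helper37
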