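import Mathlib
import Cfsg.Agent.Helper37.Pgl1

set_option autoImplicit false

namespace Cfsg.Agent.Helper37

open Polynomial Module Matrix

variable {F : Type*} [Field F]

theorem pgl_irred (μ : F) (hμ : ¬ IsSquare μ) : Irreducible (X ^ 2 - C μ : F[X]) := by
  apply X_pow_sub_C_irreducible_of_prime Nat.prime_two
  intro b hb
  exact hμ ⟨b, by rw [← hb, pow_two]⟩

theorem pgl_root_sq (μ : F) :
    AdjoinRoot.root (X ^ 2 - C μ : F[X]) * AdjoinRoot.root (X ^ 2 - C μ : F[X]) =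
      AdjoinRoot.of (X ^ 2 - C μ : F[X]) μ := by
  have h := AdjoinRoot.mk_self (f := (X ^ 2 - C μ : F[X]))
  rw [map_sub, map_pow, AdjoinRoot.mk_X, AdjoinRoot.mk_C, sub_eq_zero] at h
  rw [← h]
  exact (pow_two _).symm

theorem pgl_finrank_K (μ : F) :
    finrank F (AdjoinRoot (X ^ 2 - C μ : F[X])) = 2 := by
  have hm : (X ^ 2 - C μ : F[X]).Monic := monic_X_pow_sub_C μ (by norm_num)
  rw [(AdjoinRoot.powerBasis' hm).finrank, AdjoinRoot.powerBasis'_dim, natDegree_X_pow_sub_C]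

theorem pgl_nonsq_model {n : ℕ} (μ : F) [Fact (Irreducible (X ^ 2 - C μ : F[X]))]
    (A : Matrix (Fin n) (Fin n) F) (hA : A * A = μ • (1 : Matrix (Fin n) (Fin n) F)) :
    ∃ r, n = 2 * r ∧ ∃ Ψ : (Fin n → F) ≃ₗ[F] (Fin r → AdjoinRoot (X ^ 2 - C μ : F[X])),
      ∀ v, Ψ (A *ᵥ v) = AdjoinRoot.root (X ^ 2 - C μ : F[X]) • Ψ v := by
  have hev : Polynomial.aeval (A.mulVecLin) (X ^ 2 - C μ : F[X]) = 0 := by
    rw [map_sub, map_pow, aeval_X, aeval_C, pow_two, Module.End.mul_eq_comp,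
      ← Matrix.mulVecLin_mul, hA, sub_eq_zero]
    apply LinearMap.ext
    intro v
    rw [Matrix.mulVecLin_apply, Matrix.smul_mulVec, Matrix.one_mulVec,
      Module.algebraMap_end_apply]
  let φ : AdjoinRoot (X ^ 2 - C μ : F[X]) →+* Module.End F (Fin n → F) :=
    Ideal.Quotient.lift (Ideal.span {(X ^ 2 - C μ : F[X])})
      (Polynomial.aeval A.mulVecLin).toRingHom (by
        intro g hg
        obtain ⟨y, rfl⟩ := Ideal.mem_span_singleton.mp hg
        show Polynomial.aeval A.mulVecLin ((X ^ 2 - C μ : F[X]) * y) = 0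
        rw [map_mul, hev, zero_mul])
  have hφmk : ∀ g : F[X], φ (AdjoinRoot.mk _ g) = Polynomial.aeval A.mulVecLin g := fun g => rfl
  have hφroot : φ (AdjoinRoot.root _) = A.mulVecLin := by
    rw [AdjoinRoot.root, hφmk, aeval_X]
  have hφof : ∀ a : F, φ (AdjoinRoot.of _ a) = algebraMap F _ a := by
    intro a
    rw [← AdjoinRoot.mk_C, hφmk, aeval_C]
  letI : Module (AdjoinRoot (X ^ 2 - C μ : F[X])) (Fin n → F) := Module.compHom _ φ
  have hsmul : ∀ (k : AdjoinRoot (X ^ 2 - C μ : F[X])) (v : Fin n → F), k • v = φ k v :=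
    fun k v => rfl
  haveI : IsScalarTower F (AdjoinRoot (X ^ 2 - C μ : F[X])) (Fin n → F) := by
    constructor
    intro a k v
    rw [hsmul, hsmul, Algebra.smul_def, map_mul, AdjoinRoot.algebraMap_eq, hφof,
      Module.End.mul_apply, Module.algebraMap_end_apply]
  haveI : Module.Finite (AdjoinRoot (X ^ 2 - C μ : F[X])) (Fin n → F) :=
    Module.Finite.of_restrictScalars_finite F _ _
  have hfr := Module.finrank_mul_finrank F (AdjoinRoot (X ^ 2 - C μ : F[X])) (Fin n → F)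
  rw [pgl_finrank_K, Module.finrank_fin_fun] at hfr
  refine ⟨finrank (AdjoinRoot (X ^ 2 - C μ : F[X])) (Fin n → F), hfr.symm, ?_⟩
  let e : (Fin n → F) ≃ₗ[AdjoinRoot (X ^ 2 - C μ : F[X])]
      (Fin (finrank (AdjoinRoot (X ^ 2 - C μ : F[X])) (Fin n → F)) →
        AdjoinRoot (X ^ 2 - C μ : F[X])) :=
    LinearEquiv.ofFinrankEq _ _ (by rw [Module.finrank_fin_fun])
  refine ⟨e.restrictScalars F, ?_⟩
  intro v
  have : A *ᵥ v = AdjoinRoot.root (X ^ 2 - C μ : F[X]) • v := by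
    rw [hsmul, hφroot, Matrix.mulVecLin_apply]
  rw [this]
  exact e.map_smul _ _

end Cfsg.Agent.Helper37

namespace Cfsg.Agent.Helper37

open Polynomial Module Matrix

variable {F : Type*} [Field F]

theorem pgl_nonsq_conj {n : ℕ} (μ : F) (hμ : ¬ IsSquare μ) (A B : Matrix (Fin n) (Fin n) F)
    (hA : A * A = μ • (1 : Matrix (Fin n) (Fin n) F))
    (hB : B * B = μ • (1 : Matrix (Fin n) (Fin n) F)) :
    ∃ P : GL (Fin n) F, P.val * A = B * P.val := by
  haveI : Fact (Irreducible (X ^ 2 - C μ : F[X])) := ⟨pgl_irred μ hμ⟩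
  obtain ⟨r, hr, Ψ, hΨ⟩ := pgl_nonsq_model μ A hA
  obtain ⟨r', hr', Ψ', hΨ'⟩ := pgl_nonsq_model μ B hB
  obtain rfl : r = r' := by omega
  apply pgl_of_linearEquiv A B (Ψ.trans Ψ'.symm)
  intro v
  rw [LinearEquiv.trans_apply, LinearEquiv.trans_apply, hΨ]
  apply Ψ'.injective
  rw [LinearEquiv.apply_symm_apply, hΨ', LinearEquiv.apply_symm_apply]

theorem pgl_nonsq_even {n : ℕ} (μ : F) (hμ : ¬ IsSquare μ) (A : Matrix (Fin n) (Fin n) F)
    (hA : A * A = μ • (1 : Matrix (Fin n) (Fin n) F)) : Even n := by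
  haveI : Fact (Irreducible (X ^ 2 - C μ : F[X])) := ⟨pgl_irred μ hμ⟩
  obtain ⟨r, hr, -⟩ := pgl_nonsq_model μ A hA
  exact ⟨r, by omega⟩

theorem pgl_nonsq_exists {n : ℕ} (μ : F) (hμ : ¬ IsSquare μ) (hn : Even n) :
    ∃ A : Matrix (Fin n) (Fin n) F, A * A = μ • (1 : Matrix (Fin n) (Fin n) F) := by
  haveI : Fact (Irreducible (X ^ 2 - C μ : F[X])) := ⟨pgl_irred μ hμ⟩
  obtain ⟨r, rfl⟩ := hn
  haveI : Module.Finite F (AdjoinRoot (X ^ 2 - C μ : F[X])) :=
    Module.finite_of_finrank_pos (by rw [pgl_finrank_K]; norm_num)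
  have hfin : finrank F (Fin (r + r) → F) =
      finrank F (Fin r → AdjoinRoot (X ^ 2 - C μ : F[X])) := by
    rw [Module.finrank_fin_fun, Module.finrank_pi_fintype]
    simp only [pgl_finrank_K, Finset.sum_const, Finset.card_univ, Fintype.card_fin, smul_eq_mul]
    omega
  let Ψ : (Fin (r + r) → F) ≃ₗ[F] (Fin r → AdjoinRoot (X ^ 2 - C μ : F[X])) :=
    LinearEquiv.ofFinrankEq _ _ hfin
  let T : (Fin r → AdjoinRoot (X ^ 2 - C μ : F[X])) →ₗ[F]
      (Fin r → AdjoinRoot (X ^ 2 - C μ : F[X])) :=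
    { toFun := fun x => AdjoinRoot.root (X ^ 2 - C μ : F[X]) • x
      map_add' := fun x y => smul_add _ x y
      map_smul' := fun a x => smul_comm _ a x }
  have hT : T ∘ₗ T = μ • LinearMap.id := by
    apply LinearMap.ext
    intro x
    show AdjoinRoot.root (X ^ 2 - C μ : F[X]) • (AdjoinRoot.root (X ^ 2 - C μ : F[X]) • x) = μ • x
    rw [smul_smul, pgl_root_sq, ← AdjoinRoot.algebraMap_eq, algebraMap_smul]
  refine ⟨LinearMap.toMatrix' (Ψ.symm.toLinearMap ∘ₗ T ∘ₗ Ψ.toLinearMap), ?_⟩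
  rw [← LinearMap.toMatrix'_comp]
  have : (Ψ.symm.toLinearMap ∘ₗ T ∘ₗ Ψ.toLinearMap) ∘ₗ (Ψ.symm.toLinearMap ∘ₗ T ∘ₗ Ψ.toLinearMap) =
      μ • LinearMap.id := by
    apply LinearMap.ext
    intro v
    simp only [LinearMap.comp_apply, LinearEquiv.coe_coe, LinearEquiv.apply_symm_apply]
    have := congrArg (fun g => g (Ψ v)) hT
    simp only [LinearMap.comp_apply] at this
    rw [this]
    simp
  rw [this, map_smul, LinearMap.toMatrix'_id]

end Cfsg.Agent.Helper37
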