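import Mathlib
import Cfsg.Agent.Helper37.Pgl1

set_option autoImplicit false

namespace Cfsg.Agent.Helper37

open Matrix Module

variable {F : Type*} [Field F] {n : ℕ}

/-- a linear model of a square-zero matrix of rank `k` -/
theorem sqz_model (N : Matrix (Fin n) (Fin n) F) (hN : N * N = 0) (k : ℕ) (hk : N.rank = k) :
    ∃ (l : ℕ) (Θ : ((Fin k → F) × (Fin k → F) × (Fin l → F)) ≃ₗ[F] (Fin n → F)),
      n = 2 * k + l ∧ ∀ a b c, N *ᵥ Θ (a, b, c) = Θ (0, a, 0) := by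
  subst hk
  obtain ⟨K, hKdef⟩ : ∃ K : Submodule F (Fin n → F), K = LinearMap.ker N.mulVecLin := ⟨_, rfl⟩
  obtain ⟨R, hRdef⟩ : ∃ R : Submodule F (Fin n → F), R = LinearMap.range N.mulVecLin := ⟨_, rfl⟩
  have hmemK : ∀ v, v ∈ K ↔ N *ᵥ v = 0 := by
    intro v
    rw [hKdef, LinearMap.mem_ker, Matrix.mulVecLin_apply]
  have hNN : ∀ v, N *ᵥ (N *ᵥ v) = 0 := by
    intro v
    rw [Matrix.mulVec_mulVec, hN, Matrix.zero_mulVec]
  have hRK : R ≤ K := by
    rw [hRdef]
    rintro _ ⟨v, rfl⟩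
    rw [hmemK, Matrix.mulVecLin_apply]
    exact hNN v
  have hmemR : ∀ v, N *ᵥ v ∈ R := by
    intro v
    rw [hRdef]
    exact ⟨v, rfl⟩
  obtain ⟨C, hC⟩ := K.exists_isCompl
  obtain ⟨R', hR'⟩ := R.exists_isCompl
  have hdR : finrank F R = N.rank := by rw [hRdef]; rfl
  have hdK : finrank F K + N.rank = n := by
    have h := LinearMap.finrank_range_add_finrank_ker N.mulVecLin
    rw [← hKdef, ← hRdef, hdR, finrank_fin_fun] at h
    omega
  have hdC : finrank F K + finrank F C = n := by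
    have h := Submodule.finrank_add_eq_of_isCompl hC
    rw [finrank_fin_fun] at h
    exact h
  have hdR' : finrank F R + finrank F R' = n := by
    have h := Submodule.finrank_add_eq_of_isCompl hR'
    rw [finrank_fin_fun] at h
    exact h
  have hsup : K ⊔ R' = ⊤ := by
    rw [eq_top_iff, ← hR'.sup_eq_top]
    exact sup_le_sup_right hRK R'
  have hd1 : n + finrank F ↥(K ⊓ R') = finrank F K + finrank F R' := by
    have h := Submodule.finrank_sup_add_finrank_inf_eq K R'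
    rw [hsup, finrank_top, finrank_fin_fun] at h
    exact h
  obtain ⟨l, hl⟩ : ∃ l, l = finrank F ↥(K ⊓ R') := ⟨_, rfl⟩
  have hnl : n = 2 * N.rank + l := by omega
  have hCk : finrank F C = finrank F (Fin N.rank → F) := by
    rw [finrank_fin_fun]; omega
  have hK1 : finrank F ↥(K ⊓ R') = finrank F (Fin l → F) := by
    rw [finrank_fin_fun]; omega
  let eC : C ≃ₗ[F] (Fin N.rank → F) := LinearEquiv.ofFinrankEq _ _ hCk
  let e1 : ↥(K ⊓ R') ≃ₗ[F] (Fin l → F) := LinearEquiv.ofFinrankEq _ _ hK1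
  let Θ₀ : ((Fin N.rank → F) × (Fin N.rank → F) × (Fin l → F)) →ₗ[F] (Fin n → F) :=
    C.subtype ∘ₗ eC.symm.toLinearMap ∘ₗ LinearMap.fst F _ _ +
    N.mulVecLin ∘ₗ C.subtype ∘ₗ eC.symm.toLinearMap ∘ₗ LinearMap.fst F _ _ ∘ₗ LinearMap.snd F _ _ +
    (K ⊓ R').subtype ∘ₗ e1.symm.toLinearMap ∘ₗ LinearMap.snd F _ _ ∘ₗ LinearMap.snd F _ _
  have hΘ₀ : ∀ a b c, Θ₀ (a, b, c) = (eC.symm a : Fin n → F) + N *ᵥ (eC.symm b : Fin n → F) +
      (e1.symm c : Fin n → F) := by
    intro a b c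
    rfl
  have hdisjC : ∀ v, v ∈ C → N *ᵥ v = 0 → v = 0 := by
    intro v hv hNv
    have h1 : v ∈ K ⊓ C := ⟨(hmemK v).mpr hNv, hv⟩
    rw [hC.inf_eq_bot] at h1
    exact (Submodule.mem_bot F).mp h1
  have hinj : Function.Injective Θ₀ := by
    rw [← LinearMap.ker_eq_bot, LinearMap.ker_eq_bot']
    rintro ⟨a, b, c⟩ h
    rw [hΘ₀] at h
    have hγK : N *ᵥ (e1.symm c : Fin n → F) = 0 := (hmemK _).mp (e1.symm c).2.1
    have h1 := congrArg (fun v => N *ᵥ v) h
    simp only [Matrix.mulVec_add, hNN, hγK, add_zero, Matrix.mulVec_zero] at h1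
    have ha0 : (eC.symm a : Fin n → F) = 0 := hdisjC _ (eC.symm a).2 h1
    rw [ha0, zero_add] at h
    have h2 : N *ᵥ (eC.symm b : Fin n → F) ∈ R ⊓ R' := by
      refine ⟨hmemR _, ?_⟩
      have h3 : N *ᵥ (eC.symm b : Fin n → F) = -(e1.symm c : Fin n → F) :=
        eq_neg_of_add_eq_zero_left h
      rw [h3]
      exact R'.neg_mem (e1.symm c).2.2
    rw [hR'.inf_eq_bot] at h2
    have h4 : N *ᵥ (eC.symm b : Fin n → F) = 0 := (Submodule.mem_bot F).mp h2
    have hb0 : (eC.symm b : Fin n → F) = 0 := hdisjC _ (eC.symm b).2 h4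
    rw [h4, zero_add] at h
    have ha : a = 0 := by
      have : eC.symm a = 0 := Subtype.ext ha0
      exact eC.symm.map_eq_zero_iff.mp this
    have hb : b = 0 := by
      have : eC.symm b = 0 := Subtype.ext hb0
      exact eC.symm.map_eq_zero_iff.mp this
    have hc : c = 0 := by
      have : e1.symm c = 0 := Subtype.ext h
      exact e1.symm.map_eq_zero_iff.mp this
    rw [ha, hb, hc]
    rfl
  have hdim : finrank F ((Fin N.rank → F) × (Fin N.rank → F) × (Fin l → F)) =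
      finrank F (Fin n → F) := by
    rw [Module.finrank_prod, Module.finrank_prod, finrank_fin_fun, finrank_fin_fun, finrank_fin_fun]
    omega
  refine ⟨l, LinearEquiv.ofInjectiveOfFinrankEq Θ₀ hinj hdim, hnl, ?_⟩
  intro a b c
  show N *ᵥ Θ₀ (a, b, c) = Θ₀ (0, a, 0)
  rw [hΘ₀, hΘ₀]
  have hγK : N *ᵥ (e1.symm c : Fin n → F) = 0 := (hmemK _).mp (e1.symm c).2.1
  simp only [Matrix.mulVec_add, hNN, hγK, add_zero, map_zero, Submodule.coe_zero, zero_add]

/-- square-zero matrices of the same rank are conjugate -/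
theorem sqz_conj (N N' : Matrix (Fin n) (Fin n) F) (hN : N * N = 0) (hN' : N' * N' = 0)
    (hr : N.rank = N'.rank) : ∃ P : GL (Fin n) F, P.val * N = N' * P.val := by
  obtain ⟨l, Θ, hl, hΘ⟩ := sqz_model N hN N.rank rfl
  obtain ⟨l', Θ', hl', hΘ'⟩ := sqz_model N' hN' N.rank hr.symm
  obtain rfl : l = l' := by omega
  apply pgl_of_linearEquiv N N' (Θ.symm.trans Θ')
  intro v
  obtain ⟨⟨a, b, c⟩, rfl⟩ := Θ.surjective v
  rw [LinearEquiv.trans_apply, LinearEquiv.trans_apply, hΘ, LinearEquiv.symm_apply_apply,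
    LinearEquiv.symm_apply_apply, hΘ']

/-- a square-zero matrix has rank at most half the dimension -/
theorem sqz_rank_le (N : Matrix (Fin n) (Fin n) F) (hN : N * N = 0) : 2 * N.rank ≤ n := by
  obtain ⟨l, Θ, hl, -⟩ := sqz_model N hN N.rank rfl
  omega

end Cfsg.Agent.Helper37
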