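import Mathlib
import Cfsg.Agent.Helper42.BGSymp
import Cfsg.Agent.Helper37.Pgl1

set_option autoImplicit false

namespace Cfsg.Agent.Helper37

open Matrix Module Cfsg.Agent.Helper42

universe u

variable {F : Type u} [Field F]

/-- the parity equivalence `Fin m ⊕ Fin m ≃ Fin (2 m)` -/
def sqPar (m : ℕ) : Fin m ⊕ Fin m ≃ Fin (2 * m) where
  toFun := Sum.elim (fun j => ⟨2 * j.val, by have := j.isLt; omega⟩)
    (fun j => ⟨2 * j.val + 1, by have := j.isLt; omega⟩)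
  invFun := fun i => if i.val % 2 = 0 then Sum.inl ⟨i.val / 2, by have := i.isLt; omega⟩
    else Sum.inr ⟨i.val / 2, by have := i.isLt; omega⟩
  left_inv := by
    rintro (j | j)
    · simp
    · have h2 : (2 * j.val + 1) / 2 = j.val := by omega
      simp [h2]
  right_inv := by
    intro i
    by_cases h : i.val % 2 = 0
    · simp only [h, if_true, Sum.elim_inl]
      apply Fin.ext
      show 2 * (i.val / 2) = i.val
      omega
    · simp only [h, if_false, Sum.elim_inr]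
      apply Fin.ext
      show 2 * (i.val / 2) + 1 = i.val
      omega

theorem sqPar_inl (m : ℕ) (j : Fin m) : ((sqPar m (Sum.inl j) : Fin (2 * m)) : ℕ) = 2 * j.val := rfl

theorem sqPar_inr (m : ℕ) (j : Fin m) : ((sqPar m (Sum.inr j) : Fin (2 * m)) : ℕ) = 2 * j.val + 1 :=
  rfl

/-- the standard symplectic form transported to `Fin (2 m)` -/
noncomputable def sqForm (m : ℕ) : (Fin (2 * m) → F) → (Fin (2 * m) → F) → F :=
  fun u v => SpForm.stdForm m (u ∘ sqPar m) (v ∘ sqPar m)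

theorem sqForm_symp (m : ℕ) : Cfsg.Geo.IsSymplecticForm (sqForm (F := F) m) := by
  have hskew : ∀ v w : Fin (2 * m) → F, sqForm m v w = - sqForm m w v := by
    intro v w
    exact SpForm.skew_of_alt (SpForm.stdForm (F := F) m) (SpForm.stdForm_self m) _ _
  refine ⟨⟨?_, ?_, ?_, ?_⟩, hskew, ?_, ?_⟩
  · intro x y v
    show SpForm.stdForm m ((x + y) ∘ sqPar m) (v ∘ sqPar m) = _
    have h : (x + y) ∘ sqPar m = x ∘ sqPar m + y ∘ sqPar m := rfl
    rw [h, map_add, LinearMap.add_apply]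
    rfl
  · intro c x v
    show SpForm.stdForm m ((c • x) ∘ sqPar m) (v ∘ sqPar m) = _
    have h : (c • x) ∘ sqPar m = c • (x ∘ sqPar m) := rfl
    rw [h, map_smul, LinearMap.smul_apply, smul_eq_mul]
    rfl
  · intro v x y
    show SpForm.stdForm m (v ∘ sqPar m) ((x + y) ∘ sqPar m) = _
    have h : (x + y) ∘ sqPar m = x ∘ sqPar m + y ∘ sqPar m := rfl
    rw [h, map_add]
    rfl
  · intro c v x
    show SpForm.stdForm m (v ∘ sqPar m) ((c • x) ∘ sqPar m) = _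
    have h : (c • x) ∘ sqPar m = c • (x ∘ sqPar m) := rfl
    rw [h, map_smul, smul_eq_mul]
    rfl
  · intro v
    exact SpForm.stdForm_self m _
  · intro v hv
    have h1 : ∃ x, sqForm m v x ≠ 0 := by
      by_contra hcon
      push Not at hcon
      apply hv
      have h2 : v ∘ sqPar m = 0 := by
        apply SpForm.stdForm_nondeg m
        intro c'
        have h3 := hcon (c' ∘ (sqPar m).symm)
        have h4 : (c' ∘ (sqPar m).symm) ∘ sqPar m = c' := by
          funext i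
          simp
        unfold sqForm at h3
        rw [h4] at h3
        exact h3
      funext i
      have h5 := congrFun h2 ((sqPar m).symm i)
      simpa using h5
    obtain ⟨x, hx⟩ := h1
    refine ⟨⟨x, ?_⟩, ⟨x, hx⟩⟩
    rw [hskew]
    exact neg_ne_zero.mpr hx

theorem sq_std_mulVec (m : ℕ) (M : Matrix (Fin m ⊕ Fin m) (Fin m ⊕ Fin m) F) (μ : F)
    (hM : Mᵀ * Matrix.J (Fin m) F * M = μ • Matrix.J (Fin m) F) (u v : Fin m ⊕ Fin m → F) :
    SpForm.stdForm m (M *ᵥ u) (M *ᵥ v) = μ * SpForm.stdForm m u v := by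
  unfold SpForm.stdForm
  rw [Matrix.toBilin'_apply', Matrix.toBilin'_apply']
  have h1 : ∀ w : Fin m ⊕ Fin m → F, (M *ᵥ u) ⬝ᵥ w = u ⬝ᵥ Mᵀ *ᵥ w := by
    intro w
    rw [Matrix.dotProduct_mulVec, Matrix.vecMul_transpose]
  rw [h1, Matrix.mulVec_mulVec, Matrix.mulVec_mulVec, hM, Matrix.smul_mulVec,
    dotProduct_smul, smul_eq_mul]

theorem sq_reindex_mulVec (m : ℕ) (M : Matrix (Fin m ⊕ Fin m) (Fin m ⊕ Fin m) F)
    (u : Fin (2 * m) → F) :
    (Matrix.reindex (sqPar m) (sqPar m) M *ᵥ u) ∘ sqPar m = M *ᵥ (u ∘ sqPar m) := by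
  rw [Matrix.reindex_apply, Matrix.submatrix_mulVec_equiv]
  funext i
  simp

theorem sq_isSim_reindex (m : ℕ) (M : Matrix (Fin m ⊕ Fin m) (Fin m ⊕ Fin m) F) (μ : F)
    (hμ : μ ≠ 0) (hM : Mᵀ * Matrix.J (Fin m) F * M = μ • Matrix.J (Fin m) F) :
    BGSymp.IsSim (sqForm (F := F) m) (Matrix.reindex (sqPar m) (sqPar m) M) := by
  refine ⟨Units.mk0 μ hμ, fun u v => ?_⟩
  unfold sqForm
  rw [sq_reindex_mulVec, sq_reindex_mulVec, sq_std_mulVec m M μ hM]
  rfl

theorem sq_reindex_mul (m : ℕ) (M M' : Matrix (Fin m ⊕ Fin m) (Fin m ⊕ Fin m) F) :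
    Matrix.reindex (sqPar m) (sqPar m) M * Matrix.reindex (sqPar m) (sqPar m) M' =
      Matrix.reindex (sqPar m) (sqPar m) (M * M') := by
  rw [Matrix.reindex_apply, Matrix.reindex_apply, Matrix.reindex_apply, Matrix.submatrix_mul_equiv]

theorem sq_reindex_one (m : ℕ) :
    Matrix.reindex (sqPar m) (sqPar m) (1 : Matrix (Fin m ⊕ Fin m) (Fin m ⊕ Fin m) F) = 1 := by
  rw [Matrix.reindex_apply, Matrix.submatrix_one_equiv]

/-- transfer: a conjugate of `x` is a similarity of a symplectic form and the centraliser has all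
determinants, so `x` is `SL`-conjugate into the similarity group of any symplectic form -/
theorem sq_transfer (m : ℕ) (f : (Fin (2 * m) → F) → (Fin (2 * m) → F) → F)
    (hf : Cfsg.Geo.IsSymplecticForm f) (x : Matrix.SpecialLinearGroup (Fin (2 * m)) F)
    (B : Matrix (Fin (2 * m)) (Fin (2 * m)) F) (P : GL (Fin (2 * m)) F)
    (hP : P.val * x.val = B * P.val)
    (fB : (Fin (2 * m) → F) → (Fin (2 * m) → F) → F) (hfB : Cfsg.Geo.IsSymplecticForm fB)
    (hsim : BGSymp.IsSim fB B)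
    (hcent : ∀ δ : F, δ ≠ 0 → ∃ C : Matrix (Fin (2 * m)) (Fin (2 * m)) F, C * B = B * C ∧ C.det = δ) :
    ∃ Q : Matrix.SpecialLinearGroup (Fin (2 * m)) F, Q⁻¹ * x * Q ∈
      (Cfsg.Geo.similarityGroup f).comap (Matrix.SpecialLinearGroup.toGL :
        Matrix.SpecialLinearGroup (Fin (2 * m)) F →* GL (Fin (2 * m)) F) := by
  classical
  obtain ⟨Φ, hΦ⟩ := SpForm.exists_equiv_std m (Fin (2 * m) → F) (BGSymp.toBil f hf.bilinear)
    (fun v => hf.alternating v) (fun v hv => BGSymp.nondeg_of_symp f hf v hv)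
    (Module.finrank_fin_fun F)
  obtain ⟨Φ', hΦ'⟩ := SpForm.exists_equiv_std m (Fin (2 * m) → F) (BGSymp.toBil fB hfB.bilinear)
    (fun v => hfB.alternating v) (fun v hv => BGSymp.nondeg_of_symp fB hfB v hv)
    (Module.finrank_fin_fun F)
  obtain ⟨g, hg⟩ : ∃ g : (Fin (2 * m) → F) ≃ₗ[F] (Fin (2 * m) → F), g = Φ'.trans Φ.symm := ⟨_, rfl⟩
  obtain ⟨G, hGdef⟩ : ∃ G : Matrix (Fin (2 * m)) (Fin (2 * m)) F,
      G = LinearMap.toMatrix' g.toLinearMap := ⟨_, rfl⟩
  have hG : ∀ u, G *ᵥ u = g u := by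
    intro u
    rw [hGdef, LinearMap.toMatrix'_mulVec]
    rfl
  have hfG : ∀ u v, f (G *ᵥ u) (G *ᵥ v) = fB u v := by
    intro u v
    rw [hG, hG, ← BGSymp.toBil_apply f hf.bilinear, ← hΦ, hg, LinearEquiv.trans_apply,
      LinearEquiv.trans_apply, LinearEquiv.apply_symm_apply, LinearEquiv.apply_symm_apply, hΦ']
    rfl
  have hGdet : G.det ≠ 0 := by
    have h1 : G * LinearMap.toMatrix' g.symm.toLinearMap = 1 := by
      rw [hGdef, ← LinearMap.toMatrix'_comp]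
      simp
    have h2 := congrArg Matrix.det h1
    rw [Matrix.det_mul, Matrix.det_one] at h2
    exact left_ne_zero_of_mul_eq_one h2
  have hPdet : P.val.det ≠ 0 := by
    have h1 : P.val * (P⁻¹ : GL (Fin (2 * m)) F).val = 1 := by
      rw [← Units.val_mul, mul_inv_cancel, Units.val_one]
    have h2 := congrArg Matrix.det h1
    rw [Matrix.det_mul, Matrix.det_one] at h2
    exact left_ne_zero_of_mul_eq_one h2
  obtain ⟨C, hCB, hCdet⟩ := hcent (G.det * P.val.det)⁻¹ (inv_ne_zero (mul_ne_zero hGdet hPdet))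
  obtain ⟨Y, hY⟩ : ∃ Y : Matrix (Fin (2 * m)) (Fin (2 * m)) F, Y = G * (C * P.val) := ⟨_, rfl⟩
  have hYdet : Y.det = 1 := by
    rw [hY, Matrix.det_mul, Matrix.det_mul, hCdet]
    field_simp
  obtain ⟨c, hc⟩ := hsim
  have hYx : Y * x.val = G * (B * (C * P.val)) := by
    rw [hY, Matrix.mul_assoc, Matrix.mul_assoc, hP, ← Matrix.mul_assoc C, hCB, Matrix.mul_assoc]
  have key : ∀ u v, f ((Y * x.val) *ᵥ u) ((Y * x.val) *ᵥ v) = (c : F) * f (Y *ᵥ u) (Y *ᵥ v) := by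
    intro u v
    have e1 : ∀ w, (Y * x.val) *ᵥ w = G *ᵥ (B *ᵥ ((C * P.val) *ᵥ w)) := by
      intro w
      rw [hYx, Matrix.mulVec_mulVec, Matrix.mulVec_mulVec, Matrix.mul_assoc]
    have e2 : ∀ w, Y *ᵥ w = G *ᵥ ((C * P.val) *ᵥ w) := by
      intro w
      rw [hY, Matrix.mulVec_mulVec]
    rw [e1, e1, e2, e2, hfG, hc, hfG]
  obtain ⟨Ys, hYs⟩ : ∃ Ys : Matrix.SpecialLinearGroup (Fin (2 * m)) F, Ys.val = Y :=
    ⟨⟨Y, hYdet⟩, rfl⟩
  refine ⟨Ys⁻¹, ?_⟩
  rw [Subgroup.mem_comap]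
  refine ⟨c, fun u v => ?_⟩
  simp only [SpecialLinearGroup.coe_GL_coe_matrix]
  have h1 : ((Ys⁻¹⁻¹ * x * Ys⁻¹ : Matrix.SpecialLinearGroup (Fin (2 * m)) F) :
      Matrix (Fin (2 * m)) (Fin (2 * m)) F) = Y * x.val * (Ys⁻¹).val := by
    rw [inv_inv, Matrix.SpecialLinearGroup.coe_mul, Matrix.SpecialLinearGroup.coe_mul, hYs]
  have h2 : Y * (Ys⁻¹).val = 1 := by
    rw [← hYs, ← Matrix.SpecialLinearGroup.coe_mul, mul_inv_cancel, Matrix.SpecialLinearGroup.coe_one]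
  rw [h1, ← Matrix.mulVec_mulVec, ← Matrix.mulVec_mulVec (v := v), key, Matrix.mulVec_mulVec,
    Matrix.mulVec_mulVec, h2, Matrix.one_mulVec, Matrix.one_mulVec]

end Cfsg.Agent.Helper37
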