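import Mathlib
import Cfsg.Agent.Helper37.Pgl1

set_option autoImplicit false

namespace Cfsg.Agent.Helper37

open Matrix Module Polynomial

universe u

variable {F : Type u} [Field F]

theorem pglD_det (n k : ℕ) (hk : k ≤ n) : (pglD F n k).det = (-1) ^ k := by
  unfold pglD
  rw [Matrix.det_diagonal, Finset.prod_ite, Finset.prod_const, Finset.prod_const_one, mul_one,
    Fin.card_filter_val_lt, min_eq_right hk]

theorem sq_ringChar_ne (h2 : (2 : F) ≠ 0) : ringChar F ≠ 2 := by
  intro h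
  apply h2
  have h3 := ringChar.Nat.cast_ringChar (R := F)
  rw [h] at h3
  exact_mod_cast h3

theorem sq_nt1 [Fintype F] (h2 : (2 : F) ≠ 0) (n : ℕ) (hn : n ≠ 0)
    (hv : padicValNat 2 (Fintype.card F - 1) ≤ padicValNat 2 n) (c : F) : c ^ n ≠ -1 := by
  intro hc
  have hc0 : c ≠ 0 := by
    rintro rfl
    rw [zero_pow hn] at hc
    exact one_ne_zero (neg_eq_zero.mp hc.symm)
  have hq1 : Fintype.card F - 1 ≠ 0 := by
    have := Fintype.one_lt_card (α := F)
    omega
  obtain ⟨k, w, hw, hkw⟩ := Nat.exists_eq_two_pow_mul_odd hq1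
  have hk : 2 ^ k ∣ n := by
    have h1 : 2 ^ k ∣ Fintype.card F - 1 := ⟨w, hkw⟩
    have h3 := (padicValNat_dvd_iff_le hq1).mp h1
    exact (padicValNat_dvd_iff_le hn).mpr (le_trans h3 hv)
  obtain ⟨n₁, hn₁⟩ := hk
  have h3 : c ^ (n * w) = -1 := by rw [pow_mul, hc, hw.neg_one_pow]
  have h4 : c ^ (n * w) = 1 := by
    have : n * w = (Fintype.card F - 1) * n₁ := by rw [hn₁, hkw]; ring
    rw [this, pow_mul, FiniteField.pow_card_sub_one_eq_one c hc0, one_pow]
  rw [h4] at h3
  apply h2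
  linear_combination h3

theorem sq_nt2 [Fintype F] (n : ℕ) (hn : n ≠ 0)
    (hv : padicValNat 2 n < padicValNat 2 (Fintype.card F - 1)) :
    (2 : F) ≠ 0 ∧ ∃ c : F, c ^ n = -1 := by
  classical
  have hq1 : Fintype.card F - 1 ≠ 0 := by
    have := Fintype.one_lt_card (α := F)
    omega
  have h2 : (2 : F) ≠ 0 := by
    intro h
    have hch : ringChar F = 2 := CharP.ringChar_of_prime_eq_zero Nat.prime_two (by exact_mod_cast h)
    have hev : Fintype.card F % 2 = 0 := FiniteField.even_card_iff_char_two.mp hch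
    have h3 : ¬ 2 ∣ Fintype.card F - 1 := by
      have := Fintype.one_lt_card (α := F)
      omega
    have h4 := padicValNat.eq_zero_of_not_dvd h3
    omega
  obtain ⟨k, n₁, hn₁, hkn⟩ := Nat.exists_eq_two_pow_mul_odd hn
  have hk : k ≤ padicValNat 2 n := (padicValNat_dvd_iff_le hn).mp ⟨n₁, hkn⟩
  have hdvd : 2 ^ (k + 1) ∣ Fintype.card F - 1 := (padicValNat_dvd_iff_le hq1).mpr (by omega)
  obtain ⟨j, hj⟩ := hdvd
  have hj0 : j ≠ 0 := by
    rintro rfl
    rw [mul_zero] at hj
    exact hq1 hj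
  obtain ⟨g, hg⟩ := IsCyclic.exists_ofOrder_eq_natCard (α := Fˣ)
  have hcard : Nat.card Fˣ = Fintype.card F - 1 := by
    rw [Nat.card_eq_fintype_card, Fintype.card_units]
  obtain ⟨h, hh⟩ : ∃ h : Fˣ, h = g ^ (j * 2 ^ k) := ⟨_, rfl⟩
  have hh2 : h ^ 2 = 1 := by
    rw [hh, ← pow_mul]
    have : j * 2 ^ k * 2 = Fintype.card F - 1 := by rw [hj]; ring
    rw [this, ← hcard, ← hg, pow_orderOf_eq_one]
  have hh1 : h ≠ 1 := by
    intro h1
    rw [hh] at h1
    have h3 := orderOf_dvd_of_pow_eq_one h1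
    rw [hg, hcard, hj] at h3
    have h4 := Nat.le_of_dvd (by positivity) h3
    have h5 : 2 ^ (k + 1) * j = 2 * (j * 2 ^ k) := by ring
    have h6 : 0 < j * 2 ^ k := by positivity
    omega
  have hval : (h : F) = -1 := by
    have h3 : ((h : F)) ^ 2 = 1 := by
      have h7 := congrArg Units.val hh2
      rw [Units.val_pow_eq_pow_val, Units.val_one] at h7
      exact h7
    have h4 : (h : F) ≠ 1 := fun e => hh1 (Units.ext e)
    have h5 : ((h : F) - 1) * ((h : F) + 1) = 0 := by linear_combination h3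
    rcases mul_eq_zero.mp h5 with h6 | h6
    · exact absurd (sub_eq_zero.mp h6) h4
    · exact eq_neg_of_add_eq_zero_left h6
  refine ⟨h2, ((g ^ j : Fˣ) : F), ?_⟩
  rw [← Units.val_pow_eq_pow_val, ← pow_mul, hkn, ← mul_assoc, pow_mul, ← hh,
    Units.val_pow_eq_pow_val, hval, hn₁.neg_one_pow]

theorem sq_norm_exists [Fintype F] (h2 : (2 : F) ≠ 0) (z : F) (hz : ¬ IsSquare z) (δ : F)
    (hδ : δ ≠ 0) : ∃ α β : F, α ≠ 0 ∧ α * α - z * (β * β) = δ := by
  have hchar := sq_ringChar_ne h2
  have hz0 : z ≠ 0 := by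
    rintro rfl
    exact hz ⟨0, by rw [mul_zero]⟩
  by_cases hsq : IsSquare δ
  · obtain ⟨α, hα⟩ := hsq
    refine ⟨α, 0, ?_, by rw [hα]; ring⟩
    rintro rfl
    apply hδ
    rw [hα, mul_zero]
  · obtain ⟨a, b, hab⟩ := FiniteField.exists_root_sum_quadratic (f := (X ^ 2 : F[X]))
      (g := (X ^ 2 - C z⁻¹ : F[X])) (degree_X_pow 2) (degree_X_pow_sub_C (by norm_num) _)
      (FiniteField.odd_card_of_char_ne_two hchar)
    simp only [eval_pow, eval_X, eval_sub, eval_C] at hab
    have hinv : z * z⁻¹ = 1 := mul_inv_cancel₀ hz0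
    have hw : 1 - z * (a * a) = z * (b * b) := by linear_combination (-z) * hab - hinv
    have hb0 : b ≠ 0 := by
      rintro rfl
      apply hz
      have ha0 : a ≠ 0 := by
        rintro rfl
        simp at hw
      refine ⟨a⁻¹, ?_⟩
      field_simp
      linear_combination -hw
    have hw0 : 1 - z * (a * a) ≠ 0 := by
      rw [hw]
      exact mul_ne_zero hz0 (mul_ne_zero hb0 hb0)
    have hwns : ¬ IsSquare (1 - z * (a * a)) := by
      rw [hw]
      rintro ⟨t, ht⟩
      apply hz
      refine ⟨t / b, ?_⟩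
      field_simp
      linear_combination ht
    have h1 : IsSquare (δ / (1 - z * (a * a))) := by
      rw [FiniteField.isSquare_iff hchar (div_ne_zero hδ hw0), div_pow]
      have e1 : δ ^ (Fintype.card F / 2) = -1 := by
        rcases FiniteField.pow_dichotomy hchar hδ with h | h
        · exact absurd ((FiniteField.isSquare_iff hchar hδ).mpr h) hsq
        · exact h
      have e2 : (1 - z * (a * a)) ^ (Fintype.card F / 2) = -1 := by
        rcases FiniteField.pow_dichotomy hchar hw0 with h | h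
        · exact absurd ((FiniteField.isSquare_iff hchar hw0).mpr h) hwns
        · exact h
      rw [e1, e2]
      norm_num
    obtain ⟨α, hα⟩ := h1
    refine ⟨α, α * a, ?_, ?_⟩
    · rintro rfl
      rw [mul_zero] at hα
      exact (div_ne_zero hδ hw0) hα
    · have h3 : δ = α * α * (1 - z * (a * a)) := by
        rw [← hα, div_mul_cancel₀ δ hw0]
      rw [h3]
      ring

end Cfsg.Agent.Helper37
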