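import Mathlib
import Cfsg.Agent.Helper37.Sq1
import Cfsg.Agent.Helper37.Sq2
import Cfsg.Agent.Helper37.Sq3
import Cfsg.Agent.Helper37.Pgl2

set_option autoImplicit false

namespace Cfsg.Agent.Helper37

open Matrix Module Cfsg.Agent.Helper42

universe u

variable {F : Type u} [Field F]

theorem sq_gl_det_ne {n : ℕ} (P : GL (Fin n) F) : P.val.det ≠ 0 := by
  have h1 : P.val * (P⁻¹ : GL (Fin n) F).val = 1 := by
    rw [← Units.val_mul, mul_inv_cancel, Units.val_one]
  have h2 := congrArg Matrix.det h1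
  rw [Matrix.det_mul, Matrix.det_one] at h2
  exact left_ne_zero_of_mul_eq_one h2

theorem sq_pglD_mulVec (n k : ℕ) (c : F) (w : Fin n → F) (i : Fin n) :
    ((c • pglD F n k) *ᵥ w) i = c * ((if i.val < k then (-1 : F) else 1) * w i) := by
  rw [Matrix.smul_mulVec, Pi.smul_apply, smul_eq_mul]
  unfold pglD
  rw [Matrix.mulVec_diagonal]

/-- odd characteristic, `x² = c²` -/
theorem sq_caseA (h2 : (2 : F) ≠ 0) (m : ℕ) (hm : 1 ≤ m)
    (f : (Fin (2 * m) → F) → (Fin (2 * m) → F) → F) (hf : Cfsg.Geo.IsSymplecticForm f)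
    (x : Matrix.SpecialLinearGroup (Fin (2 * m)) F) (c : F) (hc : c ≠ 0)
    (hx : x.val * x.val = (c * c) • (1 : Matrix (Fin (2 * m)) (Fin (2 * m)) F))
    (hnum : ∀ c : F, c ^ (2 * m) ≠ -1) :
    ∃ Q : Matrix.SpecialLinearGroup (Fin (2 * m)) F, Q⁻¹ * x * Q ∈
      (Cfsg.Geo.similarityGroup f).comap (Matrix.SpecialLinearGroup.toGL :
        Matrix.SpecialLinearGroup (Fin (2 * m)) F →* GL (Fin (2 * m)) F) := by
  classical
  obtain ⟨A, hAdef⟩ : ∃ A : Matrix (Fin (2 * m)) (Fin (2 * m)) F, A = c⁻¹ • x.val := ⟨_, rfl⟩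
  have hA : A * A = 1 := by
    rw [hAdef, Matrix.smul_mul, Matrix.mul_smul, hx, smul_smul, smul_smul]
    have : c⁻¹ * c⁻¹ * (c * c) = 1 := by field_simp
    rw [this, one_smul]
  obtain ⟨b, hb⟩ : ∃ b, b = pglNu A := ⟨_, rfl⟩
  have hbn : b ≤ 2 * m := by
    rw [hb]
    unfold pglNu
    have h := Submodule.finrank_le (LinearMap.ker (A + 1).mulVecLin)
    rwa [finrank_fin_fun] at h
  obtain ⟨P, hP⟩ := pgl_inv_conj h2 A (pglD F (2 * m) b) hA (pglD_sq (2 * m) b)
    (by rw [pglNu_D h2 _ _ hbn, hb])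
  have hPdet := sq_gl_det_ne P
  have hdetA : A.det = (-1) ^ b := by
    have h1 := congrArg Matrix.det hP
    rw [Matrix.det_mul, Matrix.det_mul, pglD_det _ _ hbn, mul_comm] at h1
    exact mul_right_cancel₀ hPdet h1
  have hxA : x.val = c • A := by rw [hAdef, smul_smul, mul_inv_cancel₀ hc, one_smul]
  have hdetx : c ^ (2 * m) * (-1) ^ b = 1 := by
    have h1 := x.2
    rw [hxA, Matrix.det_smul, Fintype.card_fin, hdetA] at h1
    exact h1
  have hbe : Even b := by
    by_contra hodd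
    rw [Nat.not_even_iff_odd] at hodd
    rw [hodd.neg_one_pow, mul_neg_one] at hdetx
    exact hnum c (by rw [← hdetx, neg_neg])
  refine sq_transfer m f hf x (c • pglD F (2 * m) b) P ?_ (sqForm m) (sqForm_symp m) ?_ ?_
  · rw [hxA, Matrix.mul_smul, hP, Matrix.smul_mul]
  · refine ⟨Units.mk0 (c * c) (mul_ne_zero hc hc), fun u v => ?_⟩
    unfold sqForm
    rw [SpForm.stdForm_apply, SpForm.stdForm_apply, Units.val_mk0, Finset.mul_sum]
    apply Finset.sum_congr rfl
    intro j _
    simp only [Function.comp_apply, sq_pglD_mulVec, sqPar_inl, sqPar_inr]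
    have hpar : (2 * j.val + 1 < b) ↔ (2 * j.val < b) := by
      obtain ⟨r, hr⟩ := hbe
      omega
    by_cases h : 2 * j.val < b
    · simp only [h, hpar.mpr h, if_true]
      ring
    · simp only [h, (not_congr hpar).mpr h, if_false]
      ring
  · intro δ hδ
    obtain ⟨i₀⟩ : Nonempty (Fin (2 * m)) := ⟨⟨0, by omega⟩⟩
    refine ⟨Matrix.diagonal (Function.update (fun _ => (1 : F)) i₀ δ), ?_, ?_⟩
    · unfold pglD
      rw [Matrix.mul_smul, Matrix.smul_mul, Matrix.diagonal_mul_diagonal,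
        Matrix.diagonal_mul_diagonal]
      congr 2
      funext i
      ring
    · rw [Matrix.det_diagonal, Finset.prod_update_of_mem (Finset.mem_univ _),
        Finset.prod_const_one, mul_one]

theorem sq_reindex_smul_one (m : ℕ) (z : F) :
    Matrix.reindex (sqPar m) (sqPar m) (z • (1 : Matrix (Fin m ⊕ Fin m) (Fin m ⊕ Fin m) F)) =
      z • (1 : Matrix (Fin (2 * m)) (Fin (2 * m)) F) := by
  rw [Matrix.reindex_apply]
  ext i j
  simp [Matrix.submatrix_apply, Matrix.smul_apply, Matrix.one_apply]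

/-- odd characteristic, `x² = z` a non-square -/
theorem sq_caseB [Fintype F] (h2 : (2 : F) ≠ 0) (m : ℕ) (hm : 1 ≤ m)
    (f : (Fin (2 * m) → F) → (Fin (2 * m) → F) → F) (hf : Cfsg.Geo.IsSymplecticForm f)
    (x : Matrix.SpecialLinearGroup (Fin (2 * m)) F) (z : F) (hz : ¬ IsSquare z)
    (hx : x.val * x.val = z • (1 : Matrix (Fin (2 * m)) (Fin (2 * m)) F)) :
    ∃ Q : Matrix.SpecialLinearGroup (Fin (2 * m)) F, Q⁻¹ * x * Q ∈
      (Cfsg.Geo.similarityGroup f).comap (Matrix.SpecialLinearGroup.toGL :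
        Matrix.SpecialLinearGroup (Fin (2 * m)) F →* GL (Fin (2 * m)) F) := by
  classical
  have hz0 : z ≠ 0 := by
    rintro rfl
    exact hz ⟨0, by rw [mul_zero]⟩
  obtain ⟨Bι, hBι⟩ : ∃ Bι : Matrix (Fin m ⊕ Fin m) (Fin m ⊕ Fin m) F,
      Bι = Matrix.fromBlocks 0 (z • 1) 1 0 := ⟨_, rfl⟩
  have hBB : Bι * Bι = z • 1 := by
    rw [hBι, Matrix.fromBlocks_multiply, ← Matrix.fromBlocks_one, Matrix.fromBlocks_smul]
    simp
  obtain ⟨P, hP⟩ := pgl_nonsq_conj z hz x.val (Matrix.reindex (sqPar m) (sqPar m) Bι) hx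
    (by rw [sq_reindex_mul, hBB, sq_reindex_smul_one])
  refine sq_transfer m f hf x _ P hP (sqForm m) (sqForm_symp m)
    (sq_isSim_reindex m Bι (-z) (neg_ne_zero.mpr hz0) ?_) ?_
  · rw [hBι]
    unfold Matrix.J
    rw [Matrix.fromBlocks_transpose, Matrix.fromBlocks_multiply, Matrix.fromBlocks_multiply,
      Matrix.fromBlocks_smul]
    simp
  · intro δ hδ
    obtain ⟨α, β, hα, hαβ⟩ := sq_norm_exists h2 z hz δ hδ
    obtain ⟨i₀⟩ : Nonempty (Fin m) := ⟨⟨0, by omega⟩⟩
    obtain ⟨dα, hdα⟩ : ∃ dα : Fin m → F, dα = fun i => if i = i₀ then α else 1 := ⟨_, rfl⟩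
    obtain ⟨dα', hdα'⟩ : ∃ dα' : Fin m → F, dα' = fun i => if i = i₀ then α⁻¹ else 1 := ⟨_, rfl⟩
    obtain ⟨dβ, hdβ⟩ : ∃ dβ : Fin m → F, dβ = fun i => if i = i₀ then β else 0 := ⟨_, rfl⟩
    have hinv1 : Matrix.diagonal dα * Matrix.diagonal dα' = 1 := by
      rw [Matrix.diagonal_mul_diagonal, ← Matrix.diagonal_one]
      congr 1
      funext i
      rw [hdα, hdα']
      by_cases h : i = i₀
      · simp [h, hα]
      · simp [h]
    have hinv2 : Matrix.diagonal dα' * Matrix.diagonal dα = 1 := by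
      rw [Matrix.diagonal_mul_diagonal, ← Matrix.diagonal_one]
      congr 1
      funext i
      rw [hdα, hdα']
      by_cases h : i = i₀
      · simp [h, hα]
      · simp [h]
    refine ⟨Matrix.reindex (sqPar m) (sqPar m) (Matrix.fromBlocks (Matrix.diagonal dα)
      (z • Matrix.diagonal dβ) (Matrix.diagonal dβ) (Matrix.diagonal dα)), ?_, ?_⟩
    · rw [sq_reindex_mul, sq_reindex_mul]
      congr 1
      rw [hBι, Matrix.fromBlocks_multiply, Matrix.fromBlocks_multiply]
      simp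
    · rw [Matrix.det_reindex_self]
      letI : Invertible (Matrix.diagonal dα) := ⟨Matrix.diagonal dα', hinv2, hinv1⟩
      rw [Matrix.det_fromBlocks₁₁]
      have h1 : (⅟(Matrix.diagonal dα) : Matrix (Fin m) (Fin m) F) = Matrix.diagonal dα' := rfl
      rw [h1, Matrix.mul_smul, Matrix.diagonal_mul_diagonal, Matrix.diagonal_mul_diagonal,
        ← Matrix.diagonal_smul, Matrix.diagonal_sub, Matrix.det_diagonal, Matrix.det_diagonal,
        ← Finset.prod_mul_distrib]
      have h3 : ∀ i : Fin m, dα i * (dα i - (z • fun i => dβ i * dα' i * dβ i) i) =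
          if i = i₀ then δ else 1 := by
        intro i
        rw [hdα, hdα', hdβ]
        by_cases h : i = i₀
        · simp only [h, if_true, Pi.smul_apply, smul_eq_mul]
          rw [← hαβ]
          field_simp
        · simp [h]
      rw [Finset.prod_congr rfl (fun i _ => h3 i), Finset.prod_ite_eq' Finset.univ i₀]
      simp

/-- characteristic two -/
theorem sq_caseC [Fintype F] (h2 : (2 : F) = 0) (m : ℕ) (hm : 1 ≤ m)
    (f : (Fin (2 * m) → F) → (Fin (2 * m) → F) → F) (hf : Cfsg.Geo.IsSymplecticForm f)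
    (x : Matrix.SpecialLinearGroup (Fin (2 * m)) F) (c : F) (hc : c ≠ 0)
    (hx : x.val * x.val = (c * c) • (1 : Matrix (Fin (2 * m)) (Fin (2 * m)) F)) :
    ∃ Q : Matrix.SpecialLinearGroup (Fin (2 * m)) F, Q⁻¹ * x * Q ∈
      (Cfsg.Geo.similarityGroup f).comap (Matrix.SpecialLinearGroup.toGL :
        Matrix.SpecialLinearGroup (Fin (2 * m)) F →* GL (Fin (2 * m)) F) := by
  classical
  have hch2 : ∀ (ι : Type) (M : Matrix ι ι F), M + M = 0 := by
    intro ι M
    rw [← two_smul F M, h2, zero_smul]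
  obtain ⟨N, hNdef⟩ : ∃ N : Matrix (Fin (2 * m)) (Fin (2 * m)) F, N = c⁻¹ • x.val + 1 := ⟨_, rfl⟩
  have hN : N * N = 0 := by
    rw [hNdef, add_mul, mul_add, mul_add, Matrix.smul_mul, Matrix.mul_smul, hx, smul_smul,
      smul_smul, Matrix.mul_one, Matrix.one_mul, Matrix.one_mul]
    have h1 : c⁻¹ * c⁻¹ * (c * c) = 1 := by field_simp
    rw [h1, one_smul]
    have h3 : (1 : Matrix (Fin (2 * m)) (Fin (2 * m)) F) + c⁻¹ • x.val + (c⁻¹ • x.val + 1) =
        (1 + 1) + (c⁻¹ • x.val + c⁻¹ • x.val) := by abel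
    rw [h3, hch2, hch2, add_zero]
  have hxN : x.val = c • N + c • 1 := by
    rw [hNdef, smul_add, smul_smul, mul_inv_cancel₀ hc, one_smul, add_assoc, ← smul_add, hch2,
      smul_zero, add_zero]
  obtain ⟨k, hk⟩ : ∃ k, k = N.rank := ⟨_, rfl⟩
  have hkm : k ≤ m := by
    have := sqz_rank_le N hN
    omega
  obtain ⟨d, hd⟩ : ∃ d : Fin m → F, d = fun i => if i.val < k then 1 else 0 := ⟨_, rfl⟩
  obtain ⟨Nι, hNι⟩ : ∃ Nι : Matrix (Fin m ⊕ Fin m) (Fin m ⊕ Fin m) F,
      Nι = Matrix.fromBlocks 0 (Matrix.diagonal d) 0 0 := ⟨_, rfl⟩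
  have hNN : Nι * Nι = 0 := by
    rw [hNι, Matrix.fromBlocks_multiply]
    simp
  have hrank : Nι.rank = k := by
    obtain ⟨S, hS⟩ : ∃ S : Matrix (Fin m ⊕ Fin m) (Fin m ⊕ Fin m) F,
        S = Matrix.fromBlocks 0 1 1 0 := ⟨_, rfl⟩
    have h1 : Nι = Matrix.fromBlocks (Matrix.diagonal d) 0 0 (Matrix.diagonal (0 : Fin m → F)) *
        S := by
      rw [hNι, hS, Matrix.fromBlocks_multiply]
      simp
    have h3 : IsUnit S.det := by
      have h4 : S * S = 1 := by
        rw [hS, Matrix.fromBlocks_multiply, ← Matrix.fromBlocks_one]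
        simp
      have h5 := congrArg Matrix.det h4
      rw [Matrix.det_mul, Matrix.det_one] at h5
      exact IsUnit.of_mul_eq_one _ h5
    rw [h1, Matrix.rank_mul_eq_left_of_isUnit_det _ _ h3, Matrix.fromBlocks_diagonal,
      Matrix.rank_diagonal, Fintype.card_subtype, Finset.card_filter, Fintype.sum_sum_type]
    simp only [Sum.elim_inl, Sum.elim_inr, Pi.zero_apply, ne_eq, not_true_eq_false, if_false,
      Finset.sum_const_zero, add_zero]
    refine (Finset.sum_congr rfl (fun a _ => ?_ : ∀ a ∈ (Finset.univ : Finset (Fin m)),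
      _ = (if a.val < k then 1 else 0))).trans ?_
    · by_cases h : a.val < k
      · simp [hd, h]
      · simp [hd, h]
    · rw [← Finset.card_filter, Fin.card_filter_val_lt, min_eq_right hkm]
  obtain ⟨Ns, hNs⟩ : ∃ Ns : Matrix (Fin (2 * m)) (Fin (2 * m)) F,
      Ns = Matrix.reindex (sqPar m) (sqPar m) Nι := ⟨_, rfl⟩
  have hNsNs : Ns * Ns = 0 := by
    rw [hNs, sq_reindex_mul, hNN]
    simp
  have hNsrank : Ns.rank = k := by
    rw [hNs, Matrix.rank_reindex, hrank]
  obtain ⟨P, hP⟩ := sqz_conj N Ns hN hNsNs (by rw [hNsrank, hk])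
  obtain ⟨Bι, hBι⟩ : ∃ Bι : Matrix (Fin m ⊕ Fin m) (Fin m ⊕ Fin m) F,
      Bι = Matrix.fromBlocks (c • 1) (c • Matrix.diagonal d) 0 (c • 1) := ⟨_, rfl⟩
  have hBs : Matrix.reindex (sqPar m) (sqPar m) Bι = c • Ns + c • 1 := by
    rw [hNs, ← sq_reindex_smul_one, hBι, hNι]
    ext i j
    simp only [Matrix.reindex_apply, Matrix.submatrix_apply, Matrix.add_apply, Matrix.smul_apply]
    rcases (sqPar m).symm i with a | a <;> rcases (sqPar m).symm j with b | b <;>
      simp [Matrix.one_apply]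
  refine sq_transfer m f hf x _ P ?_ (sqForm m) (sqForm_symp m)
    (sq_isSim_reindex m Bι (c * c) (mul_ne_zero hc hc) ?_) ?_
  · rw [hBs, hxN, mul_add, add_mul, Matrix.mul_smul, Matrix.mul_smul, hP, Matrix.smul_mul,
      Matrix.smul_mul, Matrix.mul_one, Matrix.one_mul]
  · rw [hBι]
    unfold Matrix.J
    rw [Matrix.fromBlocks_transpose, Matrix.fromBlocks_multiply, Matrix.fromBlocks_multiply,
      Matrix.fromBlocks_smul]
    simp [Matrix.diagonal_transpose, smul_smul]
  · intro δ hδ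
    have hch : ringChar F = 2 :=
      CharP.ringChar_of_prime_eq_zero Nat.prime_two (by exact_mod_cast h2)
    obtain ⟨ρ, hρ⟩ := FiniteField.isSquare_of_char_two hch δ
    obtain ⟨i₀⟩ : Nonempty (Fin m) := ⟨⟨0, by omega⟩⟩
    obtain ⟨dρ, hdρ⟩ : ∃ dρ : Fin m → F, dρ = fun i => if i = i₀ then ρ else 1 := ⟨_, rfl⟩
    have hdet : (Matrix.diagonal dρ).det = ρ := by
      rw [Matrix.det_diagonal, hdρ, Finset.prod_ite_eq' Finset.univ i₀]
      simp
    refine ⟨Matrix.reindex (sqPar m) (sqPar m) (Matrix.fromBlocks (Matrix.diagonal dρ) 0 0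
      (Matrix.diagonal dρ)), ?_, ?_⟩
    · rw [sq_reindex_mul, sq_reindex_mul]
      congr 1
      rw [hBι, Matrix.fromBlocks_multiply, Matrix.fromBlocks_multiply]
      simp [Matrix.diagonal_mul_diagonal, mul_comm]
    · rw [Matrix.det_reindex_self, Matrix.det_fromBlocks_zero₁₂, hdet, hρ]

/-- the involution with no conjugate in a symplectic similarity group -/
theorem sq_bad (h2 : (2 : F) ≠ 0) (m : ℕ) (hm : 2 ≤ m) (c : F) (hc : c ^ (2 * m) = -1) :
    ∃ x : Matrix.SpecialLinearGroup (Fin (2 * m)) F,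
      x.val * x.val = (c * c) • (1 : Matrix (Fin (2 * m)) (Fin (2 * m)) F) ∧
      (∀ z : F, x.val ≠ z • (1 : Matrix (Fin (2 * m)) (Fin (2 * m)) F)) ∧
      ∀ f' : (Fin (2 * m) → F) → (Fin (2 * m) → F) → F, Cfsg.Geo.IsSymplecticForm f' →
        ¬ BGSymp.IsSim f' x.1 := by
  classical
  have hc0 : c ≠ 0 := by
    rintro rfl
    rw [zero_pow (by omega)] at hc
    exact one_ne_zero (neg_eq_zero.mp hc.symm)
  have hdet : (c • pglD F (2 * m) 1).det = 1 := by
    rw [Matrix.det_smul, Fintype.card_fin, hc, pglD_det _ _ (by omega)]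
    norm_num
  obtain ⟨i0, hi0⟩ : ∃ i : Fin (2 * m), i.val = 0 := ⟨⟨0, by omega⟩, rfl⟩
  obtain ⟨i1, hi1⟩ : ∃ i : Fin (2 * m), i.val = 1 := ⟨⟨1, by omega⟩, rfl⟩
  obtain ⟨i2, hi2⟩ : ∃ i : Fin (2 * m), i.val = 2 := ⟨⟨2, by omega⟩, rfl⟩
  have h10 : i1 ≠ i0 := by intro h; rw [h] at hi1; omega
  have h20 : i2 ≠ i0 := by intro h; rw [h] at hi2; omega
  have h21 : i2 ≠ i1 := by intro h; rw [h] at hi2; omega
  have hlt : ∀ i : Fin (2 * m), i.val < 1 ↔ i = i0 := by
    intro i
    constructor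
    · intro h
      apply Fin.ext
      omega
    · rintro rfl
      omega
  refine ⟨⟨c • pglD F (2 * m) 1, hdet⟩, ?_, ?_, ?_⟩
  · show (c • pglD F (2 * m) 1) * (c • pglD F (2 * m) 1) = _
    rw [Matrix.smul_mul, Matrix.mul_smul, pglD_sq, smul_smul]
  · intro z hz
    have hz' : c • pglD F (2 * m) 1 = z • (1 : Matrix (Fin (2 * m)) (Fin (2 * m)) F) := hz
    have e0 := congrFun (congrFun hz' i0) i0
    have e1 := congrFun (congrFun hz' i1) i1
    unfold pglD at e0 e1
    simp only [Matrix.smul_apply, Matrix.diagonal_apply_eq, Matrix.one_apply_eq, smul_eq_mul,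
      mul_one] at e0 e1
    rw [if_pos (by omega)] at e0
    rw [if_neg (by omega)] at e1
    apply h2
    have h3 : (2 : F) * c = 0 := by linear_combination e1 - e0
    rcases mul_eq_zero.mp h3 with h | h
    · exact h
    · exact absurd h hc0
  · rintro f' hf' ⟨μ, hμ⟩
    obtain ⟨e, he⟩ : ∃ e : Fin (2 * m) → (Fin (2 * m) → F), e = fun i => Pi.single i 1 := ⟨_, rfl⟩
    have hxe : ∀ i, (c • pglD F (2 * m) 1) *ᵥ e i =
        (c * (if i = i0 then (-1 : F) else 1)) • e i := by
      intro i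
      funext j
      rw [sq_pglD_mulVec, he, Pi.smul_apply, smul_eq_mul]
      by_cases hji : j = i
      · subst hji
        simp only [hlt, Pi.single_eq_same, mul_one]
      · simp [Pi.single_eq_of_ne hji]
    have key : ∀ i j, (c * (if i = i0 then (-1 : F) else 1)) *
        ((c * (if j = i0 then (-1 : F) else 1)) * f' (e i) (e j)) = (μ : F) * f' (e i) (e j) := by
      intro i j
      have h := hμ (e i) (e j)
      change f' ((c • pglD F (2 * m) 1) *ᵥ e i) ((c • pglD F (2 * m) 1) *ᵥ e j) = _ at h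
      rw [hxe, hxe, hf'.bilinear.smul_left, hf'.bilinear.smul_right] at h
      exact h
    have hext : ∀ u : Fin (2 * m) → F, (∀ j, f' u (e j) = 0) → u = 0 := by
      intro u hu
      apply BGSymp.nondeg_of_symp f' hf' u
      intro w
      have h1 : BGSymp.toBil f' hf'.bilinear u = 0 := by
        apply LinearMap.pi_ext
        intro j a
        rw [LinearMap.zero_apply]
        have h3 : (Pi.single j a : Fin (2 * m) → F) = a • e j := by
          rw [he]
          simp only
          rw [← Pi.single_smul, smul_eq_mul, mul_one]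
        rw [h3, map_smul, BGSymp.toBil_apply, hu, smul_zero]
      have h4 := congrArg (fun φ : (Fin (2 * m) → F) →ₗ[F] F => φ w) h1
      exact h4
    have hne : ∀ i, e i ≠ 0 := by
      intro i h
      have h1 := congrFun h i
      rw [he] at h1
      simp at h1
    by_cases hμc : (μ : F) = c * c
    · apply hne i0
      apply hext
      intro j
      by_cases hj : j = i0
      · rw [hj]
        exact hf'.alternating _
      · have h := key i0 j
        rw [if_pos rfl, if_neg hj, hμc] at h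
        have h3 : (2 * (c * c)) * f' (e i0) (e j) = 0 := by linear_combination -h
        rcases mul_eq_zero.mp h3 with h4 | h4
        · exact absurd h4 (mul_ne_zero h2 (mul_ne_zero hc0 hc0))
        · exact h4
    · have hz : ∀ i j, i ≠ i0 → j ≠ i0 → f' (e i) (e j) = 0 := by
        intro i j hi hj
        have h := key i j
        rw [if_neg hi, if_neg hj] at h
        have h3 : (c * c - (μ : F)) * f' (e i) (e j) = 0 := by linear_combination h
        rcases mul_eq_zero.mp h3 with h4 | h4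
        · exact absurd (sub_eq_zero.mp h4).symm hμc
        · exact h4
      obtain ⟨a, ha⟩ : ∃ a : F, a = f' (e i1) (e i0) := ⟨_, rfl⟩
      obtain ⟨b, hb⟩ : ∃ b : F, b = f' (e i2) (e i0) := ⟨_, rfl⟩
      have hw : b • e i1 + (-a) • e i2 = 0 := by
        apply hext
        intro j
        rw [hf'.bilinear.add_left, hf'.bilinear.smul_left, hf'.bilinear.smul_left]
        by_cases hj : j = i0
        · rw [hj, ← ha, ← hb]
          ring
        · rw [hz i1 j h10 hj, hz i2 j h20 hj]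
          ring
      have hb0 : b = 0 := by
        have h := congrFun hw i1
        rw [he] at h
        simpa [Pi.single_eq_of_ne h21.symm] using h
      have ha0 : a = 0 := by
        have h := congrFun hw i2
        rw [he] at h
        simpa [Pi.single_eq_of_ne h21] using h
      apply hne i1
      apply hext
      intro j
      by_cases hj : j = i0
      · rw [hj, ← ha, ha0]
      · exact hz i1 j h10 hj

end Cfsg.Agent.Helper37
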