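import Mathlib
import Cfsg.Agent.Helper97.SFBasic
import Cfsg.Agent.Helper37.Sq4

set_option autoImplicit false

namespace Cfsg.Agent.Helper37

open Matrix Module Cfsg.Agent.Helper42 Cfsg.Geo

universe u

variable {F : Type u} [Field F]

/-- transfer for the subfield subgroup -/
theorem sf_transfer {n : ℕ} (F₀ : Subfield F) (x : Matrix.SpecialLinearGroup (Fin n) F)
    (B : Matrix (Fin n) (Fin n) F) (P : GL (Fin n) F) (hP : P.val * x.val = B * P.val)
    (c : F) (hc : c ≠ 0) (hB : c • B ∈ Cfsg.Agent.Helper97.SF.ratMat F₀ n)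
    (hcent : ∀ δ : F, δ ≠ 0 → ∃ C : Matrix (Fin n) (Fin n) F, C * B = B * C ∧ C.det = δ) :
    ∃ Q : Matrix.SpecialLinearGroup (Fin n) F, Q⁻¹ * x * Q ∈
      (subfieldSubgroup F₀ (1 : GL (Fin n) F)).comap (Matrix.SpecialLinearGroup.toGL :
        Matrix.SpecialLinearGroup (Fin n) F →* GL (Fin n) F) := by
  classical
  have hPdet := sq_gl_det_ne P
  obtain ⟨C, hCB, hCdet⟩ := hcent (P.val.det)⁻¹ (inv_ne_zero hPdet)
  obtain ⟨Y, hY⟩ : ∃ Y : Matrix (Fin n) (Fin n) F, Y = C * P.val := ⟨_, rfl⟩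
  have hYdet : Y.det = 1 := by
    rw [hY, Matrix.det_mul, hCdet, inv_mul_cancel₀ hPdet]
  have hYx : Y * x.val = B * Y := by
    rw [hY, Matrix.mul_assoc, hP, ← Matrix.mul_assoc, hCB, Matrix.mul_assoc]
  obtain ⟨Ys, hYs⟩ : ∃ Ys : Matrix.SpecialLinearGroup (Fin n) F, Ys.val = Y := ⟨⟨Y, hYdet⟩, rfl⟩
  refine ⟨Ys⁻¹, ?_⟩
  rw [Subgroup.mem_comap, Cfsg.Agent.Helper97.SF.mem_subfieldSubgroup_one]
  refine ⟨c, hc, ?_⟩
  simp only [SpecialLinearGroup.coe_GL_coe_matrix]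
  have h2 : Y * (Ys⁻¹).val = 1 := by
    rw [← hYs, ← Matrix.SpecialLinearGroup.coe_mul, mul_inv_cancel,
      Matrix.SpecialLinearGroup.coe_one]
  have h1 : ((Ys⁻¹⁻¹ * x * Ys⁻¹ : Matrix.SpecialLinearGroup (Fin n) F) :
      Matrix (Fin n) (Fin n) F) = B := by
    rw [inv_inv, Matrix.SpecialLinearGroup.coe_mul, Matrix.SpecialLinearGroup.coe_mul, hYs, hYx,
      Matrix.mul_assoc, h2, Matrix.mul_one]
  rw [h1]
  exact hB

/-- odd characteristic, `x² = c²`: conjugate into any subfield subgroup -/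
theorem sf_caseA {n : ℕ} (hn : 1 ≤ n) (h2 : (2 : F) ≠ 0) (F₀ : Subfield F)
    (x : Matrix.SpecialLinearGroup (Fin n) F) (c : F) (hc : c ≠ 0)
    (hx : x.val * x.val = (c * c) • (1 : Matrix (Fin n) (Fin n) F)) :
    ∃ Q : Matrix.SpecialLinearGroup (Fin n) F, Q⁻¹ * x * Q ∈
      (subfieldSubgroup F₀ (1 : GL (Fin n) F)).comap (Matrix.SpecialLinearGroup.toGL :
        Matrix.SpecialLinearGroup (Fin n) F →* GL (Fin n) F) := by
  classical
  obtain ⟨A, hAdef⟩ : ∃ A : Matrix (Fin n) (Fin n) F, A = c⁻¹ • x.val := ⟨_, rfl⟩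
  have hA : A * A = 1 := by
    rw [hAdef, Matrix.smul_mul, Matrix.mul_smul, hx, smul_smul, smul_smul]
    have : c⁻¹ * c⁻¹ * (c * c) = 1 := by field_simp
    rw [this, one_smul]
  obtain ⟨b, hb⟩ : ∃ b, b = pglNu A := ⟨_, rfl⟩
  have hbn : b ≤ n := by
    rw [hb]
    unfold pglNu
    have h := Submodule.finrank_le (LinearMap.ker (A + 1).mulVecLin)
    rwa [finrank_fin_fun] at h
  obtain ⟨P, hP⟩ := pgl_inv_conj h2 A (pglD F n b) hA (pglD_sq n b)
    (by rw [pglNu_D h2 _ _ hbn, hb])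
  have hxA : x.val = c • A := by rw [hAdef, smul_smul, mul_inv_cancel₀ hc, one_smul]
  refine sf_transfer F₀ x (c • pglD F n b) P ?_ c⁻¹ (inv_ne_zero hc) ?_ ?_
  · rw [hxA, Matrix.mul_smul, hP, Matrix.smul_mul]
  · rw [smul_smul, inv_mul_cancel₀ hc, one_smul]
    intro i j
    unfold pglD
    rw [Matrix.diagonal_apply]
    split_ifs
    · exact neg_mem (one_mem _)
    · exact one_mem _
    · exact zero_mem _
  · intro δ hδ
    obtain ⟨i₀⟩ : Nonempty (Fin n) := ⟨⟨0, by omega⟩⟩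
    refine ⟨Matrix.diagonal (Function.update (fun _ => (1 : F)) i₀ δ), ?_, ?_⟩
    · unfold pglD
      rw [Matrix.mul_smul, Matrix.smul_mul, Matrix.diagonal_mul_diagonal,
        Matrix.diagonal_mul_diagonal]
      congr 2
      funext i
      ring
    · rw [Matrix.det_diagonal, Finset.prod_update_of_mem (Finset.mem_univ _),
        Finset.prod_const_one, mul_one]

theorem sf_det_blk (m : ℕ) (z : F) :
    (Matrix.fromBlocks (0 : Matrix (Fin m) (Fin m) F) (z • (1 : Matrix (Fin m) (Fin m) F))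
      (1 : Matrix (Fin m) (Fin m) F) (0 : Matrix (Fin m) (Fin m) F)).det = (-z) ^ m := by
  have h1 : Matrix.fromBlocks (1 : Matrix (Fin m) (Fin m) F) (1 : Matrix (Fin m) (Fin m) F)
      (0 : Matrix (Fin m) (Fin m) F) (1 : Matrix (Fin m) (Fin m) F) *
      Matrix.fromBlocks (0 : Matrix (Fin m) (Fin m) F) (z • (1 : Matrix (Fin m) (Fin m) F))
      (1 : Matrix (Fin m) (Fin m) F) (0 : Matrix (Fin m) (Fin m) F) =
      Matrix.fromBlocks (1 : Matrix (Fin m) (Fin m) F) (z • (1 : Matrix (Fin m) (Fin m) F))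
      (1 : Matrix (Fin m) (Fin m) F) (0 : Matrix (Fin m) (Fin m) F) := by
    rw [Matrix.fromBlocks_multiply]
    simp
  have h2 := congrArg Matrix.det h1
  rw [Matrix.det_mul, Matrix.det_fromBlocks_zero₂₁, Matrix.det_one, one_mul, one_mul,
    Matrix.det_fromBlocks_one₁₁, Matrix.one_mul, zero_sub, ← neg_smul, Matrix.det_smul,
    Matrix.det_one, mul_one, Fintype.card_fin] at h2
  exact h2

/-- odd characteristic, `q` a square, `x² = z` a non-square: impossible when `(n)_2 ≤ (q-1)_2` -/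
theorem sf_caseB [Fintype F] (h2 : (2 : F) ≠ 0) (q₀ : ℕ) (hq : Fintype.card F = q₀ ^ 2)
    {n : ℕ} (hn : 1 ≤ n) (x : Matrix.SpecialLinearGroup (Fin n) F) (z : F) (hz : ¬ IsSquare z)
    (hx : x.val * x.val = z • (1 : Matrix (Fin n) (Fin n) F))
    (hv : padicValNat 2 n ≤ padicValNat 2 (Fintype.card F - 1)) : False := by
  classical
  have hchar := sq_ringChar_ne h2
  obtain ⟨m, hm⟩ := pgl_nonsq_even z hz x.val hx
  obtain rfl : n = 2 * m := by omega
  have hz0 : z ≠ 0 := by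
    rintro rfl
    exact hz ⟨0, by rw [mul_zero]⟩
  obtain ⟨Bι, hBι⟩ : ∃ Bι : Matrix (Fin m ⊕ Fin m) (Fin m ⊕ Fin m) F,
      Bι = Matrix.fromBlocks 0 (z • 1) 1 0 := ⟨_, rfl⟩
  have hBB : Bι * Bι = z • 1 := by
    rw [hBι, Matrix.fromBlocks_multiply, ← Matrix.fromBlocks_one, Matrix.fromBlocks_smul]
    simp
  obtain ⟨P, hP⟩ := pgl_nonsq_conj z hz x.val (Matrix.reindex (sqPar m) (sqPar m) Bι) hx
    (by rw [sq_reindex_mul, hBB, sq_reindex_smul_one])
  have hdet : (-z) ^ m = 1 := by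
    have h1 := congrArg Matrix.det hP
    rw [Matrix.det_mul, Matrix.det_mul, x.2, mul_one, Matrix.det_reindex_self, hBι, sf_det_blk]
      at h1
    have h3 : (1 : F) * P.val.det = (-z) ^ m * P.val.det := (one_mul _).trans h1
    exact (mul_right_cancel₀ (sq_gl_det_ne P) h3).symm
  -- `-1` is a square
  have hodd : Fintype.card F % 2 = 1 := FiniteField.odd_card_of_char_ne_two hchar
  have hq₀ : q₀ % 2 = 1 := by
    rw [hq, Nat.pow_mod] at hodd
    rcases Nat.mod_two_eq_zero_or_one q₀ with h | h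
    · rw [h] at hodd
      norm_num at hodd
    · exact h
  have hq4 : Fintype.card F % 4 = 1 := by
    rw [hq]
    obtain ⟨a, ha⟩ : ∃ a, q₀ = 2 * a + 1 := ⟨q₀ / 2, by omega⟩
    rw [ha]
    have : (2 * a + 1) ^ 2 = 4 * (a * a + a) + 1 := by ring
    rw [this]
    omega
  have hneg : IsSquare (-1 : F) := FiniteField.isSquare_neg_one_iff.mpr (by omega)
  have hu : ¬ IsSquare (-z) := by
    intro h
    apply hz
    have h3 := hneg.mul h
    rwa [neg_one_mul, neg_neg] at h3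
  have hu0 : -z ≠ 0 := neg_ne_zero.mpr hz0
  have hpow : (-z) ^ (Fintype.card F / 2) = -1 := by
    rcases FiniteField.pow_dichotomy hchar hu0 with h | h
    · exact absurd ((FiniteField.isSquare_iff hchar hu0).mpr h) hu
    · exact h
  have hm0 : m ≠ 0 := by omega
  obtain ⟨s, m₁, hm₁, hsm⟩ := Nat.exists_eq_two_pow_mul_odd hm0
  have hq1 : Fintype.card F - 1 ≠ 0 := by
    have := Fintype.one_lt_card (α := F)
    omega
  have hdvd : 2 ^ (s + 1) ∣ Fintype.card F - 1 := by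
    apply (padicValNat_dvd_iff_le hq1).mpr
    refine le_trans ?_ hv
    apply (padicValNat_dvd_iff_le (by omega)).mp
    rw [hsm, pow_succ]
    exact ⟨m₁, by ring⟩
  obtain ⟨j, hj⟩ := hdvd
  have hhalf : Fintype.card F / 2 = 2 ^ s * j := by
    have h3 : Fintype.card F = 2 * (2 ^ s * j) + 1 := by
      have h4 : 2 ^ (s + 1) * j = 2 * (2 ^ s * j) := by ring
      omega
    omega
  have h5 : (-z) ^ (Fintype.card F / 2 * m₁) = -1 := by
    rw [pow_mul, hpow, hm₁.neg_one_pow]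
  have h6 : (-z) ^ (Fintype.card F / 2 * m₁) = 1 := by
    have : Fintype.card F / 2 * m₁ = m * j := by rw [hhalf, hsm]; ring
    rw [this, pow_mul, hdet, one_pow]
  rw [h6] at h5
  apply h2
  linear_combination h5

end Cfsg.Agent.Helper37
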