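import Mathlib
import Cfsg.Agent.Helper37.Sf1
import Cfsg.Agent.Helper5.SLCard

set_option autoImplicit false

namespace Cfsg.Agent.Helper37

open Matrix Module Cfsg.Geo

universe u

variable {F : Type u} [Field F]

theorem sf_geom (k a b : ℕ) (hk : Odd k) (hab : b ≤ a) (ha : Odd a) (hb : Odd b) :
    ∃ ρ, Odd ρ ∧ a ^ k - b ^ k = (a - b) * ρ := by
  refine ⟨∑ i ∈ Finset.range k, a ^ i * b ^ (k - 1 - i), ?_, ?_⟩
  · rw [Finset.odd_sum_iff_odd_card_odd]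
    have h1 : (Finset.range k).filter (fun i => Odd (a ^ i * b ^ (k - 1 - i))) = Finset.range k := by
      apply Finset.filter_true_of_mem
      intro i _
      exact (ha.pow).mul (hb.pow)
    rw [h1, Finset.card_range]
    exact hk
  · rw [mul_comm, geom_sum₂_mul_of_ge hab]

/-- the index of the subfield subgroup is odd when `q = q₀^k` with `q₀`, `k` odd -/
theorem sf_index_odd [Fintype F] (F₀ : Subfield F) (q₀ k n : ℕ) (hF₀ : Nat.card F₀ = q₀)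
    (hq : Fintype.card F = q₀ ^ k) (hk : Odd k) (hq₀ : Odd q₀) (hn : 1 ≤ n) :
    ¬ 2 ∣ ((subfieldSubgroup F₀ (1 : GL (Fin n) F)).comap (Matrix.SpecialLinearGroup.toGL :
        Matrix.SpecialLinearGroup (Fin n) F →* GL (Fin n) F)).index := by
  classical
  letI : Fintype ↥F₀ := Fintype.ofFinite _
  have hc0 : Fintype.card ↥F₀ = q₀ := by rw [← Nat.card_eq_fintype_card, hF₀]
  haveI : Nonempty (Fin n) := ⟨⟨0, by omega⟩⟩
  obtain ⟨H, hH⟩ : ∃ H, H = (subfieldSubgroup F₀ (1 : GL (Fin n) F)).comap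
      (Matrix.SpecialLinearGroup.toGL : Matrix.SpecialLinearGroup (Fin n) F →* GL (Fin n) F) :=
    ⟨_, rfl⟩
  rw [← hH]
  obtain ⟨φ, hφ⟩ : ∃ φ : Matrix.SpecialLinearGroup (Fin n) ↥F₀ →*
      Matrix.SpecialLinearGroup (Fin n) F, φ = Matrix.SpecialLinearGroup.map F₀.subtype :=
    ⟨_, rfl⟩
  have hφv : ∀ (g : Matrix.SpecialLinearGroup (Fin n) ↥F₀) (i j : Fin n),
      (φ g).val i j = ((g.val i j : ↥F₀) : F) := by
    intro g i j
    rw [hφ]
    rfl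
  have hinj : Function.Injective φ := by
    intro g h hgh
    apply Subtype.ext
    ext i j
    have h1 := congrArg (fun y : Matrix.SpecialLinearGroup (Fin n) F => y.val i j) hgh
    simp only [hφv] at h1
    exact h1
  have hrange : φ.range ≤ H := by
    rintro _ ⟨g, rfl⟩
    rw [hH, Subgroup.mem_comap, Cfsg.Agent.Helper97.SF.mem_subfieldSubgroup_one]
    refine ⟨1, one_ne_zero, ?_⟩
    rw [one_smul]
    intro i j
    simp only [SpecialLinearGroup.coe_GL_coe_matrix]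
    rw [hφv]
    exact SetLike.coe_mem _
  have hdvd : Nat.card (Matrix.SpecialLinearGroup (Fin n) ↥F₀) ∣ Nat.card H := by
    have h1 := Subgroup.card_dvd_of_le hrange
    rwa [← Nat.card_congr (MonoidHom.ofInjective hinj).toEquiv] at h1
  obtain ⟨c', hc'⟩ := hdvd
  have hidx := Subgroup.card_mul_index H
  have hA := Cfsg.Agent.Helper5.card_SL_mul (F := F) (Fin n)
  have hA₀ := Cfsg.Agent.Helper5.card_SL_mul (F := ↥F₀) (Fin n)
  rw [Matrix.card_GL_field] at hA hA₀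
  rw [hq] at hA
  rw [hc0] at hA₀
  have hq₀1 : 1 ≤ q₀ := hq₀.pos
  obtain ⟨S₁, hS₁, hS₁e⟩ := sf_geom k q₀ 1 hk hq₀1 hq₀ odd_one
  rw [one_pow] at hS₁e
  have hterm : ∀ i : Fin n, ∃ ρ, Odd ρ ∧
      (q₀ ^ k) ^ n - (q₀ ^ k) ^ (i : ℕ) = (q₀ ^ n - q₀ ^ (i : ℕ)) * ρ := by
    intro i
    obtain ⟨ρ, hρ, he⟩ := sf_geom k (q₀ ^ n) (q₀ ^ (i : ℕ)) hk
      (Nat.pow_le_pow_right hq₀1 (le_of_lt i.isLt)) hq₀.pow hq₀.pow
    refine ⟨ρ, hρ, ?_⟩
    rw [← he, ← pow_mul, ← pow_mul, ← pow_mul, ← pow_mul, mul_comm k n, mul_comm k (i : ℕ)]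
  choose ρ hρodd hρe using hterm
  have hprod : ∏ i : Fin n, ((q₀ ^ k) ^ n - (q₀ ^ k) ^ (i : ℕ)) =
      (∏ i : Fin n, (q₀ ^ n - q₀ ^ (i : ℕ))) * ∏ i : Fin n, ρ i := by
    rw [← Finset.prod_mul_distrib]
    exact Finset.prod_congr rfl (fun i _ => hρe i)
  have hRodd : Odd (∏ i : Fin n, ρ i) := by
    apply Finset.prod_induction _ Odd (fun _ _ => Odd.mul) odd_one
    intro i _
    exact hρodd i
  obtain ⟨R, hR⟩ : ∃ R, R = ∏ i : Fin n, ρ i := ⟨_, rfl⟩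
  rw [← hR] at hprod hRodd
  rw [hprod, ← hA₀, hS₁e] at hA
  have hA₀pos : 0 < Nat.card (Matrix.SpecialLinearGroup (Fin n) ↥F₀) := Nat.card_pos
  have hq₀2 : 0 < q₀ - 1 := by
    have h1 : 1 < Fintype.card ↥F₀ := Fintype.one_lt_card
    omega
  intro h2
  obtain ⟨d, hd⟩ := h2
  rw [← hidx, hc', hd] at hA
  have h5 : Nat.card (Matrix.SpecialLinearGroup (Fin n) ↥F₀) * (q₀ - 1) * (2 * (c' * d * S₁)) =
      Nat.card (Matrix.SpecialLinearGroup (Fin n) ↥F₀) * (q₀ - 1) * R := by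
    rw [← hA]
    ring
  have h6 := Nat.eq_of_mul_eq_mul_left (Nat.mul_pos hA₀pos hq₀2) h5
  rw [← h6] at hRodd
  rcases hRodd with ⟨r, hr⟩
  omega

end Cfsg.Agent.Helper37
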