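import Mathlib
import Cfsg.Agent.Helper3.FHDefs
set_option autoImplicit false
namespace Cfsg.Agent.Helper37
open Cfsg.Agent.Helper3.FH Real
variable {Ω : Type*} [Fintype Ω] [DecidableEq Ω]

theorem fh8_altProd_even {R : Type*} [Monoid R] (a b : R) (n : ℕ) :
    altProd a b (2 * n) = (a * b) ^ n := by
  induction n with
  | zero => simp
  | succ n ih =>
    have : 2 * (n + 1) = 2 * n + 2 := by ring
    rw [this, altProd_add_two, ih, pow_succ']

theorem fh8_altProd_odd {R : Type*} [Monoid R] (a b : R) (n : ℕ) :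
    altProd a b (2 * n + 1) = (a * b) ^ n * a := by
  induction n with
  | zero => simp
  | succ n ih =>
    have : 2 * (n + 1) + 1 = (2 * n + 1) + 2 := by ring
    rw [this, altProd_add_two, ih, pow_succ']
    simp only [mul_assoc]

theorem fh8_pow_swap {R : Type*} [Monoid R] (a b : R) (n : ℕ) :
    a * (b * a) ^ n = (a * b) ^ n * a := by
  induction n with
  | zero => simp
  | succ n ih =>
    rw [pow_succ', pow_succ']
    calc a * (b * a * (b * a) ^ n) = a * b * (a * (b * a) ^ n) := by simp only [mul_assoc]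
      _ = a * b * ((a * b) ^ n * a) := by rw [ih]
      _ = a * b * (a * b) ^ n * a := by simp only [mul_assoc]

theorem fh8_hz (C : HeckeCfg Ω) {E : Matrix Ω Ω ℝ} {ζ : ℝ} (h : C.IsEig E ζ) :
    C.b * C.a * E = ζ • E + ((C.t : ℝ) - 1) • (C.a * E) + ((C.s : ℝ) - 1) • (C.b * E)
      - C.a * C.b * E := by
  have h1 := h.eig
  unfold HeckeCfg.z at h1
  simp only [sub_mul, add_mul, smul_mul_assoc] at h1
  rw [← h1]
  abel

theorem fh8_ha (C : HeckeCfg Ω) (Y : Matrix Ω Ω ℝ) :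
    C.a * (C.a * Y) = (C.s : ℝ) • Y + ((C.s : ℝ) - 1) • (C.a * Y) := by
  rw [← mul_assoc, C.a_sq, add_mul, smul_mul_assoc, smul_mul_assoc, one_mul]

theorem fh8_hb (C : HeckeCfg Ω) (Y : Matrix Ω Ω ℝ) :
    C.b * (C.b * Y) = (C.t : ℝ) • Y + ((C.t : ℝ) - 1) • (C.b * Y) := by
  rw [← mul_assoc, C.b_sq, add_mul, smul_mul_assoc, smul_mul_assoc, one_mul]

theorem fh8_S1 (C : HeckeCfg Ω) {E : Matrix Ω Ω ℝ} {ζ : ℝ} (h : C.IsEig E ζ) :
    C.a * C.b * (C.a * C.b) * E
      = (2 * C.xOf ζ) • (C.a * C.b * E) - ((C.s : ℝ) * C.t) • E := by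
  have hz := fh8_hz C h
  have ha := fh8_ha C
  have hb := fh8_hb C
  have h1 : C.b * (C.a * (C.b * E)) = (C.b * C.a * E) * C.b := by
    rw [← h.comm_b]; simp only [mul_assoc]
  have h2 : C.a * C.b * (C.a * C.b) * E = C.a * (C.b * (C.a * (C.b * E))) := by
    simp only [mul_assoc]
  rw [h2, h1, hz]
  simp only [sub_mul, add_mul, smul_mul_assoc, mul_assoc, h.comm_b, mul_sub, mul_add,
    mul_smul_comm, hb, ha]
  unfold HeckeCfg.xOf
  module

theorem fh8_pow (C : HeckeCfg Ω) {E : Matrix Ω Ω ℝ} {ζ : ℝ} (h : C.IsEig E ζ) (j : ℕ) :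
    (C.a * C.b) ^ (j + 1) * E
      = alphaSeq (C.xOf ζ) ((C.s : ℝ) * C.t) (j + 1) • (C.a * C.b * E)
        - ((C.s : ℝ) * C.t * alphaSeq (C.xOf ζ) ((C.s : ℝ) * C.t) j) • E := by
  induction j with
  | zero => simp
  | succ j ih =>
    rw [pow_succ', mul_assoc, ih, mul_sub, mul_smul_comm, mul_smul_comm, ← mul_assoc,
      fh8_S1 C h, alphaSeq_add_two]
    module

theorem fh8_lin {V : Type*} [AddCommGroup V] [Module ℝ V] (s t ζ : ℝ) (e A B Y : V)
    (hR : ζ • e = (2 : ℝ) • Y - (t - 1) • A - (s - 1) • B)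
    (hRa : ζ • A = (s - 1) • Y - ((s - 1) * (t - 1)) • A + (2 * s) • B - ((t - 1) * s) • e)
    (hRb : ζ • B = (t - 1) • Y - ((s - 1) * (t - 1)) • B + (2 * t) • A - ((s - 1) * t) • e)
    (hRab : ζ • Y = ((s - 1) * t) • A + ((t - 1) * s) • B + (2 * s * t) • e)
    (h1 : ζ - s - t ≠ 0) (h2 : ζ + s * t + 1 ≠ 0) (hs : s + 1 ≠ 0) (ht : t + 1 ≠ 0) :
    e = 0 := by
  have T1 : Y + A + B + e = 0 := by
    have h3 : (ζ - s - t) • (Y + A + B + e)
        = ζ • Y + ζ • A + ζ • B + ζ • e - (s + t) • (Y + A + B + e) := by module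
    have h4 : (ζ - s - t) • (Y + A + B + e) = 0 := by
      rw [h3, hR, hRa, hRb, hRab]; module
    exact (smul_eq_zero.mp h4).resolve_left h1
  have T4 : Y + A - s • B - s • e = 0 := by
    have h3 : (ζ + s * t + 1) • (Y + A - s • B - s • e)
        = ζ • Y + ζ • A - s • (ζ • B) - s • (ζ • e)
          + (s * t + 1) • (Y + A - s • B - s • e) := by module
    have h4 : (ζ + s * t + 1) • (Y + A - s • B - s • e) = 0 := by
      rw [h3, hR, hRa, hRb, hRab]; module
    exact (smul_eq_zero.mp h4).resolve_left h2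
  have T3 : Y + B - t • A - t • e = 0 := by
    have h3 : (ζ + s * t + 1) • (Y + B - t • A - t • e)
        = ζ • Y + ζ • B - t • (ζ • A) - t • (ζ • e)
          + (s * t + 1) • (Y + B - t • A - t • e) := by module
    have h4 : (ζ + s * t + 1) • (Y + B - t • A - t • e) = 0 := by
      rw [h3, hR, hRa, hRb, hRab]; module
    exact (smul_eq_zero.mp h4).resolve_left h2
  have hB : B + e = 0 := by
    have h3 : (s + 1) • (B + e) = (Y + A + B + e) - (Y + A - s • B - s • e) := by module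
    rw [T1, T4, sub_zero] at h3
    exact (smul_eq_zero.mp h3).resolve_left hs
  have hA : A + e = 0 := by
    have h3 : (t + 1) • (A + e) = (Y + A + B + e) - (Y + B - t • A - t • e) := by module
    rw [T1, T3, sub_zero] at h3
    exact (smul_eq_zero.mp h3).resolve_left ht
  have hA' : A = -e := eq_neg_of_add_eq_zero_left hA
  have hB' : B = -e := eq_neg_of_add_eq_zero_left hB
  have hY : Y = e := by
    rw [hA', hB'] at T1
    have : Y - e = 0 := by rw [← T1]; module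
    exact sub_eq_zero.mp this
  rw [hA', hB', hY] at hR
  have h5 : (ζ - s - t) • e = 0 := by
    have : (ζ - s - t) • e = ζ • e - (s + t) • e := by module
    rw [this, hR]; module
  exact (smul_eq_zero.mp h5).resolve_left h1

theorem fh8_comm_false (C : HeckeCfg Ω) {E : Matrix Ω Ω ℝ} {ζ : ℝ} (h : C.IsEig E ζ)
    (hg : C.Generic ζ) (hc : C.a * (C.b * E) = C.b * (C.a * E)) : False := by
  have hz := fh8_hz C h
  have ha := fh8_ha C
  have hb := fh8_hb C
  have hR : ζ • E = (2 : ℝ) • (C.a * (C.b * E)) - ((C.t : ℝ) - 1) • (C.a * E)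
      - ((C.s : ℝ) - 1) • (C.b * E) := by
    rw [mul_assoc, mul_assoc, ← hc] at hz
    have : ζ • E = C.a * (C.b * E) + C.a * (C.b * E) - ((C.t : ℝ) - 1) • (C.a * E)
      - ((C.s : ℝ) - 1) • (C.b * E) := by
      nth_rewrite 1 [hz]; abel
    rw [this]; module
  have hRa : ζ • (C.a * E) = ((C.s : ℝ) - 1) • (C.a * (C.b * E))
      - (((C.s : ℝ) - 1) * ((C.t : ℝ) - 1)) • (C.a * E) + (2 * (C.s : ℝ)) • (C.b * E)
      - (((C.t : ℝ) - 1) * C.s) • E := by
    have h1 := congrArg (fun M => C.a * M) hR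
    simp only [mul_sub, mul_smul_comm, ha] at h1
    rw [h1]; module
  have hRb : ζ • (C.b * E) = ((C.t : ℝ) - 1) • (C.a * (C.b * E))
      - (((C.s : ℝ) - 1) * ((C.t : ℝ) - 1)) • (C.b * E) + (2 * (C.t : ℝ)) • (C.a * E)
      - (((C.s : ℝ) - 1) * C.t) • E := by
    have h1 := congrArg (fun M => C.b * M) hR
    simp only [mul_sub, mul_smul_comm, hb] at h1
    rw [hc, hb] at h1
    rw [h1, hc]; module
  have hRab : ζ • (C.a * (C.b * E)) = (((C.s : ℝ) - 1) * C.t) • (C.a * E)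
      + (((C.t : ℝ) - 1) * C.s) • (C.b * E) + (2 * (C.s : ℝ) * C.t) • E := by
    have h1 := congrArg (fun M => C.a * M) hRb
    simp only [mul_sub, mul_add, mul_smul_comm, ha] at h1
    rw [h1]; module
  have hs : (2 : ℝ) ≤ C.s := by exact_mod_cast C.hs
  have ht : (2 : ℝ) ≤ C.t := by exact_mod_cast C.ht
  obtain ⟨hg1, hg2⟩ := hg
  unfold HeckeCfg.xOf at hg1 hg2
  have hE : E = 0 := by
    refine fh8_lin (C.s : ℝ) (C.t : ℝ) ζ E (C.a * E) (C.b * E) (C.a * (C.b * E))
      hR hRa hRb hRab ?_ ?_ ?_ ?_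
    · intro h0; nlinarith
    · intro h0; nlinarith
    · intro h0; linarith
    · intro h0; linarith
  have := h.tr_pos
  rw [hE] at this
  simp at this

theorem fh_braid_even (C : HeckeCfg Ω) (n : ℕ) (hmn : C.m = 2 * n) {E : Matrix Ω Ω ℝ} {ζ : ℝ}
    (h : C.IsEig E ζ) (hg : C.Generic ζ) :
    alphaSeq (C.xOf ζ) ((C.s : ℝ) * C.t) n = 0 := by
  by_contra hα
  have hn : 1 ≤ n := by
    have := C.hm
    omega
  obtain ⟨k, rfl⟩ : ∃ k, n = k + 1 := ⟨n - 1, by omega⟩
  have hbr := C.braid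
  rw [hmn, fh8_altProd_even, fh8_altProd_even] at hbr
  have h1 : C.a * (C.a * C.b) ^ (k + 1) = (C.a * C.b) ^ (k + 1) * C.a := by
    rw [← fh8_pow_swap, ← hbr]
  have hp := fh8_pow C h k
  have h2 : C.a * ((C.a * C.b) ^ (k + 1) * E) = ((C.a * C.b) ^ (k + 1) * E) * C.a := by
    rw [← mul_assoc, h1, mul_assoc, mul_assoc, h.comm_a]
  rw [hp] at h2
  simp only [mul_sub, sub_mul, mul_smul_comm, smul_mul_assoc, mul_assoc, h.comm_a] at h2
  have h3 : alphaSeq (C.xOf ζ) ((C.s : ℝ) * C.t) (k + 1) •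
      (C.a * (C.a * (C.b * E)) - C.a * (C.b * (C.a * E))) = 0 := by
    rw [smul_sub, sub_eq_zero]
    have := h2
    exact sub_left_injective this
  have h4 : C.a * (C.a * (C.b * E)) = C.a * (C.b * (C.a * E)) :=
    sub_eq_zero.mp ((smul_eq_zero.mp h3).resolve_left hα)
  have h5 : C.a * (C.a * (C.a * (C.b * E))) = C.a * (C.a * (C.b * (C.a * E))) := by rw [h4]
  rw [fh8_ha C (C.a * (C.b * E)), fh8_ha C (C.b * (C.a * E)), h4] at h5
  have h6 : (C.s : ℝ) • (C.a * (C.b * E)) = (C.s : ℝ) • (C.b * (C.a * E)) := by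
    have := h5
    exact add_right_cancel this
  have hs : (C.s : ℝ) ≠ 0 := by
    have : (2 : ℝ) ≤ C.s := by exact_mod_cast C.hs
    intro h0; linarith
  have h7 : C.a * (C.b * E) = C.b * (C.a * E) := smul_right_injective _ hs h6
  exact fh8_comm_false C h hg h7

end Cfsg.Agent.Helper37
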