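import Mathlib
import Cfsg.Agent.Helper3.FHDefs
import Cfsg.Agent.Helper37.FH8
set_option autoImplicit false
namespace Cfsg.Agent.Helper37
open Cfsg.Agent.Helper3.FH Real
variable {Ω : Type*} [Fintype Ω] [DecidableEq Ω]

theorem fh_odd_s_eq_t (C : HeckeCfg Ω) [Nonempty Ω] (n : ℕ) (hmn : C.m = 2 * n + 1)
    (hrow : ∀ (C' : HeckeCfg Ω) (j : ℕ) (x : Ω),
      ∑ y, altProd C'.a C'.b j x y = altProd (C'.s : ℝ) (C'.t : ℝ) j) : C.s = C.t := by
  obtain ⟨x⟩ := ‹Nonempty Ω›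
  have h1 := hrow C C.m x
  have h2 := hrow C.swap C.m x
  simp only [HeckeCfg.swap_a, HeckeCfg.swap_b, HeckeCfg.swap_s, HeckeCfg.swap_t] at h2
  rw [C.braid, h2, hmn, fh8_altProd_odd, fh8_altProd_odd, mul_comm (C.s : ℝ) (C.t : ℝ)] at h1
  have hs : (2 : ℝ) ≤ C.s := by exact_mod_cast C.hs
  have ht : (2 : ℝ) ≤ C.t := by exact_mod_cast C.ht
  have h0 : ((C.t : ℝ) * C.s) ^ n ≠ 0 := by
    apply pow_ne_zero
    have : (0 : ℝ) < (C.t : ℝ) * C.s := by positivity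
    exact this.ne'
  have h3 : (C.t : ℝ) = C.s := mul_left_cancel₀ h0 h1
  exact_mod_cast h3.symm

theorem fh9_pow_eig {M E : Matrix Ω Ω ℝ} {c : ℝ} (hM : M * E = c • E) (j : ℕ) :
    M ^ j * E = c ^ j • E := by
  induction j with
  | zero => simp
  | succ j ih =>
    rw [pow_succ, mul_assoc, hM, mul_smul_comm, ih, smul_smul, pow_succ']

theorem fh9_aba (C : HeckeCfg Ω) {E : Matrix Ω Ω ℝ} {ζ : ℝ} (h : C.IsEig E ζ) :
    C.a * (C.b * (C.a * E)) = (2 * C.xOf ζ) • (C.a * E)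
      + ((C.s : ℝ) * ((C.t : ℝ) - 1)) • E - (C.s : ℝ) • (C.b * E) := by
  have hz := fh8_hz C h
  rw [mul_assoc, mul_assoc] at hz
  rw [hz]
  simp only [mul_sub, mul_add, mul_smul_comm, fh8_ha]
  unfold HeckeCfg.xOf
  module

theorem fh9_bab (C : HeckeCfg Ω) {E : Matrix Ω Ω ℝ} {ζ : ℝ} (h : C.IsEig E ζ) :
    C.b * (C.a * (C.b * E)) = (2 * C.xOf ζ) • (C.b * E)
      + ((C.t : ℝ) * ((C.s : ℝ) - 1)) • E - (C.t : ℝ) • (C.a * E) := by
  have h1 := fh9_aba C.swap h.swap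
  simpa only [HeckeCfg.swap_a, HeckeCfg.swap_b, HeckeCfg.swap_s, HeckeCfg.swap_t,
    HeckeCfg.swap_xOf] using h1

theorem fh9_braid (C : HeckeCfg Ω) (n : ℕ) (hmn : C.m = 2 * n + 1) :
    (C.a * C.b) ^ n * C.a = C.b * (C.a * C.b) ^ n := by
  have hbr := C.braid
  rw [hmn, fh8_altProd_odd, fh8_altProd_odd, ← fh8_pow_swap C.b C.a n] at hbr
  exact hbr

theorem fh9_eq_false (C : HeckeCfg Ω) (hst : C.s = C.t) {E : Matrix Ω Ω ℝ} {ζ : ℝ}
    (h : C.IsEig E ζ) (hg : C.Generic ζ) (hAB : C.a * E = C.b * E) : False := by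
  apply fh8_comm_false C h hg
  have hq : (C.t : ℝ) = (C.s : ℝ) := by rw [hst]
  calc C.a * (C.b * E) = C.a * (C.a * E) := by rw [hAB]
    _ = (C.s : ℝ) • E + ((C.s : ℝ) - 1) • (C.a * E) := fh8_ha C E
    _ = (C.t : ℝ) • E + ((C.t : ℝ) - 1) • (C.b * E) := by rw [hq, hAB]
    _ = C.b * (C.b * E) := (fh8_hb C E).symm
    _ = C.b * (C.a * E) := by rw [hAB]

theorem fh9_first (C : HeckeCfg Ω) (n : ℕ) (hmn : C.m = 2 * n + 1) (hst : C.s = C.t)
    {E : Matrix Ω Ω ℝ} {ζ : ℝ} (h : C.IsEig E ζ) :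
    2 * C.xOf ζ ≠ -((C.s : ℝ) + C.t) := by
  intro hx
  have hq : (C.t : ℝ) = (C.s : ℝ) := by rw [hst]
  have hs : (2 : ℝ) ≤ C.s := by exact_mod_cast C.hs
  have hz := fh8_hz C h
  rw [mul_assoc, mul_assoc, hq] at hz
  have hζ : ζ = -((C.s : ℝ) ^ 2 + 1) := by
    unfold HeckeCfg.xOf at hx
    rw [hq] at hx
    linarith
  -- u * (u * E) = 0 where u = a + b - (q - 1)
  have hu : (C.a + C.b - ((C.s : ℝ) - 1) • (1 : Matrix Ω Ω ℝ))
      * ((C.a + C.b - ((C.s : ℝ) - 1) • (1 : Matrix Ω Ω ℝ)) * E) = 0 := by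
    have hb := fh8_hb C E
    rw [hq] at hb
    simp only [sub_mul, add_mul, mul_sub, mul_add, smul_mul_assoc, mul_smul_comm, one_mul,
      fh8_ha, hb, hz]
    rw [hζ]
    module
  have huE : (C.a + C.b - ((C.s : ℝ) - 1) • (1 : Matrix Ω Ω ℝ)) * E = 0 := by
    rw [← Matrix.conjTranspose_mul_self_eq_zero, Matrix.conjTranspose_eq_transpose_of_trivial,
      Matrix.transpose_mul, h.symm, Matrix.transpose_sub, Matrix.transpose_add,
      Matrix.transpose_smul, Matrix.transpose_one, C.a_symm, C.b_symm, mul_assoc, hu, mul_zero]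
  have hB : C.b * E = ((C.s : ℝ) - 1) • E - C.a * E := by
    simp only [sub_mul, add_mul, smul_mul_assoc, one_mul] at huE
    rw [eq_sub_iff_add_eq, ← sub_eq_zero, ← huE]
    abel
  have hX : C.a * C.b * E = (-(C.s : ℝ)) • E := by
    rw [mul_assoc, hB, mul_sub, mul_smul_comm, fh8_ha]
    module
  have hXn := fh9_pow_eig hX n
  have hbr := fh9_braid C n hmn
  have h2 : ((C.a * C.b) ^ n * E) * C.a = C.b * ((C.a * C.b) ^ n * E) := by
    rw [mul_assoc, h.comm_a, ← mul_assoc, hbr, mul_assoc]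
  rw [hXn, smul_mul_assoc, mul_smul_comm, h.comm_a] at h2
  have h0 : (-(C.s : ℝ)) ^ n ≠ 0 := by
    apply pow_ne_zero
    intro h0; linarith
  have hAB : C.a * E = C.b * E := smul_right_injective _ h0 h2
  rw [← hAB] at hB
  have h3 : (2 : ℝ) • (C.a * E) = ((C.s : ℝ) - 1) • E := by
    have : (2 : ℝ) • (C.a * E) = C.a * E + C.a * E := by module
    rw [this]
    nth_rewrite 1 [hB]
    abel
  have h4 := congrArg (fun M => C.a * M) h3
  simp only [mul_smul_comm, fh8_ha] at h4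
  have h5 : ((C.s : ℝ) + 1) ^ 2 • E = 0 := by
    have e1 : ((C.s : ℝ) + 1) ^ 2 • E = (4 * (C.s : ℝ)) • E
        + ((C.s : ℝ) - 1) • ((2 : ℝ) • (C.a * E)) := by
      rw [h3]; module
    have e2 : (4 * (C.s : ℝ)) • E + ((C.s : ℝ) - 1) • ((2 : ℝ) • (C.a * E))
        = (2 : ℝ) • ((2 : ℝ) • ((C.s : ℝ) • E + ((C.s : ℝ) - 1) • (C.a * E))
          - ((C.s : ℝ) - 1) • (C.a * E)) := by
      module
    rw [e1, e2, h4]
    module
  have h6 : ((C.s : ℝ) + 1) ^ 2 ≠ 0 := by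
    apply pow_ne_zero
    intro h0; linarith
  have hE : E = 0 := (smul_eq_zero.mp h5).resolve_left h6
  have := h.tr_pos
  rw [hE] at this
  simp at this

theorem fh_braid_odd (C : HeckeCfg Ω) (n : ℕ) (hmn : C.m = 2 * n + 1) (hst : C.s = C.t)
    {E : Matrix Ω Ω ℝ} {ζ : ℝ} (h : C.IsEig E ζ) :
    2 * C.xOf ζ ≠ -((C.s : ℝ) + C.t) ∧
    (C.Generic ζ → alphaSeq (C.xOf ζ) ((C.s : ℝ) * C.t) (n + 1)
        + (C.s : ℝ) * alphaSeq (C.xOf ζ) ((C.s : ℝ) * C.t) n = 0) := by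
  refine ⟨fh9_first C n hmn hst h, ?_⟩
  intro hg
  by_contra hα
  have hq : (C.t : ℝ) = (C.s : ℝ) := by rw [hst]
  have hn : 1 ≤ n := by
    have := C.hm
    omega
  obtain ⟨k, rfl⟩ : ∃ k, n = k + 1 := ⟨n - 1, by omega⟩
  have hbr := fh9_braid C (k + 1) hmn
  have hp := fh8_pow C h k
  have h2 : ((C.a * C.b) ^ (k + 1) * E) * C.a = C.b * ((C.a * C.b) ^ (k + 1) * E) := by
    rw [mul_assoc, h.comm_a, ← mul_assoc, hbr, mul_assoc]
  rw [hp] at h2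
  simp only [mul_sub, sub_mul, mul_smul_comm, smul_mul_assoc, mul_assoc, h.comm_a] at h2
  rw [fh9_aba C h, fh9_bab C h, hq] at h2
  rw [alphaSeq_add_two, hq] at hα
  have h3 : (2 * C.xOf ζ * alphaSeq (C.xOf ζ) ((C.s : ℝ) * C.s) (k + 1)
      - (C.s : ℝ) * C.s * alphaSeq (C.xOf ζ) ((C.s : ℝ) * C.s) k
      + (C.s : ℝ) * alphaSeq (C.xOf ζ) ((C.s : ℝ) * C.s) (k + 1)) • (C.a * E - C.b * E) = 0 := by
    rw [← sub_eq_zero] at h2
    rw [← h2]
    module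
  have hAB : C.a * E = C.b * E :=
    sub_eq_zero.mp ((smul_eq_zero.mp h3).resolve_left hα)
  exact fh9_eq_false C hst h hg hAB

end Cfsg.Agent.Helper37
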