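import Mathlib
import Cfsg.Prelude.Def_GeometricClasses
import Cfsg.Prelude.Def_Classical
import Cfsg.Agent.Helper58.TSDefs
import Cfsg.Agent.Helper43.PrimeOrdO3
import Cfsg.Agent.Helper33.OType
import Cfsg.Agent.Helper5.TBBLK
import Cfsg.Agent.Helper93.TBCYCB

set_option autoImplicit false

/-!
# Sub-CALL TB (helper43) of CALL TS, piece BLKO (helper37; double)
-/

namespace Cfsg.Agent.Helper37.TB

open Module Polynomial Cfsg Cfsg.Geo Cfsg.Agent.Helper58.TS
open Cfsg.Agent.Helper43 Cfsg.Agent.Helper43.OrthEven Cfsg.Agent.Helper43.CycFactors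
  Cfsg.Agent.Helper43.PrimeOrdMat
open scoped MatrixGroups

universe u

section lvl2

variable {F : Type u} [Field F] [Fintype F]

/-- BLKO [M] (uses BLK, CYCB): the block for `i` odd: `a` dual pairs.  (`cycJ F r` is nonempty
(`CycFactors.cycJ_card_mul`); `P₀ ∈ cycJ`, `c := fun P => if P = P₀ ∨ P = SpReal.star P₀ then a else 0`;
`StarPoly.star_mem_cycJ`, `StarPoly.star_star`, `StarPoly.star_ne_self_of_odd`; `∑ c P = 2 a`.) -/
theorem tb_blk_odd (p : ℕ) [Fact p.Prime] [CharP F p] (r : ℕ) [Fact r.Prime] (hr2 : 2 < r)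
    (hrp : r ≠ p) (hodd : Odd (orderOf ((Fintype.card F : ℕ) : ZMod r))) (a : ℕ) :
    ∃ (V : Type u) (_ : AddCommGroup V) (_ : Module F V) (_ : FiniteDimensional F V)
      (Q : QuadraticForm F V) (T : Module.End F V),
      PolarNondeg Q ∧ (∀ v, Q (T v) = Q v) ∧ aeval T (cyclotomic r F) = 0 ∧
      finrank F V = 2 * (orderOf ((Fintype.card F : ℕ) : ZMod r) * a) ∧
      HasTS Q (orderOf ((Fintype.card F : ℕ) : ZMod r) * a) ∧
      ∀ U : Submodule F V, U.map T ≤ U → (∀ u ∈ U, Q u = 0) →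
        ∃ s, finrank F U = orderOf ((Fintype.card F : ℕ) : ZMod r) * s ∧ s ≤ a := by
  classical
  have hr : r.Prime := Fact.out
  have hrF : (r : F) ≠ 0 := natCast_ne_zero_of_ne (p := p) hr hrp
  have hcard := cycJ_card_mul (p := p) (F := F) (q := Fintype.card F) rfl hr hrp
  have hne : (cycJ F r).Nonempty := by
    rw [← Finset.card_pos]
    by_contra h
    have h0 : (cycJ F r).card = 0 := by omega
    rw [h0, zero_mul] at hcard
    omega
  obtain ⟨P₀, hP₀⟩ := hne
  have hm0 := (mem_cycJ.mp hP₀).1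
  have hc0 := Cfsg.Agent.Helper43.StarPoly.coeff_zero_ne_of_mem hr hP₀
  obtain ⟨cf, hcf⟩ : ∃ cf : F[X] → ℕ, cf = fun P => (if P = P₀ then a else 0) +
      (if P = Cfsg.Agent.Helper43.SpReal.star P₀ then a else 0) := ⟨_, rfl⟩
  have hs : Cfsg.Agent.Helper43.SpReal.star P₀ ∈ cycJ F r :=
    Cfsg.Agent.Helper43.StarPoly.star_mem_cycJ hr hrF hP₀
  have hsum : ∑ P ∈ cycJ F r, cf P = 2 * a := by
    rw [hcf, Finset.sum_add_distrib, Finset.sum_ite_eq', Finset.sum_ite_eq', if_pos hP₀,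
      if_pos hs]
    omega
  have hsym : ∀ P ∈ cycJ F r, cf (Cfsg.Agent.Helper43.SpReal.star P) = cf P := by
    intro P hP
    have hmP := (mem_cycJ.mp hP).1
    have hcP := Cfsg.Agent.Helper43.StarPoly.coeff_zero_ne_of_mem hr hP
    have e1 : Cfsg.Agent.Helper43.SpReal.star P = P₀ ↔
        P = Cfsg.Agent.Helper43.SpReal.star P₀ := by
      constructor
      · intro h
        rw [← h, Cfsg.Agent.Helper43.StarPoly.star_star hmP hcP]
      · intro h
        rw [h, Cfsg.Agent.Helper43.StarPoly.star_star hm0 hc0]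
    have e2 : Cfsg.Agent.Helper43.SpReal.star P = Cfsg.Agent.Helper43.SpReal.star P₀ ↔
        P = P₀ := by
      constructor
      · intro h
        rw [← Cfsg.Agent.Helper43.StarPoly.star_star hmP hcP, h,
          Cfsg.Agent.Helper43.StarPoly.star_star hm0 hc0]
      · intro h
        rw [h]
    rw [hcf]
    simp only [e1, e2]
    rw [add_comm]
  obtain ⟨V, iA, iM, iFD, Q, T, l, hnd, hT, hcyc, hch, hfin, hfin2, hts⟩ :=
    Cfsg.Agent.Helper5.TB.tb_blk p r hr2 hrp cf hsym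
  rw [hsum] at hfin
  obtain ⟨i, hi⟩ : ∃ i, i = orderOf ((Fintype.card F : ℕ) : ZMod r) := ⟨_, rfl⟩
  rw [← hi] at hfin hts hodd ⊢
  have hi0 : 0 < i := by
    obtain ⟨k, hk⟩ := hodd
    omega
  have hmul : i * (2 * a) = 2 * (i * a) := by ring
  have hl : l = i * a := by omega
  refine ⟨V, iA, iM, iFD, Q, T, hnd, hT, hcyc, ?_, ?_, ?_⟩
  · rw [hfin, hmul]
  · rw [← hl]
    exact hts hodd
  · intro U hUT hU
    obtain ⟨s, hs1, hs2⟩ := Cfsg.Agent.Helper93.TB.tb_cyc_bound r hrF Q T hnd hT hcyc U hUT hU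
    rw [← hi] at hs1
    refine ⟨s, hs1, ?_⟩
    rw [hs1, hfin] at hs2
    by_contra hcon
    have h1 : i * (a + 1) ≤ i * s := Nat.mul_le_mul_left i (by omega)
    nlinarith

end lvl2

end Cfsg.Agent.Helper37.TB
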