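import Mathlib
import Cfsg.Agent.Helper30.UGDefs

set_option autoImplicit false

namespace Cfsg.Agent.Helper37.UGDS

open Matrix Cfsg.Agent.Helper44.PSLn Cfsg.Agent.Helper44.PSUn Cfsg.Agent.Helper43.GraphAut
open Cfsg.Agent.Helper30.UG

universe u v

variable {F : Type u} [Field F] [Fintype F] {q n : ℕ}

/-- `τ` has order two (local copy of piece A1). -/
theorem ug_tau_order_aux' (hF : Fintype.card F = q ^ 2) : orderOf (ulang_tau hF) = 2 := by
  refine orderOf_eq_prime ?_ (ulang_tau_ne_one hF)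
  apply RingEquiv.ext
  intro a
  rw [pow_two, RingAut.mul_apply, ulang_tau_tau]
  rfl

section Dict

variable {F₀ : Type v} [Field F₀] (hF : Fintype.card F = q ^ 2) (ι : F₀ →+* F)
  (hι : ∀ x, ulang_tau hF x = x ↔ x ∈ Set.range ι)

include hι

/-- DS -/
theorem ug_descent_sym (g : ↥(Cfsg.GU n F q))
    (hs : ((g : GL (Fin n) F) : Mn n F)ᵀ = ((g : GL (Fin n) F) : Mn n F)) :
    ∃ (k : GL (Fin n) F) (B : GL (Fin n) F₀), UDat hF ι g k B ∧
      (B : Mn n F₀)ᵀ = (B : Mn n F₀) := by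
  have hgg : ((g : GL (Fin n) F) : Mn n F) * ((g : GL (Fin n) F) : Mn n F).map (ulang_tau hF) = 1 := by
    have h := ug_GU hF g
    rwa [hs] at h
  -- Hilbert 90
  have htw : twR (RingHom.mapMatrix ((ulang_tau hF : RingAut F) : F →+* F))
      ((g : GL (Fin n) F) : Mn n F) 2 = 1 := by
    rw [twR_succ, twR_succ, twR_zero]
    have h1 : (RingHom.mapMatrix ((ulang_tau hF : RingAut F) : F →+* F)) (1 : Mn n F) = 1 := map_one _
    rw [h1, mul_one]
    exact hgg
  obtain ⟨b, hbu, hb⟩ := lang_h90_matrix (ulang_tau hF) 2 (ug_tau_order_aux' hF) two_pos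
    ((g : GL (Fin n) F) : Mn n F) htw
  -- the Gram matrix `S = bᵀ τ(b)`
  have hbT : bᵀ = (b.map (ulang_tau hF))ᵀ * ((g : GL (Fin n) F) : Mn n F) := by
    conv_lhs => rw [← hb]
    rw [Matrix.transpose_mul, hs]
  have hS1 : bᵀ * b.map (ulang_tau hF) = (b.map (ulang_tau hF))ᵀ * b := by
    rw [hbT, Matrix.mul_assoc, hb]
  have hSfix : (bᵀ * b.map (ulang_tau hF)).map (ulang_tau hF) = bᵀ * b.map (ulang_tau hF) := by
    rw [ug_map_mul, ug_map_transpose, ug_map_map, hS1]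
  have hSsym : (bᵀ * b.map (ulang_tau hF))ᵀ = bᵀ * b.map (ulang_tau hF) := by
    rw [Matrix.transpose_mul, Matrix.transpose_transpose, hS1]
  obtain ⟨B0, hB0⟩ := ug_iota_pullback hF ι hι _ hSfix
  have hB0sym : B0ᵀ = B0 := by
    apply ug_iota_inj ι
    rw [ug_iota_transpose, hB0, hSsym]
  have hbdet : b.det ≠ 0 := by
    have := (Matrix.isUnit_iff_isUnit_det b).mp hbu
    exact this.ne_zero
  have hB0det : B0.det ≠ 0 := by
    intro h0
    have h1 : (B0.map ι).det = 0 := by rw [ug_iota_det, h0, map_zero]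
    rw [hB0, Matrix.det_mul, Matrix.det_transpose, ug_map_det] at h1
    rcases mul_eq_zero.mp h1 with h2 | h2
    · exact hbdet h2
    · exact hbdet ((map_eq_zero (ulang_tau hF)).mp h2)
  have hB0u : IsUnit B0 := (Matrix.isUnit_iff_isUnit_det B0).mpr (IsUnit.mk0 _ hB0det)
  refine ⟨hbu.unit, hB0u.unit, ⟨1, 1, one_ne_zero, one_ne_zero, ?_, ?_⟩, ?_⟩
  · show (1 • ((g : GL (Fin n) F) : Mn n F)) * b.map (ulang_tau hF) = b
    rw [one_smul, hb]
  · show bᵀ * b.map (ulang_tau hF) = 1 • B0.map ι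
    rw [one_smul, hB0]
  · exact hB0sym

end Dict

end Cfsg.Agent.Helper37.UGDS
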