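import Mathlib
import Cfsg.Agent.Helper30.UGDefs
import Cfsg.Agent.Helper43.HermOrtho

set_option autoImplicit false

namespace Cfsg.Agent.Helper37.UGES

open Matrix Cfsg.Agent.Helper44.PSLn Cfsg.Agent.Helper44.PSUn Cfsg.Agent.Helper43.GraphAut
open Cfsg.Agent.Helper30.UG

universe u v

variable {F : Type u} [Field F] [Fintype F] {q n : ℕ}

section Dict

variable {F₀ : Type v} [Field F₀] (hF : Fintype.card F = q ^ 2) (ι : F₀ →+* F)
  (hι : ∀ x, ulang_tau hF x = x ↔ x ∈ Set.range ι)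

include hι

/-- ES -/
theorem ug_exists_sym (B : GL (Fin n) F₀) (hB : (B : Mn n F₀)ᵀ = (B : Mn n F₀)) :
    ∃ (g : ↥(Cfsg.GU n F q)) (k : GL (Fin n) F), UDat hF ι g k B ∧
      ((g : GL (Fin n) F) : Mn n F)ᵀ = ((g : GL (Fin n) F) : Mn n F) := by
  -- `Y = ι(B)` is symmetric, `τ`-fixed and invertible
  obtain ⟨Y, hYdef⟩ : ∃ Y : Mn n F, Y = (B : Mn n F₀).map ι := ⟨_, rfl⟩
  have hYsym : Yᵀ = Y := by
    rw [hYdef, ← ug_iota_transpose, hB]
  have hYfix : Y.map (ulang_tau hF) = Y := by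
    rw [hYdef]
    exact ug_iota_fixed hF ι hι _
  have hYdet : Y.det ≠ 0 := by
    rw [hYdef, ug_iota_det]
    intro h0
    have hBu : IsUnit (B : Mn n F₀).det := (Matrix.isUnit_iff_isUnit_det _).mp B.isUnit
    exact hBu.ne_zero ((map_eq_zero ι).mp h0)
  have hYu : IsUnit Y := (Matrix.isUnit_iff_isUnit_det Y).mpr (IsUnit.mk0 _ hYdet)
  have hYherm : Cfsg.Agent.Helper43.HermAdj.hadj q Y = Y := by
    rw [Cfsg.Agent.Helper43.HermAdj.hadj_eq_map (φ := ((ulang_tau hF : RingAut F) : F →+* F))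
      (fun a => ulang_tau_apply hF a) Y]
    show (Y.map (ulang_tau hF))ᵀ = Y
    rw [hYfix, hYsym]
  obtain ⟨P, hP⟩ := Cfsg.Agent.Helper43.HermOrtho.exists_hadj_mul hF Y hYherm hYu
  rw [Cfsg.Agent.Helper43.HermAdj.hadj_eq_map (φ := ((ulang_tau hF : RingAut F) : F →+* F))
      (fun a => ulang_tau_apply hF a) P] at hP
  -- `T = τ(P)`
  obtain ⟨T, hTdef⟩ : ∃ T : Mn n F, T = P.map (ulang_tau hF) := ⟨_, rfl⟩
  have hTmap : T.map (ulang_tau hF) = P := by rw [hTdef, ug_map_map]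
  have h1 : Tᵀ * Y * P = 1 := by
    rw [hTdef]
    exact hP
  have h2 : P * (Tᵀ * Y) = 1 := mul_eq_one_comm.mp h1
  have h3 : Pᵀ * Y * T = 1 := by
    have := congrArg Matrix.transpose h1
    rw [Matrix.transpose_mul, Matrix.transpose_mul, Matrix.transpose_transpose, hYsym,
      Matrix.transpose_one, ← Matrix.mul_assoc] at this
    exact this
  have h4 : T * (Pᵀ * Y) = 1 := mul_eq_one_comm.mp h3
  -- images under `τ`
  have hmapk : (Pᵀ * Y).map (ulang_tau hF) = Tᵀ * Y := by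
    rw [ug_map_mul, ug_map_transpose, hYfix, hTdef]
  -- the matrices `g = Pᵀ Y P` and `k = Pᵀ Y`
  have hgval : Pᵀ * Y * P * (Tᵀ * Y * T) = 1 := by
    calc Pᵀ * Y * P * (Tᵀ * Y * T) = Pᵀ * Y * (P * (Tᵀ * Y)) * T := by
          simp only [Matrix.mul_assoc]
      _ = 1 := by rw [h2, Matrix.mul_one, h3]
  have hginv : Tᵀ * Y * T * (Pᵀ * Y * P) = 1 := mul_eq_one_comm.mp hgval
  have hgGU : (⟨Pᵀ * Y * P, Tᵀ * Y * T, hgval, hginv⟩ : GL (Fin n) F) ∈ Cfsg.GU n F q := by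
    rw [ug_mem_GU hF]
    show (Pᵀ * Y * P)ᵀ * (Pᵀ * Y * P).map (ulang_tau hF) = 1
    have hsym : (Pᵀ * Y * P)ᵀ = Pᵀ * Y * P := by
      rw [Matrix.transpose_mul, Matrix.transpose_mul, Matrix.transpose_transpose, hYsym,
        ← Matrix.mul_assoc]
    have hmap : (Pᵀ * Y * P).map (ulang_tau hF) = Tᵀ * Y * T := by
      rw [ug_map_mul, hmapk, hTdef]
    rw [hsym, hmap]
    exact hgval
  refine ⟨⟨⟨Pᵀ * Y * P, Tᵀ * Y * T, hgval, hginv⟩, hgGU⟩,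
    ⟨Pᵀ * Y, T, mul_eq_one_comm.mp h4, h4⟩, ⟨1, 1, one_ne_zero, one_ne_zero, ?_, ?_⟩, ?_⟩
  · show (1 • (Pᵀ * Y * P)) * (Pᵀ * Y).map (ulang_tau hF) = Pᵀ * Y
    rw [one_smul, hmapk, Matrix.mul_assoc, h2, Matrix.mul_one]
  · show (Pᵀ * Y)ᵀ * (Pᵀ * Y).map (ulang_tau hF) = 1 • (B : Mn n F₀).map ι
    rw [one_smul, hmapk, Matrix.transpose_mul, Matrix.transpose_transpose, hYsym,
      Matrix.mul_assoc, h2, Matrix.mul_one, hYdef]
  · show (Pᵀ * Y * P)ᵀ = Pᵀ * Y * P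
    rw [Matrix.transpose_mul, Matrix.transpose_mul, Matrix.transpose_transpose, hYsym,
      ← Matrix.mul_assoc]

end Dict

end Cfsg.Agent.Helper37.UGES
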