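import Mathlib
import Cfsg.Agent.Helper30.UGDefs

set_option autoImplicit false

namespace Cfsg.Agent.Helper37.UGIOTA

open Matrix Cfsg.Agent.Helper44.PSLn Cfsg.Agent.Helper44.PSUn Cfsg.Agent.Helper43.GraphAut
open Cfsg.Agent.Helper30.UG

universe u v

variable {F : Type u} [Field F] [Fintype F] {q n : ℕ}

/-- `τ` has order two (local copy of piece A1). -/
theorem ug_tau_order_aux (hF : Fintype.card F = q ^ 2) : orderOf (ulang_tau hF) = 2 := by
  refine orderOf_eq_prime ?_ (ulang_tau_ne_one hF)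
  apply RingEquiv.ext
  intro a
  rw [pow_two, RingAut.mul_apply, ulang_tau_tau]
  rfl

/-- IOTA -/
theorem ug_iota (hF : Fintype.card F = q ^ 2) {F₀ : Type v} [Field F₀] [Fintype F₀]
    (hF₀ : Fintype.card F₀ = q) :
    ∃ ι : F₀ →+* F, ∀ x, ulang_tau hF x = x ↔ x ∈ Set.range ι := by
  obtain ⟨p, hchar⟩ := CharP.exists F
  haveI := hchar
  haveI hp : Fact p.Prime := ⟨CharP.char_is_prime F p⟩
  obtain ⟨j, -, hj⟩ := FiniteField.card F p
  have hq2 : q ^ 2 = p ^ (j : ℕ) := by rw [← hF, hj]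
  have hqd : q ∣ p ^ (j : ℕ) := by
    rw [← hq2]
    exact dvd_pow_self q (by norm_num)
  obtain ⟨i, -, hi⟩ := (Nat.dvd_prime_pow hp.out).mp hqd
  have hj2 : (j : ℕ) = 2 * i := by
    have h1 : p ^ (2 * i) = p ^ (j : ℕ) := by
      rw [← hq2, hi, ← pow_mul, mul_comm]
    exact (Nat.pow_right_injective hp.out.two_le h1).symm
  have hF' : Fintype.card F = p ^ (2 * i) := by rw [hj, hj2]
  have hF₀' : Fintype.card F₀ = p ^ (2 * i / 2) := by
    rw [Nat.mul_div_cancel_left i (by norm_num), hF₀, hi]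
  exact lang_exists_embedding p (2 * i) hF' (ulang_tau hF) 2 (ug_tau_order_aux hF) two_pos F₀ hF₀'

end Cfsg.Agent.Helper37.UGIOTA
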