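import Mathlib
import Cfsg.Agent.Lead.LWDefs

set_option autoImplicit false

namespace Cfsg.Agent.Helper37.LWC2

open Cfsg.Agent.Lead.LW

variable {α : Type*} [Fintype α] [DecidableEq α]

-- PIECE C2  (pure group theory: a non-Sylow 2-subgroup grows in its normaliser)
theorem exists_normalizing {M : Type*} [Group M] [Finite M] (L Q : Subgroup M) (hQ : Q ≤ L)
    (hQ2 : IsPGroup 2 Q) (hns : Nat.card Q ≠ 2 ^ (Nat.card L).factorization 2) :
    ∃ x ∈ L, x ∉ Q ∧ x * x ∈ Q ∧ (∀ h, h ∈ Q ↔ x * h * x⁻¹ ∈ Q) ∧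
      IsPGroup 2 ↥(Q ⊔ Subgroup.zpowers x) := by
  haveI : Fact (Nat.Prime 2) := ⟨Nat.prime_two⟩
  obtain ⟨n, hn⟩ := IsPGroup.iff_card.mp hQ2
  have hL0 : Nat.card L ≠ 0 := Nat.card_pos.ne'
  have hnle : n ≤ (Nat.card L).factorization 2 := by
    have h1 : 2 ^ n ∣ Nat.card L := by
      rw [← hn]
      exact Subgroup.card_dvd_of_le hQ
    exact (Nat.Prime.pow_dvd_iff_le_factorization Nat.prime_two hL0).mp h1
  have hnlt : n + 1 ≤ (Nat.card L).factorization 2 := by
    rcases Nat.lt_or_ge n ((Nat.card L).factorization 2) with h | h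
    · exact h
    · exact absurd (by rw [hn, le_antisymm hnle h]) hns
  have hdvd : 2 ^ (n + 1) ∣ Nat.card L :=
    (Nat.Prime.pow_dvd_iff_le_factorization Nat.prime_two hL0).mpr hnlt
  have hcS : Nat.card (Q.subgroupOf L) = 2 ^ n := by
    rw [Nat.card_congr (Subgroup.subgroupOfEquivOfLe hQ).toEquiv, hn]
  obtain ⟨K, hKcard, hQK⟩ := Sylow.exists_subgroup_card_pow_succ hdvd hcS
  -- back in `M`
  have hK0card : Nat.card (K.map L.subtype) = 2 ^ (n + 1) := by
    rw [Subgroup.card_map_of_injective L.subtype_injective, hKcard]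
  have hK0L : K.map L.subtype ≤ L := by
    rintro _ ⟨y, -, rfl⟩
    exact y.2
  have hQK0 : Q ≤ K.map L.subtype := by
    intro y hy
    exact ⟨⟨y, hQ hy⟩, hQK (Subgroup.mem_subgroupOf.mpr hy), rfl⟩
  have hidx : (Q.subgroupOf (K.map L.subtype)).index = 2 := by
    have h1 := (Q.subgroupOf (K.map L.subtype)).card_mul_index
    rw [Nat.card_congr (Subgroup.subgroupOfEquivOfLe hQK0).toEquiv, hn, hK0card, pow_succ] at h1
    exact Nat.eq_of_mul_eq_mul_left (by positivity) h1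
  haveI hnormal : (Q.subgroupOf (K.map L.subtype)).Normal := Subgroup.normal_of_index_eq_two hidx
  have hconj : ∀ y ∈ K.map L.subtype, ∀ h ∈ Q, y * h * y⁻¹ ∈ Q := by
    intro y hy h hh
    have := hnormal.conj_mem ⟨h, hQK0 hh⟩ (Subgroup.mem_subgroupOf.mpr hh) ⟨y, hy⟩
    exact Subgroup.mem_subgroupOf.mp this
  obtain ⟨x, hxK, hxQ⟩ : ∃ x ∈ K.map L.subtype, x ∉ Q := by
    by_contra hcon
    have hle : K.map L.subtype ≤ Q := by
      intro y hy
      by_contra hyQ
      exact hcon ⟨y, hy, hyQ⟩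
    have := Subgroup.card_le_of_le hle
    rw [hK0card, hn, pow_succ] at this
    have hpos : 0 < 2 ^ n := by positivity
    omega
  refine ⟨x, hK0L hxK, hxQ, ?_, ?_, ?_⟩
  · have := Subgroup.mul_self_mem_of_index_two hidx ⟨x, hxK⟩
    exact Subgroup.mem_subgroupOf.mp this
  · intro h
    constructor
    · exact hconj x hxK h
    · intro hh
      have h1 := hconj x⁻¹ ((K.map L.subtype).inv_mem hxK) _ hh
      have h2 : x⁻¹ * (x * h * x⁻¹) * x⁻¹⁻¹ = h := by group
      rwa [h2] at h1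
  · have hle : Q ⊔ Subgroup.zpowers x ≤ K.map L.subtype :=
      sup_le hQK0 ((Subgroup.zpowers_le).mpr hxK)
    have hK2 : IsPGroup 2 ↥(K.map L.subtype) := IsPGroup.of_card hK0card
    exact hK2.to_le hle

end Cfsg.Agent.Helper37.LWC2
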