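import Mathlib
import Cfsg.Agent.Lead.LWDefs

set_option autoImplicit false

namespace Cfsg.Agent.Helper37.LWC4m

open Cfsg.Agent.Lead.LW

variable {α : Type*} [Fintype α] [DecidableEq α]

/-- Two involutions: either they are conjugate by an involution of the group they generate, or
that group has a central involution (self-contained copy of the statement of piece C4). -/
theorem dihedral_aux {M : Type*} [Group M] [Finite M] (u v : M) (hu : u * u = 1) (hv : v * v = 1) :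
    (∃ s ∈ Subgroup.closure {u, v}, s * s = 1 ∧ s * u * s⁻¹ = v) ∨
    (∃ z ∈ Subgroup.closure {u, v}, z ≠ 1 ∧ z * z = 1 ∧ z * u = u * z ∧ z * v = v * z) := by
  have huc : u ∈ Subgroup.closure ({u, v} : Set M) := Subgroup.subset_closure (by simp)
  have hvc : v ∈ Subgroup.closure ({u, v} : Set M) := Subgroup.subset_closure (by simp)
  have hrc : u * v ∈ Subgroup.closure ({u, v} : Set M) := Subgroup.mul_mem _ huc hvc
  have huinv : u⁻¹ = u := inv_eq_of_mul_eq_one_right hu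
  have hvinv : v⁻¹ = v := inv_eq_of_mul_eq_one_right hv
  have hrinv : (u * v)⁻¹ = v * u := by rw [mul_inv_rev, huinv, hvinv]
  have hur : u * (u * v) * u⁻¹ = (u * v)⁻¹ := by
    rw [hrinv, huinv, ← mul_assoc, hu, one_mul]
  have hvr : v * (u * v) * v⁻¹ = (u * v)⁻¹ := by
    rw [hrinv, hvinv, mul_assoc, mul_assoc, hv, mul_one]
  have hupow : ∀ j : ℕ, u * (u * v) ^ j * u⁻¹ = ((u * v) ^ j)⁻¹ := by
    intro j
    rw [← conj_pow, hur, inv_pow]
  have hvpow : ∀ j : ℕ, v * (u * v) ^ j * v⁻¹ = ((u * v) ^ j)⁻¹ := by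
    intro j
    rw [← conj_pow, hvr, inv_pow]
  have hd : 0 < orderOf (u * v) := orderOf_pos _
  rcases Nat.even_or_odd (orderOf (u * v)) with ⟨m, hm⟩ | ⟨m, hm⟩
  · -- even order: the central involution
    right
    have hm0 : 0 < m := by omega
    refine ⟨(u * v) ^ m, Subgroup.pow_mem _ hrc m, ?_, ?_, ?_, ?_⟩
    · exact pow_ne_one_of_lt_orderOf hm0.ne' (by omega)
    · rw [← pow_add, ← hm, pow_orderOf_eq_one]
    · have hz2 : (u * v) ^ m * (u * v) ^ m = 1 := by rw [← pow_add, ← hm, pow_orderOf_eq_one]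
      have hzinv : ((u * v) ^ m)⁻¹ = (u * v) ^ m := inv_eq_of_mul_eq_one_right hz2
      have h1 := hupow m
      rw [hzinv] at h1
      calc (u * v) ^ m * u = (u * (u * v) ^ m * u⁻¹) * u := by rw [h1]
        _ = u * (u * v) ^ m := by group
    · have hz2 : (u * v) ^ m * (u * v) ^ m = 1 := by rw [← pow_add, ← hm, pow_orderOf_eq_one]
      have hzinv : ((u * v) ^ m)⁻¹ = (u * v) ^ m := inv_eq_of_mul_eq_one_right hz2
      have h1 := hvpow m
      rw [hzinv] at h1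
      calc (u * v) ^ m * v = (v * (u * v) ^ m * v⁻¹) * v := by rw [h1]
        _ = v * (u * v) ^ m := by group
  · -- odd order: a reflection conjugating `u` to `v`
    left
    have h1 := hupow m
    have hss : (u * v) ^ m * u * ((u * v) ^ m * u) = 1 := by
      calc (u * v) ^ m * u * ((u * v) ^ m * u)
          = (u * v) ^ m * (u * (u * v) ^ m * u⁻¹) * (u * u) := by group
        _ = 1 := by rw [h1, hu]; group
    refine ⟨(u * v) ^ m * u, Subgroup.mul_mem _ (Subgroup.pow_mem _ hrc m) huc, hss, ?_⟩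
    have hsinv : ((u * v) ^ m * u)⁻¹ = (u * v) ^ m * u := inv_eq_of_mul_eq_one_right hss
    rw [hsinv]
    have h2m : (u * v) ^ m * (u * v) ^ m = (u * v)⁻¹ := by
      have h3 : (u * v) ^ m * (u * v) ^ m * (u * v) = 1 := by
        rw [← pow_add, ← pow_succ]
        have : m + m + 1 = orderOf (u * v) := by omega
        rw [this, pow_orderOf_eq_one]
      exact eq_inv_of_mul_eq_one_left h3
    calc (u * v) ^ m * u * u * ((u * v) ^ m * u)
        = (u * v) ^ m * (u * u) * (u * v) ^ m * u := by group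
      _ = (u * v) ^ m * (u * v) ^ m * u := by rw [hu, mul_one]
      _ = v := by rw [h2m, hrinv, mul_assoc, hu, mul_one]

-- PIECE C4m  (pure: the same modulo a subgroup `T` normalised by `N`)
theorem dihedral_mod {M : Type*} [Group M] [Finite M] (N T : Subgroup M) (hTN : T ≤ N)
    (hnorm : ∀ n ∈ N, ∀ t ∈ T, n * t * n⁻¹ ∈ T) (x₁ x₂ : M) (h₁ : x₁ ∈ N) (h₂ : x₂ ∈ N)
    (hx₁ : x₁ * x₁ ∈ T) (hx₂ : x₂ * x₂ ∈ T) :
    (∃ s ∈ Subgroup.closure {x₁, x₂}, s * s ∈ T ∧ s * x₁ * s⁻¹ * x₂⁻¹ ∈ T) ∨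
    (∃ z ∈ Subgroup.closure {x₁, x₂}, z ∉ T ∧ z * z ∈ T ∧
      z * x₁ * z⁻¹ * x₁⁻¹ ∈ T ∧ z * x₂ * z⁻¹ * x₂⁻¹ ∈ T) := by
  haveI hN : (T.subgroupOf N).Normal := by
    constructor
    intro t ht n
    exact Subgroup.mem_subgroupOf.mpr (hnorm n n.2 t (Subgroup.mem_subgroupOf.mp ht))
  have hker : ∀ y : ↥N, (QuotientGroup.mk' (T.subgroupOf N) y = 1) ↔ (y : M) ∈ T := by
    intro y
    rw [QuotientGroup.mk'_apply, QuotientGroup.eq_one_iff, Subgroup.mem_subgroupOf]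
  -- lifting from the closure in the quotient
  have hlift : ∀ s ∈ Subgroup.closure ({QuotientGroup.mk' (T.subgroupOf N) ⟨x₁, h₁⟩,
      QuotientGroup.mk' (T.subgroupOf N) ⟨x₂, h₂⟩} : Set (↥N ⧸ T.subgroupOf N)),
      ∃ s' : ↥N, (s' : M) ∈ Subgroup.closure ({x₁, x₂} : Set M) ∧
        QuotientGroup.mk' (T.subgroupOf N) s' = s := by
    intro s hs
    rw [← Set.image_pair, ← MonoidHom.map_closure] at hs
    obtain ⟨s', hs', rfl⟩ := hs
    refine ⟨s', ?_, rfl⟩
    have h3 : (Subgroup.closure ({⟨x₁, h₁⟩, ⟨x₂, h₂⟩} : Set ↥N)).map N.subtype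
        = Subgroup.closure ({x₁, x₂} : Set M) := by
      rw [MonoidHom.map_closure, Set.image_pair]
      rfl
    rw [← h3]
    exact ⟨s', hs', rfl⟩
  have hu : QuotientGroup.mk' (T.subgroupOf N) ⟨x₁, h₁⟩ * QuotientGroup.mk' (T.subgroupOf N) ⟨x₁, h₁⟩
      = 1 := by
    rw [← map_mul, hker]
    exact hx₁
  have hv : QuotientGroup.mk' (T.subgroupOf N) ⟨x₂, h₂⟩ * QuotientGroup.mk' (T.subgroupOf N) ⟨x₂, h₂⟩
      = 1 := by
    rw [← map_mul, hker]
    exact hx₂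
  rcases dihedral_aux _ _ hu hv with ⟨s, hs, hss, hsu⟩ | ⟨z, hz, hz1, hzz, hzu, hzv⟩
  · left
    obtain ⟨s', hs'c, rfl⟩ := hlift s hs
    refine ⟨(s' : M), hs'c, ?_, ?_⟩
    · rw [← map_mul, hker] at hss
      exact hss
    · have h4 : QuotientGroup.mk' (T.subgroupOf N) (s' * ⟨x₁, h₁⟩ * s'⁻¹ * (⟨x₂, h₂⟩ : ↥N)⁻¹) = 1 := by
        rw [map_mul, map_mul, map_mul, map_inv, map_inv, hsu, mul_inv_cancel]
      exact (hker _).mp h4
  · right
    obtain ⟨z', hz'c, rfl⟩ := hlift z hz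
    refine ⟨(z' : M), hz'c, ?_, ?_, ?_, ?_⟩
    · intro hzT
      exact hz1 ((hker z').mpr hzT)
    · rw [← map_mul, hker] at hzz
      exact hzz
    · have h4 : QuotientGroup.mk' (T.subgroupOf N) (z' * ⟨x₁, h₁⟩ * z'⁻¹ * (⟨x₁, h₁⟩ : ↥N)⁻¹) = 1 := by
        rw [map_mul, map_mul, map_mul, map_inv, map_inv, hzu]
        group
      exact (hker _).mp h4
    · have h4 : QuotientGroup.mk' (T.subgroupOf N) (z' * ⟨x₂, h₂⟩ * z'⁻¹ * (⟨x₂, h₂⟩ : ↥N)⁻¹) = 1 := by
        rw [map_mul, map_mul, map_mul, map_inv, map_inv, hzv]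
        group
      exact (hker _).mp h4

end Cfsg.Agent.Helper37.LWC4m
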