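import Mathlib
import Cfsg.Agent.Helper96.OHDefs

set_option autoImplicit false
set_option linter.unusedSectionVars false
set_option linter.unusedVariables false

/-!
# CALL S5992 (helper96), piece OFIXCONGR (helper37)
-/

namespace Cfsg.Agent.Helper37.OH5992

open Module Polynomial Cfsg Cfsg.Geo
open Cfsg.Agent.Helper13.TIu Cfsg.Agent.Helper96.OH

variable {ι : Type} [Fintype ι] [DecidableEq ι] {F : Type*} [Field F] (Q : (ι → F) → F)

/-- OFIXCONGR (form-free; mirror `Cfsg.Agent.Helper10.TI5954.u_fix_congr` /
`Cfsg.Agent.Helper37.TI5956.fix_congr`): the cyclic group generated by `T` acts on the subspaces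
satisfying a `T`-stable predicate; orbits have size `1` or `r`. -/
theorem o_fix_congr [Fintype F] (T : Module.End F (ι → F)) (r : ℕ) [Fact r.Prime]
    (hTr : T ^ r = 1) (Pr : Submodule F (ι → F) → Prop) (hPr : ∀ W, Pr W → Pr (W.map T)) :
    Nat.card {W : Submodule F (ι → F) // Pr W} ≡
      Nat.card {W : Submodule F (ι → F) // Pr W ∧ W.map T ≤ W} [MOD r] := by
  classical
  have hr : 0 < r := (Fact.out : r.Prime).pos
  have hTS : T ^ (r - 1) * T = 1 := by
    rw [← pow_succ, Nat.sub_add_cancel hr, hTr]
  have hinj : Function.Injective T := by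
    intro x y hxy
    have hx : (T ^ (r - 1) * T) x = x := by rw [hTS]; rfl
    have hy : (T ^ (r - 1) * T) y = y := by rw [hTS]; rfl
    rw [Module.End.mul_apply] at hx hy
    rw [← hx, ← hy, hxy]
  have hfr : ∀ W : Submodule F (ι → F), finrank F ↥(W.map T) = finrank F W :=
    fun W => (Submodule.equivMapOfInjective T hinj W).finrank_eq.symm
  let Ω := {W : Submodule F (ι → F) // Pr W}
  let f : Function.End Ω := fun W => ⟨W.1.map T, hPr W.1 W.2⟩
  have hfk : ∀ (k : ℕ) (W : Ω), ((f ^ k) W).1 = W.1.map (T ^ k) := by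
    intro k
    induction k with
    | zero =>
      intro W
      rw [pow_zero, pow_zero]
      change W.1 = Submodule.map LinearMap.id W.1
      exact (Submodule.map_id _).symm
    | succ k ih =>
      intro W
      rw [pow_succ', pow_succ']
      change (f ((f ^ k) W)).1 = _
      change ((f ^ k) W).1.map T = _
      rw [ih W, ← Submodule.map_comp]
      rfl
  have hf : f ^ r ^ 1 = 1 := by
    rw [pow_one]
    funext W
    apply Subtype.ext
    rw [hfk r W, hTr]
    change Submodule.map LinearMap.id W.1 = W.1
    exact Submodule.map_id _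
  haveI : Fintype Ω := Fintype.ofFinite Ω
  have key := Equiv.Perm.card_fixedPoints_modEq (p := r) (n := 1) hf
  rw [← Nat.card_eq_fintype_card, ← Nat.card_eq_fintype_card] at key
  have e : ↥(Function.fixedPoints f) ≃ {W : Submodule F (ι → F) // Pr W ∧ W.map T ≤ W} :=
    { toFun := fun x => ⟨x.1.1, x.1.2, le_of_eq (congrArg Subtype.val x.2)⟩
      invFun := fun y => ⟨⟨y.1, y.2.1⟩, Subtype.ext
        (Submodule.eq_of_le_of_finrank_eq y.2.2 (hfr y.1))⟩
      left_inv := fun x => rfl
      right_inv := fun y => rfl }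
  rw [Nat.card_congr e] at key
  exact key

end Cfsg.Agent.Helper37.OH5992
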