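import Mathlib
import Cfsg.Agent.Helper96.OHDefs
import Cfsg.Agent.Helper31.OHOPERP
import Cfsg.Agent.Helper70.OHONONISO
import Cfsg.Agent.Helper31.OHOLINE
import Cfsg.Agent.Helper96.OHEXND

set_option autoImplicit false
set_option linter.unusedSectionVars false
set_option linter.unusedVariables false

/-!
# CALL S5993 (helper69), piece ESPLIT1 (helper37; double) — twin of OSPLIT1 with a target type `b`

Uses the landed pieces ONONISO (helper70), OEXND (helper96), OPERP and OLINE (helper31).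
-/

namespace Cfsg.Agent.Helper37.OE5993

open Module Polynomial Cfsg Cfsg.Geo
open Cfsg.Agent.Helper13.TIu Cfsg.Agent.Helper96.OH

variable {ι : Type} [Fintype ι] [DecidableEq ι] {F : Type*} [Field F] (Q : (ι → F) → F)

theorem esplit_iff_aux {S P b R : Prop} (hmul : R ↔ (S ↔ P)) (h : S ↔ (P ↔ b)) : R ↔ b := by
  tauto

theorem esplit_iff_aux2 {S P b R : Prop} (hmul : R ↔ (S ↔ P)) (h : P ↔ (S ↔ b)) : R ↔ b := by
  tauto

/-- ESPLIT1 (twin of OSPLIT1 with an arbitrary target type `b`; uses ONONISO, OEXND, OPERP, OLINE,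
`o_type_mul`, `OType.nondeg_sup`, `OType.finrank_sup_of_orth`): `A = span {f}`, `Q f ≠ 0`; `P' ≤ B`
nondegenerate of dimension `finrank B - 2`, `Pi` its perp in `B` (a nondegenerate plane, `f ⟂ Pi`);
OLINE with the target `(OPl Q P' ↔ b)` gives `l ∈ Pi`; `Y = span {l} ⊔ P'`,
`A ⊔ Y = span {f, l} ⊔ P'`, and `o_type_mul`: `OPl (A ⊔ Y) ↔ (OPl (span {f, l}) ↔ OPl P') ↔ b`. -/
theorem oe_split_one [Fintype F] (hQ : IsNondegenerateQuadraticForm Q) (h2 : (2 : F) ≠ 0)
    (A B : Submodule F (ι → F)) (hA : ONd Q A) (hB : ONd Q B) (horth : OOrth Q A B)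
    (hA1 : finrank F A = 1) (hB2 : 2 ≤ finrank F B) (hBe : Even (finrank F B)) (b : Prop) :
    ∃ Y : Submodule F (ι → F), Y ≤ B ∧ finrank F ↥(A ⊔ Y) = finrank F B ∧ ONd Q (A ⊔ Y) ∧
      (OPl Q (A ⊔ Y) ↔ b) := by
  have hA0 : A ≠ ⊥ := by
    intro h
    rw [h, finrank_bot] at hA1
    omega
  obtain ⟨f, hfA, hf⟩ := Cfsg.Agent.Helper70.OH5992.o_noniso Q hQ A hA hA0
  have hf0 : f ≠ 0 := by
    rintro rfl
    exact hf (q_zero Q hQ)
  have hAf : A = Submodule.span F {f} := by
    symm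
    apply Submodule.eq_of_le_of_finrank_eq
    · rw [Submodule.span_le]
      rintro _ ⟨⟩
      exact hfA
    · rw [finrank_span_singleton hf0, hA1]
  obtain ⟨P', hP'B, hP', hP'dim⟩ := Cfsg.Agent.Helper96.OH5992.o_exists_nd Q hQ h2 B hB (finrank F B - 2) (by omega)
  obtain ⟨Pi, hPiB, -, hPi, -, hsup, hP'Pi, hPidim⟩ :=
    Cfsg.Agent.Helper31.OH5992.o_perp Q hQ 1 (opres_one Q) 1 Nat.one_pos (pow_one _) B P' hB hP'
      hP'B (by rw [show (1 : Module.End F (ι → F)) = LinearMap.id from rfl, Submodule.map_id])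
      (by rw [show (1 : Module.End F (ι → F)) = LinearMap.id from rfl, Submodule.map_id])
  have hPi2 : finrank F Pi = 2 := by omega
  obtain ⟨l, hlPi, hfl, hfldim, hfltype⟩ := Cfsg.Agent.Helper31.OH5992.o_line Q hQ h2 Pi hPi hPi2 f hf
    (fun v hv => horth f hfA v (hPiB hv)) (OPl Q P' ↔ b)
  have horth2 : OOrth Q (Submodule.span F {f, l}) P' := by
    intro u hu v hv
    have key : pB Q hQ u v = 0 := by
      refine Submodule.span_induction (p := fun u _ => pB Q hQ u v = 0) ?_ ?_ ?_ ?_ hu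
      · intro x hx
        rcases hx with rfl | hx
        · exact horth x hfA v (hP'B hv)
        · rw [Set.mem_singleton_iff] at hx
          subst hx
          rw [pB_comm]
          exact hP'Pi v hv x hlPi
      · simp
      · intro x y _ _ hx hy
        rw [map_add, LinearMap.add_apply, hx, hy, add_zero]
      · intro a x _ hx
        rw [map_smul, LinearMap.smul_apply, hx, smul_zero]
    exact key
  refine ⟨Submodule.span F {l} ⊔ P', sup_le ?_ hP'B, ?_⟩
  · rw [Submodule.span_le]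
    rintro _ ⟨⟩
    exact hPiB hlPi
  have hsupeq : A ⊔ (Submodule.span F {l} ⊔ P') = Submodule.span F {f, l} ⊔ P' := by
    rw [hAf, ← sup_assoc, ← Submodule.span_insert]
  rw [hsupeq]
  refine ⟨?_, Cfsg.Agent.Helper33.OType.nondeg_sup Q hQ _ _ hfl hP' horth2, ?_⟩
  · rw [Cfsg.Agent.Helper33.OType.finrank_sup_of_orth Q _ _ hfl horth2, hfldim, hP'dim]
    omega
  · have hmul := Cfsg.Agent.Helper33.o_type_mul Q hQ _ P' hfl hP' horth2
      (by rw [hfldim]; exact even_two)
      (by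
        rw [hP'dim]
        obtain ⟨k, hk⟩ := hBe
        exact ⟨k - 1, by omega⟩)
    exact esplit_iff_aux hmul hfltype

end Cfsg.Agent.Helper37.OE5993
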