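import Mathlib
import Cfsg.Agent.Helper96.OHDefs
import Cfsg.Agent.Helper96.OHEXND
import Cfsg.Agent.Helper37.OEESPLIT1
import Cfsg.Agent.Helper70.OHOSUB

set_option autoImplicit false
set_option linter.unusedSectionVars false
set_option linter.unusedVariables false

/-!
# CALL S5993 (helper69), piece ESPLIT (helper37; double) — twin of OSPLIT with a target type `b`

Uses the landed pieces OSUB (helper70), OEXND (helper96), ESPLIT1 (helper37).
-/

namespace Cfsg.Agent.Helper37.OE5993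

open Module Polynomial Cfsg Cfsg.Geo
open Cfsg.Agent.Helper13.TIu Cfsg.Agent.Helper96.OH

variable {ι : Type} [Fintype ι] [DecidableEq ι] {F : Type*} [Field F] (Q : (ι → F) → F)

/-- ESPLIT (twin of OSPLIT with an arbitrary target type `b`; uses OSUB, OEXND, ESPLIT1,
`o_type_mul`, `o_plus_bot`, `OType.nondeg_sup`, `OType.finrank_sup_of_orth`): `a = finrank A` odd,
`β = finrank B`, `a + β = |ι|`.
`m < a`: `X ≤ A` of type `b` (OSUB), `Y = ⊥`.
`m > a`, `y := m - (a - 1) ≤ β` (even, `≥ 2`):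
 `a ≥ 3`, `y < β`: `X ≤ A` nondegenerate of dimension `a - 1` (OEXND), `Y ≤ B` of dimension `y` with
   `OPl Q Y ↔ (OPl Q X ↔ b)` (OSUB);  `a ≥ 3`, `y = β`: `Y = B`, `X ≤ A` of dimension `a - 1` with
   `OPl Q X ↔ (OPl Q B ↔ b)` (OSUB);
 `a = 1`, `m < β`: `X = ⊥`, `Y ≤ B` of type `b` (OSUB);  `a = 1`, `m = β`: `X = A`, `Y` from ESPLIT1. -/
theorem oe_split [Fintype F] (hQ : IsNondegenerateQuadraticForm Q) (h2 : (2 : F) ≠ 0)
    (A B : Submodule F (ι → F)) (hA : ONd Q A) (hB : ONd Q B) (horth : OOrth Q A B)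
    (hsup : A ⊔ B = ⊤) (hodd : Odd (finrank F A)) (m : ℕ) (hme : Even m) (hm2 : 2 ≤ m)
    (hmn : m < Fintype.card ι) (b : Prop) :
    ∃ X Y : Submodule F (ι → F), X ≤ A ∧ Y ≤ B ∧ finrank F ↥(X ⊔ Y) = m ∧ ONd Q (X ⊔ Y) ∧
      (OPl Q (X ⊔ Y) ↔ b) := by
  have hn : finrank F A + finrank F B = Fintype.card ι := by
    rw [← Cfsg.Agent.Helper33.OType.finrank_sup_of_orth Q A B hA horth, hsup, finrank_top,
      Module.finrank_fintype_fun_eq_card]
  obtain ⟨ka, hka⟩ := hodd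
  obtain ⟨km, hkm⟩ := hme
  have horthXY : ∀ X Y : Submodule F (ι → F), X ≤ A → Y ≤ B → OOrth Q X Y :=
    fun X Y hX hY u hu v hv => horth u (hX hu) v (hY hv)
  by_cases hma : m < finrank F A
  · -- `X ≤ A` of plus type, `Y = ⊥`
    obtain ⟨X, hXA, hX, hXdim, hXpl⟩ := Cfsg.Agent.Helper70.OH5992.o_sub Q hQ h2 A hA m ⟨km, hkm⟩ (by omega) hma b
    refine ⟨X, ⊥, hXA, bot_le, ?_, ?_, ?_⟩
    · rw [sup_bot_eq]; exact hXdim
    · rw [sup_bot_eq]; exact hX
    · rw [sup_bot_eq]; exact hXpl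
  · have hma' : finrank F A < m := by omega
    by_cases ha1 : finrank F A = 1
    · by_cases hmb : m < finrank F B
      · -- `X = ⊥`, `Y ≤ B` of plus type
        obtain ⟨Y, hYB, hY, hYdim, hYpl⟩ :=
          Cfsg.Agent.Helper70.OH5992.o_sub Q hQ h2 B hB m ⟨km, hkm⟩ (by omega) hmb b
        refine ⟨⊥, Y, bot_le, hYB, ?_, ?_, ?_⟩
        · rw [bot_sup_eq]; exact hYdim
        · rw [bot_sup_eq]; exact hY
        · rw [bot_sup_eq]; exact hYpl
      · -- `m = b`: OSPLIT1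
        have hmb' : m = finrank F B := by omega
        obtain ⟨Y, hYB, hYdim, hY, hYpl⟩ := Cfsg.Agent.Helper37.OE5993.oe_split_one Q hQ h2 A B hA
          hB horth ha1 (by omega) ⟨km, by omega⟩ b
        exact ⟨A, Y, le_refl A, hYB, by rw [hYdim, hmb'], hY, hYpl⟩
    · -- `a ≥ 3`
      have ha3 : 3 ≤ finrank F A := by omega
      by_cases hyb : m - (finrank F A - 1) < finrank F B
      · obtain ⟨X, hXA, hX, hXdim⟩ := Cfsg.Agent.Helper96.OH5992.o_exists_nd Q hQ h2 A hA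
          (finrank F A - 1) (by omega)
        obtain ⟨Y, hYB, hY, hYdim, hYpl⟩ := Cfsg.Agent.Helper70.OH5992.o_sub Q hQ h2 B hB (m - (finrank F A - 1))
          ⟨km - ka, by omega⟩ (by omega) hyb (OPl Q X ↔ b)
        have ho := horthXY X Y hXA hYB
        refine ⟨X, Y, hXA, hYB, ?_, Cfsg.Agent.Helper33.OType.nondeg_sup Q hQ X Y hX hY ho, ?_⟩
        · rw [Cfsg.Agent.Helper33.OType.finrank_sup_of_orth Q X Y hX ho, hXdim, hYdim]
          omega
        · have hmul := Cfsg.Agent.Helper33.o_type_mul Q hQ X Y hX hY ho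
            ⟨ka, by rw [hXdim]; omega⟩ ⟨km - ka, by rw [hYdim]; omega⟩
          exact esplit_iff_aux2 hmul hYpl
      · have hyb' : m - (finrank F A - 1) = finrank F B := by omega
        obtain ⟨X, hXA, hX, hXdim, hXpl⟩ := Cfsg.Agent.Helper70.OH5992.o_sub Q hQ h2 A hA (finrank F A - 1)
          ⟨ka, by omega⟩ (by omega) (by omega) (OPl Q B ↔ b)
        have ho := horthXY X B hXA (le_refl B)
        refine ⟨X, B, hXA, le_refl B, ?_,
          Cfsg.Agent.Helper33.OType.nondeg_sup Q hQ X B hX hB ho, ?_⟩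
        · rw [Cfsg.Agent.Helper33.OType.finrank_sup_of_orth Q X B hX ho, hXdim]
          omega
        · have hmul := Cfsg.Agent.Helper33.o_type_mul Q hQ X B hX hB ho
            ⟨ka, by rw [hXdim]; omega⟩ ⟨km - ka, by omega⟩
          exact esplit_iff_aux hmul hXpl

end Cfsg.Agent.Helper37.OE5993
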