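import Mathlib
import Cfsg.Prelude.Def_OddOrderLocal

set_option autoImplicit false

/-!
# CALL BG17 (helper25, row S1381), piece D2 — core (helper37)

`bg17_derived_two_core`: the pure group theory of D2 (`M' = U S` with `U` abelian and `S` normalized
by `M ≥ U` gives `M'' ≤ S`), and `bg17_derived_two_of`: D2 with the two rows it uses (S1365, S1363)
passed as hypotheses.  Only Mathlib and the Prelude are imported.
-/

namespace Cfsg.Agent.Helper37

open Cfsg Subgroup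
open scoped commutatorElement

universe u

variable {G : Type u} [Group G]

/-- `M` normalizes `M_σ`. -/
theorem bg17d2_le_normalizer_sigmaCore (M : Subgroup G) :
    M ≤ normalizer (sigmaCore M : Set G) := by
  intro x hx
  rw [Subgroup.mem_normalizer_iff]
  intro h
  constructor
  · rintro ⟨y, hy, rfl⟩
    exact ⟨⟨x, hx⟩ * y * ⟨x, hx⟩⁻¹, (piCore_normal (sigma M) ↥M).conj_mem y hy ⟨x, hx⟩, rfl⟩
  · rintro ⟨y, hy, hyx⟩
    refine ⟨⟨x, hx⟩⁻¹ * y * ⟨x, hx⟩, ?_, ?_⟩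
    · have := (piCore_normal (sigma M) ↥M).conj_mem y hy ⟨x, hx⟩⁻¹
      rwa [inv_inv] at this
    · show x⁻¹ * (y : G) * x = h
      have hyx' : (y : G) = x * h * x⁻¹ := hyx
      rw [hyx']
      group

/-- induction over a join of two subgroups (no inverse case needed) -/
theorem bg17d2_sup_induction {H K : Subgroup G} {C : G → Prop} (hH : ∀ x ∈ H, C x)
    (hK : ∀ x ∈ K, C x) (hmul : ∀ x y, C x → C y → C (x * y)) {x : G} (hx : x ∈ H ⊔ K) :
    C x := by
  have h1 : C 1 := hH 1 H.one_mem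
  rw [← Subgroup.closure_eq H, ← Subgroup.closure_eq K, ← Subgroup.closure_union] at hx
  have key : C x ∧ C x⁻¹ := by
    refine Subgroup.closure_induction (p := fun g _ => C g ∧ C g⁻¹) ?_ ?_ ?_ ?_ hx
    · rintro y (hy | hy)
      · exact ⟨hH y hy, hH _ (H.inv_mem hy)⟩
      · exact ⟨hK y hy, hK _ (K.inv_mem hy)⟩
    · exact ⟨h1, by rw [inv_one]; exact h1⟩
    · rintro a b _ _ ⟨ha, ha'⟩ ⟨hb, hb'⟩
      exact ⟨hmul a b ha hb, by rw [mul_inv_rev]; exact hmul _ _ hb' ha'⟩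
    · rintro a _ ⟨ha, ha'⟩
      exact ⟨ha', by rw [inv_inv]; exact ha⟩
  exact key.1

/-- If `U` is abelian and `U` normalizes `S`, then `(U S)' ≤ S`. -/
theorem bg17d2_commutator_sup_le {U S : Subgroup G} (hUn : U ≤ normalizer (S : Set G))
    (hU : ∀ a ∈ U, ∀ b ∈ U, a * b = b * a) : ⁅U ⊔ S, U ⊔ S⁆ ≤ S := by
  have hconj : ∀ x ∈ normalizer (S : Set G), ∀ s ∈ S, x * s * x⁻¹ ∈ S :=
    fun x hx s hs => (Subgroup.mem_normalizer_iff.mp hx s).mp hs
  have hLn : ∀ x ∈ U ⊔ S, x ∈ normalizer (S : Set G) := by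
    intro x hx
    exact (sup_le hUn Subgroup.le_normalizer) hx
  -- step 1: commutators with elements of `U`
  have step1 : ∀ x ∈ U ⊔ S, ∀ u ∈ U, ⁅x, u⁆ ∈ S := by
    intro x hx u hu
    refine (bg17d2_sup_induction (C := fun x => x ∈ normalizer (S : Set G) ∧ ⁅x, u⁆ ∈ S)
      ?_ ?_ ?_ hx).2
    · intro a ha
      refine ⟨hUn ha, ?_⟩
      have e : ⁅a, u⁆ = 1 := by
        rw [commutatorElement_def, hU a ha u hu]
        group
      rw [e]
      exact S.one_mem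
    · intro s hs
      refine ⟨Subgroup.le_normalizer hs, ?_⟩
      have e : ⁅s, u⁆ = s * (u * s⁻¹ * u⁻¹) := by
        rw [commutatorElement_def]
        group
      rw [e]
      exact S.mul_mem hs (hconj u (hUn hu) _ (S.inv_mem hs))
    · rintro a b ⟨han, ha⟩ ⟨hbn, hb⟩
      refine ⟨(normalizer (S : Set G)).mul_mem han hbn, ?_⟩
      have e : ⁅a * b, u⁆ = a * ⁅b, u⁆ * a⁻¹ * ⁅a, u⁆ := by
        simp only [commutatorElement_def]
        group
      rw [e]
      exact S.mul_mem (hconj a han _ hb) ha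
  rw [Subgroup.commutator_le]
  intro x hx y hy
  refine (bg17d2_sup_induction (C := fun y => y ∈ normalizer (S : Set G) ∧ ⁅x, y⁆ ∈ S)
    ?_ ?_ ?_ hy).2
  · intro u hu
    exact ⟨hUn hu, step1 x hx u hu⟩
  · intro s hs
    refine ⟨Subgroup.le_normalizer hs, ?_⟩
    have e : ⁅x, s⁆ = (x * s * x⁻¹) * s⁻¹ := by
      rw [commutatorElement_def]
    rw [e]
    exact S.mul_mem (hconj x (hLn x hx) s hs) (S.inv_mem hs)
  · rintro a b ⟨han, ha⟩ ⟨hbn, hb⟩
    refine ⟨(normalizer (S : Set G)).mul_mem han hbn, ?_⟩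
    have e : ⁅x, a * b⁆ = ⁅x, a⁆ * (a * ⁅x, b⁆ * a⁻¹) := by
      simp only [commutatorElement_def]
      group
    rw [e]
    exact S.mul_mem ha (hconj a han _ hb)

/-- D2, pure core: `M' = U S`, `U ≤ M` abelian, `M` normalizes `S`: `M'' ≤ S`. -/
theorem bg17_derived_two_core {M U S : Subgroup G} (hUM : U ≤ M)
    (hSn : M ≤ normalizer (S : Set G)) (hU : IsMulCommutative U) (hder : ⁅M, M⁆ = U ⊔ S) :
    ⁅⁅M, M⁆, ⁅M, M⁆⁆ ≤ S := by
  rw [hder]
  refine bg17d2_commutator_sup_le (hUM.trans hSn) ?_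
  intro a ha b hb
  have h := hU.is_comm.comm (⟨a, ha⟩ : ↥U) ⟨b, hb⟩
  exact congrArg Subtype.val h

/-- D2 with the rows S1365 (`M' = U M_σ`) and S1363 (`U` abelian) as hypotheses. -/
theorem bg17_derived_two_of {M K U : Subgroup G} (hKU : IsSigmaDecomposition M K U)
    (h1365 : ⁅M, M⁆ = U ⊔ sigmaCore M) (h1363 : IsMulCommutative U) :
    ⁅⁅M, M⁆, ⁅M, M⁆⁆ ≤ sigmaCore M :=
  bg17_derived_two_core hKU.compl.1 (bg17d2_le_normalizer_sigmaCore M) h1363 h1365

end Cfsg.Agent.Helper37
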