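import Mathlib

set_option autoImplicit false

namespace Cfsg.Agent.Helper37

/-- PIECE NE of CALL S0996. -/
theorem brn_num_even {ι : Type*} (I K : Finset ι) (r : ι → ℤ) (m : ι → ℕ)
    (p q n t a w f C : ℕ) (ε κ : ℤ) (hp : 2 ≤ p) (hn : 1 ≤ n) (ht : 1 ≤ t)
    (hIcard : I.card = a) (hqa : q = 1 + w + a * (n + 1))
    (hcase : (ε = 1 ∧ w = 0) ∨ (ε = -1 ∧ w * t = n + 1 ∧ t * f = 1 + n * p))
    (hrI : ∀ i ∈ I, |r i| ≤ ((n : ℤ) + 1)) (hrK : ∀ k ∈ K, |r k| ≤ (m k : ℤ))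
    (hκ : |κ| ≤ (w : ℤ))
    (E2 : (C : ℤ) = 1 + ∑ i ∈ I, r i ^ 2 + t * κ ^ 2 + ∑ k ∈ K, r k ^ 2)
    (E3 : (0 : ℤ) = 1 + (1 + (n : ℤ) * p) * ∑ i ∈ I, r i + t * κ * (f : ℤ)
      + p * ∑ k ∈ K, r k * (m k : ℤ))
    (E4 : ε * κ = 1 + ∑ i ∈ I, r i)
    (E5 : ∑ k ∈ K, (m k : ℤ) ^ 2 = (n : ℤ))
    (E6 : (q : ℤ) * (1 + ∑ k ∈ K, (m k : ℤ) * r k) = (C : ℤ)) :
    ε = -1 ∧ w = 1 := by
  have hp0 : (p : ℤ) ≠ 0 := by
    have : (2 : ℤ) ≤ p := by exact_mod_cast hp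
    omega
  have hn1 : (1 : ℤ) ≤ n := by exact_mod_cast hn
  have ht1 : (1 : ℤ) ≤ t := by exact_mod_cast ht
  have hw0 : (0 : ℤ) ≤ w := Int.natCast_nonneg w
  -- Step 1: `∑_K r m = n`
  have hSK : ∑ k ∈ K, r k * (m k : ℤ) = n := by
    have h1 : (p : ℤ) * ∑ k ∈ K, r k * (m k : ℤ) = p * n := by
      rcases hcase with ⟨hε, hw⟩ | ⟨hε, hwt, htf⟩
      · have hκ0 : κ = 0 := by
          rw [hw] at hκ
          exact abs_nonpos_iff.mp (by simpa using hκ)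
        rw [hε, hκ0] at E4
        rw [hκ0] at E3
        linear_combination (-1 : ℤ) * E3 + (1 + (n : ℤ) * p) * E4
      · have htf' : (t : ℤ) * f = 1 + n * p := by exact_mod_cast htf
        rw [hε] at E4
        linear_combination (-1 : ℤ) * E3 + (1 + (n : ℤ) * p) * E4 - κ * htf'
    exact mul_left_cancel₀ hp0 h1
  -- Step 2: `r k = m k` on `K`
  have hrm : ∀ k ∈ K, r k = (m k : ℤ) := by
    have hnonneg : ∀ k ∈ K, 0 ≤ (m k : ℤ) ^ 2 - r k * (m k : ℤ) := by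
      intro k hk
      have h1 : r k ≤ (m k : ℤ) := (le_abs_self _).trans (hrK k hk)
      have h2 : (0 : ℤ) ≤ m k := Int.natCast_nonneg _
      nlinarith
    have hsum : ∑ k ∈ K, ((m k : ℤ) ^ 2 - r k * (m k : ℤ)) = 0 := by
      rw [Finset.sum_sub_distrib, E5, hSK, sub_self]
    have hzero := (Finset.sum_eq_zero_iff_of_nonneg hnonneg).mp hsum
    intro k hk
    have h1 : (m k : ℤ) ^ 2 - r k * (m k : ℤ) = 0 := hzero k hk
    have h2 : (m k : ℤ) * ((m k : ℤ) - r k) = 0 := by linear_combination h1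
    rcases mul_eq_zero.mp h2 with h3 | h3
    · have h4 := hrK k hk
      rw [h3] at h4
      rw [h3]
      exact abs_nonpos_iff.mp h4
    · linarith
  -- Step 3
  have hmr : ∑ k ∈ K, (m k : ℤ) * r k = n := by
    rw [← E5]
    exact Finset.sum_congr rfl (fun k hk => by rw [hrm k hk]; ring)
  have hRK : ∑ k ∈ K, r k ^ 2 = n := by
    rw [← E5]
    exact Finset.sum_congr rfl (fun k hk => by rw [hrm k hk])
  -- Step 4
  have hq' : (q : ℤ) = 1 + w + a * ((n : ℤ) + 1) := by exact_mod_cast hqa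
  have hsum : ∑ i ∈ I, r i ^ 2 + t * κ ^ 2 = ((w : ℤ) + a * ((n : ℤ) + 1)) * ((n : ℤ) + 1) := by
    rw [hmr] at E6
    rw [hRK, ← E6, hq'] at E2
    linear_combination -E2
  -- Step 5: bounds
  have hsq : ∀ i ∈ I, r i ^ 2 ≤ ((n : ℤ) + 1) ^ 2 := by
    intro i hi
    have h1 := abs_le.mp (hrI i hi)
    nlinarith [h1.1, h1.2]
  have hR1le : ∑ i ∈ I, r i ^ 2 ≤ (a : ℤ) * ((n : ℤ) + 1) ^ 2 := by
    calc ∑ i ∈ I, r i ^ 2 ≤ ∑ _i ∈ I, ((n : ℤ) + 1) ^ 2 := Finset.sum_le_sum hsq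
      _ = (a : ℤ) * ((n : ℤ) + 1) ^ 2 := by rw [Finset.sum_const, hIcard, nsmul_eq_mul]
  have hκsq : κ ^ 2 ≤ (w : ℤ) ^ 2 := by
    have h1 := abs_le.mp hκ
    nlinarith [h1.1, h1.2]
  have hκle : (t : ℤ) * κ ^ 2 ≤ (w : ℤ) * ((n : ℤ) + 1) := by
    rcases hcase with ⟨hε, hw⟩ | ⟨hε, hwt, htf⟩
    · have hκ0 : κ = 0 := by
        rw [hw] at hκ
        exact abs_nonpos_iff.mp (by simpa using hκ)
      rw [hκ0, hw]
      simp
    · have hwt' : (w : ℤ) * t = n + 1 := by exact_mod_cast hwt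
      rw [← hwt']
      nlinarith
  have hexp : ((w : ℤ) + a * ((n : ℤ) + 1)) * ((n : ℤ) + 1)
      = (w : ℤ) * ((n : ℤ) + 1) + (a : ℤ) * ((n : ℤ) + 1) ^ 2 := by ring
  have hR1 : ∑ i ∈ I, r i ^ 2 = (a : ℤ) * ((n : ℤ) + 1) ^ 2 := by
    apply le_antisymm hR1le
    linarith
  have hκeq : (t : ℤ) * κ ^ 2 = (w : ℤ) * ((n : ℤ) + 1) := by
    apply le_antisymm hκle
    linarith
  -- Step 6: `n + 1` divides each `r i`
  have hdvd : ∀ i ∈ I, ((n : ℤ) + 1) ∣ r i := by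
    have hnonneg : ∀ i ∈ I, 0 ≤ ((n : ℤ) + 1) ^ 2 - r i ^ 2 := fun i hi => sub_nonneg.mpr (hsq i hi)
    have hsum0 : ∑ i ∈ I, (((n : ℤ) + 1) ^ 2 - r i ^ 2) = 0 := by
      rw [Finset.sum_sub_distrib, hR1, Finset.sum_const, hIcard, nsmul_eq_mul, sub_self]
    have hzero := (Finset.sum_eq_zero_iff_of_nonneg hnonneg).mp hsum0
    intro i hi
    have h1 : ((n : ℤ) + 1) ^ 2 - r i ^ 2 = 0 := hzero i hi
    have h2 : (r i - ((n : ℤ) + 1)) * (r i + ((n : ℤ) + 1)) = 0 := by linear_combination -h1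
    rcases mul_eq_zero.mp h2 with h3 | h3
    · exact ⟨1, by linarith⟩
    · exact ⟨-1, by linarith⟩
  have hdvdS : ((n : ℤ) + 1) ∣ ∑ i ∈ I, r i := Finset.dvd_sum hdvd
  -- Step 7
  rcases hcase with ⟨hε, hw⟩ | ⟨hε, hwt, htf⟩
  · exfalso
    have hκ0 : κ = 0 := by
      rw [hw] at hκ
      exact abs_nonpos_iff.mp (by simpa using hκ)
    rw [hε, hκ0] at E4
    have hS : ∑ i ∈ I, r i = -1 := by linarith
    rw [hS] at hdvdS
    have h1 : ((n : ℤ) + 1) ∣ 1 := (Int.dvd_neg).mp hdvdS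
    have h2 := Int.eq_one_of_dvd_one (by linarith) h1
    linarith
  · refine ⟨hε, ?_⟩
    have hwt' : (w : ℤ) * t = n + 1 := by exact_mod_cast hwt
    have hκ2 : κ ^ 2 = (w : ℤ) ^ 2 := by
      have h1 : (t : ℤ) * κ ^ 2 = t * (w : ℤ) ^ 2 := by
        rw [hκeq, ← hwt']
        ring
      exact mul_left_cancel₀ (by linarith : (t : ℤ) ≠ 0) h1
    have hwκ : (w : ℤ) ∣ κ := by
      have h2 : (κ - w) * (κ + w) = 0 := by linear_combination hκ2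
      rcases mul_eq_zero.mp h2 with h3 | h3
      · exact ⟨1, by linarith⟩
      · exact ⟨-1, by linarith⟩
    have hwn : (w : ℤ) ∣ (n : ℤ) + 1 := ⟨t, hwt'.symm⟩
    have hwS : (w : ℤ) ∣ ∑ i ∈ I, r i := hwn.trans hdvdS
    rw [hε] at E4
    have h1 : (w : ℤ) ∣ 1 := by
      have h2 : (1 : ℤ) = -κ - ∑ i ∈ I, r i := by linarith
      rw [h2]
      exact dvd_sub ((Int.dvd_neg).mpr hwκ) hwS
    have h3 := Int.eq_one_of_dvd_one hw0 h1
    exact_mod_cast h3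

end Cfsg.Agent.Helper37
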