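import Mathlib
import Cfsg.Agent.Helper79.Psl2Cyc

set_option autoImplicit false
open Cfsg

universe u

namespace Cfsg.Agent.Helper37

/-- A finite field of order `2 ^ m` has characteristic two. -/
theorem brn_charP_two (F : Type*) [Field F] [Fintype F] (m : ℕ) (hF : Fintype.card F = 2 ^ m) :
    CharP F 2 := by
  haveI : CharP F (ringChar F) := ringChar.charP F
  obtain ⟨k, hprime, hk⟩ := FiniteField.card F (ringChar F)
  have hdvd : ringChar F ∣ 2 ^ m := by
    rw [← hF, hk]
    exact dvd_pow_self _ k.ne_zero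
  have h2 : ringChar F = 2 :=
    (Nat.prime_dvd_prime_iff_eq hprime Nat.prime_two).mp (hprime.dvd_of_dvd_pow hdvd)
  exact h2 ▸ ringChar.charP F

/-- PIECE PS of CALL S0996. -/
theorem brn_psl_equiv_sl (F : Type) [Field F] [Fintype F] (m : ℕ) (hF : Fintype.card F = 2 ^ m) :
    Nonempty (Matrix.ProjectiveSpecialLinearGroup (Fin 2) F ≃*
      Matrix.SpecialLinearGroup (Fin 2) F) := by
  haveI : CharP F 2 := brn_charP_two F m hF
  have hcen := Cfsg.Agent.Helper79.sl2_char2_center_eq_bot F
  exact ⟨(QuotientGroup.quotientMulEquivOfEq hcen).trans QuotientGroup.quotientBot⟩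

end Cfsg.Agent.Helper37
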