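import Mathlib
import Cfsg.Agent.Helper9.BRDefs
import Cfsg.Agent.Helper8.BRSplit
import Cfsg.Agent.Helper79.Basic
import Cfsg.Agent.Helper37.BRA0

set_option autoImplicit false
open Cfsg
open scoped ComplexConjugate
universe u
namespace Cfsg.Agent.Helper37

/-- PIECE SEb of CALL S0996 (with the extra last hypothesis `hYne`, needed for the third
conjunct). -/
theorem brn_even_orth {G : Type u} [Group G] [Fintype G] {p : ℕ} [Fact p.Prime] (hodd : p ≠ 2)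
    {M : Ideal Cfsg.AlgInt} (P : Sylow p G) (q n f : ℕ)
    (T : Cfsg.Agent.Helper9.BRTab p M P q)
    (hX1 : ∀ χ ∈ T.X1, Cfsg.charDegree (χ : G → ℂ) = 1 + n * p)
    (hY : ∀ θ ∈ T.Y, Cfsg.charDegree (θ : G → ℂ) = f)
    (τ : G) (hτ : orderOf τ = 2)
    (K : Finset (Cfsg.IrrCharacter G))
    (hK : ∀ χ : Cfsg.IrrCharacter G, χ ∈ K ↔ χ ∉ Cfsg.principalBlock M G)
    (r : Cfsg.IrrCharacter G → ℤ) (mP : Cfsg.IrrCharacter G → ℕ) (κ : ℤ)
    (hr : ∀ χ : Cfsg.IrrCharacter G, (χ : G → ℂ) τ = (r χ : ℂ))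
    (hrX2 : ∀ χ ∈ T.X2, r χ = 0) (hrY : ∀ θ ∈ T.Y, r θ = κ)
    (hw : ∀ χ ∈ K, Cfsg.charDegree (χ : G → ℂ) = p * mP χ)
    (hH : ((p * q : ℕ) : ℂ) * (1 + ∑ χ ∈ K, (mP χ : ℂ) * conj ((χ : G → ℂ) τ))
          = (Nat.card (Subgroup.centralizer ({τ} : Set G)) : ℂ) * (p : ℂ))
    (hYne : T.Y.Nonempty) :
    ((Nat.card (Subgroup.centralizer ({τ} : Set G)) : ℤ)
        = 1 + ∑ i ∈ T.X1, r i ^ 2 + (T.Y.card : ℤ) * κ ^ 2 + ∑ k ∈ K, r k ^ 2) ∧
    ((0 : ℤ) = 1 + (1 + (n : ℤ) * p) * ∑ i ∈ T.X1, r i + (T.Y.card : ℤ) * κ * (f : ℤ)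
      + p * ∑ k ∈ K, r k * (mP k : ℤ)) ∧
    (T.ε * κ = 1 + ∑ i ∈ T.X1, r i) ∧
    ((q : ℤ) * (1 + ∑ k ∈ K, (mP k : ℤ) * r k)
      = (Nat.card (Subgroup.centralizer ({τ} : Set G)) : ℤ)) := by
  classical
  have hp := (Fact.out : p.Prime)
  obtain ⟨hττ, hτinv, hτ1⟩ := bra_inv_facts τ hτ
  obtain ⟨θ0, hθ0⟩ := hYne
  have hτ_not_dvd : ¬ p ∣ orderOf τ := by
    rw [hτ]
    intro h
    exact hodd ((Nat.prime_dvd_prime_iff_eq hp Nat.prime_two).mp h)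
  have hdeg : ∀ χ : IrrCharacter G, (χ : G → ℂ) 1 = (charDegree (χ : G → ℂ) : ℂ) := fun χ =>
    Helper79.isCharacter_one_eq_charDegree (Helper79.irr_isCharacter χ)
  have htriv_deg : charDegree (Helper81.trivIrr G : G → ℂ) = 1 := by
    have := hdeg (Helper81.trivIrr G)
    rw [Helper81.trivIrr_apply] at this
    exact_mod_cast this.symm
  have hr_triv : r (Helper81.trivIrr G) = 1 := by
    have := hr (Helper81.trivIrr G)
    rw [Helper81.trivIrr_apply] at this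
    exact_mod_cast this.symm
  refine ⟨?_, ?_, ?_, ?_⟩
  · -- E2
    have h1 := Helper80.irr_finsum_column_orthogonality_of_isConj (IsConj.refl τ)
    rw [Helper8.br_sum_split T K hK] at h1
    simp only [hr, map_intCast] at h1
    have h2 : r (Helper81.trivIrr G) * r (Helper81.trivIrr G) + ∑ χ ∈ T.X1, r χ * r χ
        + ∑ χ ∈ T.X2, r χ * r χ + ∑ χ ∈ T.Y, r χ * r χ + ∑ χ ∈ K, r χ * r χ
        = (Nat.card (Subgroup.centralizer ({τ} : Set G)) : ℤ) := by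
      exact_mod_cast h1
    have hsX2 : ∑ χ ∈ T.X2, r χ * r χ = 0 :=
      Finset.sum_eq_zero (fun χ hχ => by rw [hrX2 χ hχ]; ring)
    have hsY : ∑ χ ∈ T.Y, r χ * r χ = (T.Y.card : ℤ) * κ ^ 2 := by
      rw [Finset.sum_congr rfl (fun χ hχ => by rw [hrY χ hχ]), Finset.sum_const,
        nsmul_eq_mul]
      ring
    have hsX1 : ∑ χ ∈ T.X1, r χ * r χ = ∑ i ∈ T.X1, r i ^ 2 :=
      Finset.sum_congr rfl (fun _ _ => by ring)
    have hsK : ∑ χ ∈ K, r χ * r χ = ∑ i ∈ K, r i ^ 2 :=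
      Finset.sum_congr rfl (fun _ _ => by ring)
    rw [hr_triv, hsX2, hsY, hsX1, hsK] at h2
    linarith
  · -- E3
    have hne : ¬ IsConj τ 1 := by
      rw [isConj_one_left]
      exact hτ1
    have h1 := Helper80.irr_finsum_column_orthogonality_of_not_isConj hne
    rw [Helper8.br_sum_split T K hK] at h1
    simp only [hr, hdeg, Complex.conj_natCast] at h1
    have h2 : r (Helper81.trivIrr G) * (charDegree (Helper81.trivIrr G : G → ℂ) : ℤ)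
        + ∑ χ ∈ T.X1, r χ * (charDegree (χ : G → ℂ) : ℤ)
        + ∑ χ ∈ T.X2, r χ * (charDegree (χ : G → ℂ) : ℤ)
        + ∑ χ ∈ T.Y, r χ * (charDegree (χ : G → ℂ) : ℤ)
        + ∑ χ ∈ K, r χ * (charDegree (χ : G → ℂ) : ℤ) = 0 := by
      exact_mod_cast h1
    have hsX1 : ∑ χ ∈ T.X1, r χ * (charDegree (χ : G → ℂ) : ℤ)
        = (1 + (n : ℤ) * p) * ∑ i ∈ T.X1, r i := by
      rw [Finset.mul_sum]
      refine Finset.sum_congr rfl (fun χ hχ => ?_)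
      rw [hX1 χ hχ]; push_cast; ring
    have hsX2 : ∑ χ ∈ T.X2, r χ * (charDegree (χ : G → ℂ) : ℤ) = 0 :=
      Finset.sum_eq_zero (fun χ hχ => by rw [hrX2 χ hχ]; ring)
    have hsY : ∑ χ ∈ T.Y, r χ * (charDegree (χ : G → ℂ) : ℤ) = (T.Y.card : ℤ) * κ * (f : ℤ) := by
      rw [Finset.sum_congr rfl (fun χ hχ => by rw [hrY χ hχ, hY χ hχ]),
        Finset.sum_const, nsmul_eq_mul]
      ring
    have hsK : ∑ χ ∈ K, r χ * (charDegree (χ : G → ℂ) : ℤ)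
        = p * ∑ k ∈ K, r k * (mP k : ℤ) := by
      rw [Finset.mul_sum]
      refine Finset.sum_congr rfl (fun χ hχ => ?_)
      rw [hw χ hχ]; push_cast; ring
    rw [hr_triv, htriv_deg, hsX1, hsX2, hsY, hsK] at h2
    push_cast at h2
    linarith
  · -- E4
    have h1 := T.hrel θ0 hθ0 τ hτ_not_dvd
    simp only [hr] at h1
    have h2 : T.ε * r θ0 = 1 + ∑ χ ∈ T.X1, r χ - ∑ χ ∈ T.X2, r χ := by
      exact_mod_cast h1
    have hsX2 : ∑ χ ∈ T.X2, r χ = 0 := Finset.sum_eq_zero hrX2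
    rw [hrY θ0 hθ0, hsX2] at h2
    linarith
  · -- E6
    simp only [hr, map_intCast] at hH
    have h2 : ((p * q : ℕ) : ℤ) * (1 + ∑ χ ∈ K, (mP χ : ℤ) * r χ)
        = (Nat.card (Subgroup.centralizer ({τ} : Set G)) : ℤ) * (p : ℤ) := by
      exact_mod_cast hH
    have hp0 : (p : ℤ) ≠ 0 := by exact_mod_cast hp.ne_zero
    apply mul_left_cancel₀ hp0
    push_cast at h2
    linarith

end Cfsg.Agent.Helper37
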