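import Mathlib
import Cfsg.Agent.Helper89.Stem

set_option autoImplicit false

namespace Cfsg.Agent.Helper37

universe u

theorem co3p3_sq_cube {G : Type*} [Group G] (x : G) (h2 : x * x = 1) (h3 : x ^ 3 = 1) : x = 1 := by
  have h : x ^ 3 = x * x * x := by rw [pow_succ, pow_two]
  rw [h, h2, one_mul] at h3
  exact h3

/-- Piece SPLIT.  `V ⊴ S` of exponent 3, inverted by an involution `z`, `S = V · C_S(z)`;
`a, b, t` as in `Stem.not_dvd_card_ker_of_rank_two` (for `p = 3`), `a, b` centralising `z`;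
`27 |V|` does not divide `|S|`.  Then a central extension `σ : Y → S` with kernel of exponent 3
inside `[Y, Y]`, in which the preimage of `V` is abelian, has trivial kernel. -/
theorem p3_split {S : Type u} [Group S] [Finite S] (V : Subgroup S) [V.Normal]
    (z a b t : S)
    (hV3 : ∀ v ∈ V, v ^ 3 = 1)
    (hz : z * z = 1) (hzV : ∀ v ∈ V, z * v * z⁻¹ = v⁻¹)
    (hS : ∀ s : S, ∃ v ∈ V, ∃ c : S, c * z = z * c ∧ s = v * c)
    (ha : a ^ 3 = 1) (hb : b ^ 3 = 1) (ha1 : a ≠ 1) (hba : b ∉ Subgroup.zpowers a)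
    (hab : a * b = b * a) (hta : t * a * t⁻¹ = a⁻¹) (htb : t * b * t⁻¹ = b)
    (haz : a * z = z * a) (hbz : b * z = z * b)
    (hcard : ¬ 3 ^ 3 * Nat.card V ∣ Nat.card S)
    (Y : Type u) [Group Y] [Finite Y] (σ : Y →* S) (hσ : Function.Surjective σ)
    (hker : ∀ y, σ y = 1 → y ∈ Subgroup.center Y ∧ y ^ 3 = 1) (hd : σ.ker ≤ commutator Y)
    (habel : ∀ x y : Y, σ x ∈ V → σ y ∈ V → x * y = y * x) :
    ∀ y, σ y = 1 → y = 1 := by
  classical
  have hVn : V.Normal := inferInstance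
  -- (1) a lift of z of order 2
  obtain ⟨y0, hy0⟩ := hσ z
  have hzh : σ (y0 ^ 3) = z := by
    rw [map_pow, hy0, pow_succ, pow_two, hz, one_mul]
  have hzh2 : y0 ^ 3 * y0 ^ 3 = 1 := by
    have h1 : (y0 * y0) ^ 3 = 1 := (hker (y0 * y0) (by rw [map_mul, hy0, hz])).2
    have h2 : y0 ^ 3 * y0 ^ 3 = (y0 * y0) ^ 3 := ((Commute.refl y0).mul_pow 3).symm
    rw [h2, h1]
  generalize y0 ^ 3 = zh at hzh hzh2
  have hzhinv : zh⁻¹ = zh := inv_eq_of_mul_eq_one_left hzh2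
  -- (2) the subgroup W
  let W : Subgroup Y :=
    { carrier := {x | σ x ∈ V ∧ zh * x * zh⁻¹ = x⁻¹}
      mul_mem' := by
        rintro x y ⟨hx1, hx2⟩ ⟨hy1, hy2⟩
        refine ⟨by rw [map_mul]; exact V.mul_mem hx1 hy1, ?_⟩
        calc zh * (x * y) * zh⁻¹ = (zh * x * zh⁻¹) * (zh * y * zh⁻¹) := by group
          _ = x⁻¹ * y⁻¹ := by rw [hx2, hy2]
          _ = (y * x)⁻¹ := by rw [mul_inv_rev]
          _ = (x * y)⁻¹ := by rw [habel x y hx1 hy1]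
      one_mem' := by
        refine ⟨by rw [map_one]; exact V.one_mem, ?_⟩
        group
      inv_mem' := by
        rintro x ⟨hx1, hx2⟩
        refine ⟨by rw [map_inv]; exact V.inv_mem hx1, ?_⟩
        calc zh * x⁻¹ * zh⁻¹ = (zh * x * zh⁻¹)⁻¹ := by group
          _ = (x⁻¹)⁻¹ := by rw [hx2] }
  have hWmem : ∀ x : Y, x ∈ W ↔ (σ x ∈ V ∧ zh * x * zh⁻¹ = x⁻¹) := fun x => Iff.rfl
  have hWker : ∀ x ∈ W, σ x = 1 → x = 1 := by
    intro x hx hx1
    have hcen := Subgroup.mem_center_iff.mp (hker x hx1).1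
    have h1 : zh * x * zh⁻¹ = x := by rw [hcen zh]; group
    have h2 : x = x⁻¹ := h1.symm.trans ((hWmem x).mp hx).2
    have h3 : x * x = 1 := by
      calc x * x = x * x⁻¹ := by rw [← h2]
        _ = 1 := mul_inv_cancel x
    exact co3p3_sq_cube x h3 (hker x hx1).2
  -- (4) W is normal
  haveI hWn : W.Normal := by
    refine ⟨fun x hx y => ?_⟩
    obtain ⟨hx1, hx2⟩ := (hWmem x).mp hx
    obtain ⟨v, hv, c, hc, hyc⟩ := hS (σ y)
    have hx'V : σ (y * x * y⁻¹) ∈ V := by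
      rw [map_mul, map_mul, map_inv]
      exact hVn.conj_mem _ hx1 _
    have hu : σ (y * zh * y⁻¹ * zh⁻¹) ∈ V := by
      have e1 : σ (y * zh * y⁻¹ * zh⁻¹) = v * (z * v⁻¹ * z⁻¹) := by
        simp only [map_mul, map_inv, hzh, hyc]
        have h3 : c * z * c⁻¹ = z := by rw [hc]; group
        calc v * c * z * (v * c)⁻¹ * z⁻¹ = v * (c * z * c⁻¹) * v⁻¹ * z⁻¹ := by group
          _ = v * (z * v⁻¹ * z⁻¹) := by rw [h3]; group
      rw [e1, hzV v⁻¹ (V.inv_mem hv), inv_inv]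
      exact V.mul_mem hv hv
    have hq : σ (zh * (y * x * y⁻¹) * zh⁻¹) ∈ V := by
      rw [map_mul, map_mul, map_inv]
      exact hVn.conj_mem _ hx'V _
    have key : (y * zh * y⁻¹ * zh⁻¹) * (zh * (y * x * y⁻¹) * zh⁻¹) * (y * zh * y⁻¹ * zh⁻¹)⁻¹
        = (y * x * y⁻¹)⁻¹ := by
      calc (y * zh * y⁻¹ * zh⁻¹) * (zh * (y * x * y⁻¹) * zh⁻¹) * (y * zh * y⁻¹ * zh⁻¹)⁻¹
          = y * (zh * x * zh⁻¹) * y⁻¹ := by group
        _ = (y * x * y⁻¹)⁻¹ := by rw [hx2]; group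
    have hcomm := habel _ _ hu hq
    refine (hWmem _).mpr ⟨hx'V, ?_⟩
    calc zh * (y * x * y⁻¹) * zh⁻¹
        = (zh * (y * x * y⁻¹) * zh⁻¹) * (y * zh * y⁻¹ * zh⁻¹) * (y * zh * y⁻¹ * zh⁻¹)⁻¹ := by group
      _ = (y * zh * y⁻¹ * zh⁻¹) * (zh * (y * x * y⁻¹) * zh⁻¹) * (y * zh * y⁻¹ * zh⁻¹)⁻¹ := by
          rw [hcomm]
      _ = (y * x * y⁻¹)⁻¹ := key
  -- (3) W covers V
  have hAux : ∀ A : Y, ∀ v ∈ V, σ A = v * v →
      (A * zh * A⁻¹ * zh⁻¹ ∈ W ∧ σ (A * zh * A⁻¹ * zh⁻¹) = v) := by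
    intro A v hv hA
    have hvv : v * v ∈ V := V.mul_mem hv hv
    have hσw : σ (A * zh * A⁻¹ * zh⁻¹) = v := by
      have e : σ (A * zh * A⁻¹ * zh⁻¹) = v * v * (z * (v * v)⁻¹ * z⁻¹) := by
        simp only [map_mul, map_inv, hzh, hA, mul_assoc]
      rw [e, hzV _ (V.inv_mem hvv), inv_inv]
      have h4 : v * v * (v * v) = v ^ 3 * v := by
        rw [pow_succ, pow_two]; simp only [mul_assoc]
      rw [h4, hV3 _ hv, one_mul]
    refine ⟨(hWmem _).mpr ⟨by rw [hσw]; exact hv, ?_⟩, hσw⟩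
    rw [hzhinv]
    have e1 : (A * zh * A⁻¹ * zh)⁻¹ = zh⁻¹ * A * zh⁻¹ * A⁻¹ := by group
    rw [e1, hzhinv]
    calc zh * (A * zh * A⁻¹ * zh) * zh = zh * A * zh * A⁻¹ * (zh * zh) := by group
      _ = zh * A * zh * A⁻¹ := by rw [hzh2, mul_one]
  have hWsurj : ∀ x : Y, σ x ∈ V → ∃ w ∈ W, ∃ κ : Y, σ κ = 1 ∧ x = w * κ := by
    intro x hx
    obtain ⟨hw, hσw⟩ := hAux (x * x) (σ x) hx (map_mul σ x x)
    refine ⟨_, hw, ((x * x) * zh * (x * x)⁻¹ * zh⁻¹)⁻¹ * x, ?_, ?_⟩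
    · rw [map_mul, map_inv, hσw, inv_mul_cancel]
    · rw [mul_inv_cancel_left]
  -- (5) the induced map
  let τ : Y ⧸ W →* S ⧸ V := QuotientGroup.map W V σ (fun x hx => ((hWmem x).mp hx).1)
  have hτmk : ∀ y : Y, τ (QuotientGroup.mk y) = QuotientGroup.mk (σ y) := fun y => rfl
  have hτsurj : Function.Surjective τ := by
    intro q
    obtain ⟨s, rfl⟩ := QuotientGroup.mk_surjective q
    obtain ⟨y, rfl⟩ := hσ s
    exact ⟨QuotientGroup.mk y, rfl⟩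
  have hkerτ : ∀ q ∈ τ.ker, ∃ κ : Y, σ κ = 1 ∧ q = QuotientGroup.mk κ := by
    intro q hq
    obtain ⟨x, rfl⟩ := QuotientGroup.mk_surjective q
    rw [MonoidHom.mem_ker, hτmk] at hq
    have hxV : σ x ∈ V := (QuotientGroup.eq_one_iff _).mp hq
    obtain ⟨w, hw, κ, hκ, rfl⟩ := hWsurj x hxV
    refine ⟨κ, hκ, ?_⟩
    rw [QuotientGroup.mk_mul, (QuotientGroup.eq_one_iff w).mpr hw, one_mul]
  have hc : τ.ker ≤ Subgroup.center (Y ⧸ W) := by
    intro q hq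
    obtain ⟨κ, hκ, rfl⟩ := hkerτ q hq
    rw [Subgroup.mem_center_iff]
    intro g
    obtain ⟨g', rfl⟩ := QuotientGroup.mk_surjective g
    rw [← QuotientGroup.mk_mul, ← QuotientGroup.mk_mul,
      Subgroup.mem_center_iff.mp (hker κ hκ).1 g']
  have hd' : τ.ker ≤ commutator (Y ⧸ W) := by
    intro q hq
    obtain ⟨κ, hκ, rfl⟩ := hkerτ q hq
    have h1 : κ ∈ commutator Y := hd (MonoidHom.mem_ker.mpr hκ)
    have hmap : (commutator Y).map (QuotientGroup.mk' W) ≤ commutator (Y ⧸ W) := by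
      rw [commutator_def, commutator_def, Subgroup.map_commutator]
      exact Subgroup.commutator_mono le_top le_top
    exact hmap (Subgroup.mem_map_of_mem _ h1)
  -- (6) the stem lemma
  haveI : Fact (Nat.Prime 3) := ⟨Nat.prime_three⟩
  have ha' : (QuotientGroup.mk a : S ⧸ V) ^ 3 = 1 := by
    rw [← QuotientGroup.mk_pow, ha]; rfl
  have hb' : (QuotientGroup.mk b : S ⧸ V) ^ 3 = 1 := by
    rw [← QuotientGroup.mk_pow, hb]; rfl
  have ha1' : (QuotientGroup.mk a : S ⧸ V) ≠ 1 := by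
    intro h
    have haV : a ∈ V := (QuotientGroup.eq_one_iff a).mp h
    have h1 := hzV a haV
    have h2 : z * a * z⁻¹ = a := by rw [← haz]; group
    have h3 : a * a = 1 := by
      calc a * a = a * (z * a * z⁻¹) := by rw [h2]
        _ = a * a⁻¹ := by rw [h1]
        _ = 1 := mul_inv_cancel a
    exact ha1 (co3p3_sq_cube a h3 ha)
  have hba' : (QuotientGroup.mk b : S ⧸ V) ∉ Subgroup.zpowers (QuotientGroup.mk a : S ⧸ V) := by
    intro h
    obtain ⟨n, hn⟩ := Subgroup.mem_zpowers_iff.mp h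
    have h0 : (QuotientGroup.mk (a ^ n) : S ⧸ V) = QuotientGroup.mk b := by
      rw [QuotientGroup.mk_zpow]; exact hn
    have hcV : (a ^ n)⁻¹ * b ∈ V := QuotientGroup.eq.mp h0
    have hza : Commute z a := haz.symm
    have hzb : Commute z b := hbz.symm
    have hzc : Commute z ((a ^ n)⁻¹ * b) := ((hza.zpow_right n).inv_right).mul_right hzb
    have h1 := hzV _ hcV
    have h2 : z * ((a ^ n)⁻¹ * b) * z⁻¹ = (a ^ n)⁻¹ * b := by rw [hzc.eq]; group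
    have h3 : ((a ^ n)⁻¹ * b) * ((a ^ n)⁻¹ * b) = 1 := by
      calc ((a ^ n)⁻¹ * b) * ((a ^ n)⁻¹ * b)
          = ((a ^ n)⁻¹ * b) * (z * ((a ^ n)⁻¹ * b) * z⁻¹) := by rw [h2]
        _ = ((a ^ n)⁻¹ * b) * ((a ^ n)⁻¹ * b)⁻¹ := by rw [h1]
        _ = 1 := mul_inv_cancel _
    have h4 : (a ^ n)⁻¹ * b = 1 := co3p3_sq_cube _ h3 (hV3 _ hcV)
    have h5 : a ^ n = b := inv_mul_eq_one.mp h4
    exact hba (Subgroup.mem_zpowers_iff.mpr ⟨n, h5⟩)
  have hab' : (QuotientGroup.mk a : S ⧸ V) * QuotientGroup.mk b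
      = QuotientGroup.mk b * QuotientGroup.mk a := by
    rw [← QuotientGroup.mk_mul, ← QuotientGroup.mk_mul, hab]
  have hta' : (QuotientGroup.mk t : S ⧸ V) * QuotientGroup.mk a * (QuotientGroup.mk t)⁻¹
      = (QuotientGroup.mk a)⁻¹ := by
    rw [← QuotientGroup.mk_inv, ← QuotientGroup.mk_mul, ← QuotientGroup.mk_mul, hta]; rfl
  have htb' : (QuotientGroup.mk t : S ⧸ V) * QuotientGroup.mk b * (QuotientGroup.mk t)⁻¹
      = QuotientGroup.mk b := by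
    rw [← QuotientGroup.mk_inv, ← QuotientGroup.mk_mul, ← QuotientGroup.mk_mul, htb]
  have hG : ¬ 3 ^ 3 ∣ Nat.card (S ⧸ V) := by
    intro h
    apply hcard
    rw [Subgroup.card_eq_card_quotient_mul_card_subgroup V]
    exact Nat.mul_dvd_mul_right h _
  have hnd := Cfsg.Agent.Helper89.Stem.not_dvd_card_ker_of_rank_two τ hτsurj hc hd' 3
    (by decide) (QuotientGroup.mk a : S ⧸ V) (QuotientGroup.mk b) (QuotientGroup.mk t)
    ha' hb' ha1' hba' hab' hta' htb' hG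
  -- (7) conclusion
  intro y hy
  by_contra hne
  apply hnd
  have hyk : (QuotientGroup.mk y : Y ⧸ W) ∈ τ.ker := by
    rw [MonoidHom.mem_ker, hτmk, hy]; rfl
  have hyne : (QuotientGroup.mk y : Y ⧸ W) ≠ 1 :=
    fun h => hne (hWker y ((QuotientGroup.eq_one_iff y).mp h) hy)
  have hy3 : (QuotientGroup.mk y : Y ⧸ W) ^ 3 = 1 := by
    rw [← QuotientGroup.mk_pow, (hker y hy).2]; rfl
  have ho : orderOf (⟨QuotientGroup.mk y, hyk⟩ : τ.ker) = 3 :=
    orderOf_eq_prime (Subtype.ext hy3) (fun h => hyne (congrArg Subtype.val h))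
  rw [← ho]
  exact orderOf_dvd_natCard _

end Cfsg.Agent.Helper37
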