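-- helper37 library: piece BAD5S of helper69's CALL S6002.
import Mathlib
import Cfsg.Prelude.Def_GeometricClasses
import Cfsg.Prelude.Def_LieClassical
import Cfsg.Agent.Helper69.E4Def
import Cfsg.Agent.Helper69.E5Def
import Cfsg.Agent.Helper11.E5SPMAT

set_option autoImplicit false

namespace Cfsg.Agent.Helper37
open Cfsg.Agent.Helper69
open scoped Matrix

/-- a `2 × 2` matrix acting on the hyperbolic plane `(inl 0, inr 0)`, identity on
`(inl 1, inr 1)` -/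
def e5Emb {F : Type*} [Field F] (c : Matrix (Fin 2) (Fin 2) F) :
    Matrix (Fin 2 ⊕ Fin 2) (Fin 2 ⊕ Fin 2) F :=
  Matrix.fromBlocks !![c 0 0, 0; 0, 1] !![c 0 1, 0; 0, 0] !![c 1 0, 0; 0, 0] !![c 1 1, 0; 0, 1]

theorem e5Emb_mul {F : Type*} [Field F] (c d : Matrix (Fin 2) (Fin 2) F) :
    e5Emb (c * d) = e5Emb c * e5Emb d := by
  unfold e5Emb
  rw [Matrix.fromBlocks_multiply]
  congr 1 <;>
  · ext i j
    fin_cases i <;> fin_cases j <;> simp [Matrix.mul_apply, Fin.sum_univ_two]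

theorem e5Emb_one {F : Type*} [Field F] : e5Emb (1 : Matrix (Fin 2) (Fin 2) F) = 1 := by
  unfold e5Emb
  rw [← Matrix.fromBlocks_one]
  congr 1 <;>
  · ext i j
    fin_cases i <;> fin_cases j <;> simp

theorem e5Emb_pow {F : Type*} [Field F] (c : Matrix (Fin 2) (Fin 2) F) (k : ℕ) :
    e5Emb c ^ k = e5Emb (c ^ k) := by
  induction k with
  | zero => rw [pow_zero, pow_zero, e5Emb_one]
  | succ k ih => rw [pow_succ, pow_succ, ih, e5Emb_mul]

theorem e5Emb_symp {F : Type*} [Field F] (c : Matrix (Fin 2) (Fin 2) F)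
    (hdet : c 0 0 * c 1 1 - c 0 1 * c 1 0 = 1) :
    (e5Emb c)ᵀ * Matrix.J (Fin 2) F * e5Emb c = Matrix.J (Fin 2) F := by
  unfold e5Emb Matrix.J
  rw [Matrix.fromBlocks_transpose, Matrix.fromBlocks_multiply, Matrix.fromBlocks_multiply]
  congr 1 <;>
  · ext i j
    fin_cases i <;> fin_cases j <;> simp [Matrix.mul_apply, Fin.sum_univ_two] <;>
      first | linear_combination hdet | linear_combination -hdet | ring

theorem e5Emb_trace {F : Type*} [Field F] (c : Matrix (Fin 2) (Fin 2) F) :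
    (e5Emb c).trace = c 0 0 + c 1 1 + 2 := by
  unfold e5Emb
  simp [Matrix.trace, Fintype.sum_sum_type, Fin.sum_univ_two]
  ring

theorem e5Emb_ne_scalar {F : Type*} [Field F] (c : Matrix (Fin 2) (Fin 2) F) (h01 : c 0 1 ≠ 0)
    (s : F) : e5Emb c ≠ s • 1 := by
  intro h
  have h1 := congrFun (congrFun h (Sum.inl 0)) (Sum.inr 0)
  simp [e5Emb] at h1
  exact h01 h1

/-- the element of `GL` with matrix `e5Emb c`, for `c * ci = 1` -/
def e5EmbGL {F : Type*} [Field F] (c ci : Matrix (Fin 2) (Fin 2) F) (h1 : c * ci = 1)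
    (h2 : ci * c = 1) : GL (Fin 2 ⊕ Fin 2) F :=
  ⟨e5Emb c, e5Emb ci, by rw [← e5Emb_mul, h1, e5Emb_one], by rw [← e5Emb_mul, h2, e5Emb_one]⟩

theorem e5_bad_five_golden {F : Type*} [Field F] (h5 : (5 : F) ≠ 0) (t : F)
    (ht : t ^ 2 + t - 1 = 0) :
    ∃ x : GL (Fin 2 ⊕ Fin 2) F, x ∈ Cfsg.spGL 2 F ∧ x ^ 5 = 1 ∧
      (∀ c : F, (x : Matrix (Fin 2 ⊕ Fin 2) (Fin 2 ⊕ Fin 2) F) ≠ c • 1) ∧
      (x : Matrix (Fin 2 ⊕ Fin 2) (Fin 2 ⊕ Fin 2) F).trace *
        ((x⁻¹ : GL (Fin 2 ⊕ Fin 2) F) : Matrix (Fin 2 ⊕ Fin 2) (Fin 2 ⊕ Fin 2) F).trace ≠ 1 := by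
  have ht' : t ^ 2 = 1 - t := by linear_combination ht
  have h1 : (!![0, -1; 1, t] : Matrix (Fin 2) (Fin 2) F) * !![t, 1; -1, 0] = 1 := by
    ext i j
    fin_cases i <;> fin_cases j <;> simp [Matrix.mul_apply, Fin.sum_univ_two]
  have h2 : (!![t, 1; -1, 0] : Matrix (Fin 2) (Fin 2) F) * !![0, -1; 1, t] = 1 := by
    ext i j
    fin_cases i <;> fin_cases j <;> simp [Matrix.mul_apply, Fin.sum_univ_two]
  have hc2 : (!![0, -1; 1, t] : Matrix (Fin 2) (Fin 2) F) ^ 2 = !![-1, -t; t, -t] := by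
    ext i j
    fin_cases i <;> fin_cases j <;>
      simp [pow_succ, Matrix.mul_apply, Fin.sum_univ_two] <;>
      (try ring_nf) <;> (try simp only [ht']) <;> (try ring)
  have hc4 : (!![-1, -t; t, -t] : Matrix (Fin 2) (Fin 2) F) ^ 2 = !![t, 1; -1, 0] := by
    ext i j
    fin_cases i <;> fin_cases j <;>
      simp [pow_succ, Matrix.mul_apply, Fin.sum_univ_two] <;>
      (try ring_nf) <;> (try simp only [ht']) <;> (try ring)
  have hc5 : (!![0, -1; 1, t] : Matrix (Fin 2) (Fin 2) F) ^ 5 = 1 := by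
    have h5' : ∀ M : Matrix (Fin 2) (Fin 2) F, M ^ 5 = (M ^ 2) ^ 2 * M := by
      intro M
      rw [← pow_mul, ← pow_succ]
    rw [h5', hc2, hc4, h2]
  refine ⟨e5EmbGL _ _ h1 h2, ?_, ?_, ?_, ?_⟩
  · rw [Cfsg.Agent.Helper11.e5_mem_spGL_iff]
    exact e5Emb_symp _ (by simp)
  · apply Units.ext
    rw [Units.val_pow_eq_pow_val]
    show e5Emb _ ^ 5 = 1
    rw [e5Emb_pow, hc5, e5Emb_one]
  · intro c
    exact e5Emb_ne_scalar _ (by simp) c
  · show (e5Emb _).trace * (e5Emb _).trace ≠ 1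
    rw [e5Emb_trace, e5Emb_trace]
    intro h
    simp at h
    apply h5
    linear_combination (3 * t - 1) * h - (3 * t - 1) * ht - 9 * ht

theorem e5_bad_five_char {F : Type*} [Field F] (h5 : (5 : F) = 0) :
    ∃ x : GL (Fin 2 ⊕ Fin 2) F, x ∈ Cfsg.spGL 2 F ∧ x ^ 5 = 1 ∧
      (∀ c : F, (x : Matrix (Fin 2 ⊕ Fin 2) (Fin 2 ⊕ Fin 2) F) ≠ c • 1) ∧
      ∃ (μ : F) (u w : Fin 2 ⊕ Fin 2 → F),
        (x : Matrix (Fin 2 ⊕ Fin 2) (Fin 2 ⊕ Fin 2) F) = μ • 1 + Matrix.vecMulVec u w := by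
  have h1 : (!![1, 1; 0, 1] : Matrix (Fin 2) (Fin 2) F) * !![1, -1; 0, 1] = 1 := by
    ext i j
    fin_cases i <;> fin_cases j <;> simp [Matrix.mul_apply, Fin.sum_univ_two]
  have h2 : (!![1, -1; 0, 1] : Matrix (Fin 2) (Fin 2) F) * !![1, 1; 0, 1] = 1 := by
    ext i j
    fin_cases i <;> fin_cases j <;> simp [Matrix.mul_apply, Fin.sum_univ_two]
  have hpow : ∀ k : ℕ, (!![1, 1; 0, 1] : Matrix (Fin 2) (Fin 2) F) ^ k = !![1, (k : F); 0, 1] := by
    intro k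
    induction k with
    | zero =>
      ext i j
      fin_cases i <;> fin_cases j <;> simp
    | succ k ih =>
      rw [pow_succ, ih]
      ext i j
      fin_cases i <;> fin_cases j <;> simp [Matrix.mul_apply, Fin.sum_univ_two] <;> ring
  have hc5 : (!![1, 1; 0, 1] : Matrix (Fin 2) (Fin 2) F) ^ 5 = 1 := by
    rw [hpow]
    ext i j
    fin_cases i <;> fin_cases j <;> simp [h5]
  refine ⟨e5EmbGL _ _ h1 h2, ?_, ?_, ?_, ?_⟩
  · rw [Cfsg.Agent.Helper11.e5_mem_spGL_iff]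
    exact e5Emb_symp _ (by simp)
  · apply Units.ext
    rw [Units.val_pow_eq_pow_val]
    show e5Emb _ ^ 5 = 1
    rw [e5Emb_pow, hc5, e5Emb_one]
  · intro c
    exact e5Emb_ne_scalar _ (by simp) c
  · refine ⟨1, Pi.single (Sum.inl 0) 1, Pi.single (Sum.inr 0) 1, ?_⟩
    show e5Emb _ = _
    ext i j
    fin_cases i <;> fin_cases j <;>
      simp [e5Emb, Matrix.vecMulVec_apply]

end Cfsg.Agent.Helper37
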