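import Mathlib
import Cfsg.Prelude.Def_GeometricClasses
import Cfsg.Agent.Helper37.Sq4

set_option autoImplicit false

namespace Cfsg.Agent.Helper37

open Matrix Module Cfsg.Geo

universe u

variable {F : Type u} [Field F] {n : ℕ}

/-- a field subalgebra of dimension two is spanned by `1` and a non-scalar element -/
theorem fk_span (K : Subalgebra F (Matrix (Fin n) (Fin n) F)) (hK : IsFieldSubalgebra 2 K) :
    ∃ w ∈ K, (∀ a : F, w ≠ a • (1 : Matrix (Fin n) (Fin n) F)) ∧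
      ∀ k ∈ K, ∃ a b : F, k = a • (1 : Matrix (Fin n) (Fin n) F) + b • w := by
  have h2 : finrank F (Subalgebra.toSubmodule K) = 2 := hK.finrank_eq
  have hex : ∃ w ∈ K, ∀ a : F, w ≠ a • (1 : Matrix (Fin n) (Fin n) F) := by
    by_contra hcon
    push Not at hcon
    have hle : Subalgebra.toSubmodule K ≤ Submodule.span F {(1 : Matrix (Fin n) (Fin n) F)} := by
      intro k hk
      obtain ⟨a, ha⟩ := hcon k hk
      rw [Submodule.mem_span_singleton]
      exact ⟨a, ha.symm⟩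
    have h3 := Submodule.finrank_mono hle
    have h4 := finrank_span_le_card (R := F) ({(1 : Matrix (Fin n) (Fin n) F)} : Set _)
    simp at h4
    omega
  obtain ⟨w, hwK, hwns⟩ := hex
  refine ⟨w, hwK, hwns, ?_⟩
  have hli : LinearIndependent F ![(1 : Matrix (Fin n) (Fin n) F), w] := by
    rw [LinearIndependent.pair_iff]
    intro s t hst
    have ht : t = 0 := by
      by_contra ht
      apply hwns (-s / t)
      have h5 : t • w = -(s • (1 : Matrix (Fin n) (Fin n) F)) := eq_neg_of_add_eq_zero_right hst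
      have h6 : w = t⁻¹ • (t • w) := by rw [smul_smul, inv_mul_cancel₀ ht, one_smul]
      rw [h6, h5, smul_neg, smul_smul, ← neg_smul]
      congr 1
      field_simp
    refine ⟨?_, ht⟩
    by_contra hs
    rw [ht, zero_smul, add_zero] at hst
    have h1 : (1 : Matrix (Fin n) (Fin n) F) = 0 := by
      have h6 : (1 : Matrix (Fin n) (Fin n) F) = s⁻¹ • (s • (1 : Matrix (Fin n) (Fin n) F)) := by
        rw [smul_smul, inv_mul_cancel₀ hs, one_smul]
      rw [h6, hst, smul_zero]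
    apply hwns 0
    rw [zero_smul, ← Matrix.mul_one w, h1, Matrix.mul_zero]
  have hle : Submodule.span F (Set.range ![(1 : Matrix (Fin n) (Fin n) F), w]) ≤
      Subalgebra.toSubmodule K := by
    rw [Submodule.span_le]
    rintro _ ⟨i, rfl⟩
    fin_cases i
    · exact K.one_mem
    · exact hwK
  have heq := Submodule.eq_of_le_of_finrank_eq hle (by
    rw [finrank_span_eq_card hli, h2, Fintype.card_fin])
  intro k hk
  have hk' : k ∈ Submodule.span F (Set.range ![(1 : Matrix (Fin n) (Fin n) F), w]) := by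
    rw [heq]
    exact hk
  rw [Submodule.mem_span_range_iff_exists_fun] at hk'
  obtain ⟨c, hc⟩ := hk'
  refine ⟨c 0, c 1, ?_⟩
  rw [← hc, Fin.sum_univ_two]
  rfl

/-- membership in the normaliser from the images of a generator -/
theorem fk_norm_of (K : Subalgebra F (Matrix (Fin n) (Fin n) F)) (w : Matrix (Fin n) (Fin n) F)
    (hspan : ∀ k ∈ K, ∃ a b : F, k = a • (1 : Matrix (Fin n) (Fin n) F) + b • w)
    (g : GL (Fin n) F) (h1 : g.val * w * (g⁻¹ : GL (Fin n) F).val ∈ K)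
    (h2 : (g⁻¹ : GL (Fin n) F).val * w * g.val ∈ K) : g ∈ subalgebraNormalizer K := by
  have hgi : g.val * (g⁻¹ : GL (Fin n) F).val = 1 := Units.mul_inv g
  have hig : (g⁻¹ : GL (Fin n) F).val * g.val = 1 := Units.inv_mul g
  show ∀ k : Matrix (Fin n) (Fin n) F, k ∈ K ↔ g.val * k * (g⁻¹ : GL (Fin n) F).val ∈ K
  intro k
  constructor
  · intro hk
    obtain ⟨a, b, rfl⟩ := hspan k hk
    have h3 : g.val * (a • (1 : Matrix (Fin n) (Fin n) F) + b • w) * (g⁻¹ : GL (Fin n) F).val =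
        a • (1 : Matrix (Fin n) (Fin n) F) + b • (g.val * w * (g⁻¹ : GL (Fin n) F).val) := by
      rw [mul_add, add_mul, Matrix.mul_smul, Matrix.smul_mul, Matrix.mul_one, hgi, Matrix.mul_smul,
        Matrix.smul_mul]
    rw [h3]
    exact K.add_mem (K.smul_mem K.one_mem a) (K.smul_mem h1 b)
  · intro hk
    obtain ⟨a, b, hab⟩ := hspan _ hk
    have h3 : k = (g⁻¹ : GL (Fin n) F).val * (g.val * k * (g⁻¹ : GL (Fin n) F).val) * g.val := by
      rw [Matrix.mul_assoc, Matrix.mul_assoc, hig, Matrix.mul_one, ← Matrix.mul_assoc, hig,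
        Matrix.one_mul]
    have h4 : k = a • (1 : Matrix (Fin n) (Fin n) F) +
        b • ((g⁻¹ : GL (Fin n) F).val * w * g.val) := by
      rw [h3, hab, mul_add, add_mul, Matrix.mul_smul, Matrix.smul_mul, Matrix.mul_one, hig,
        Matrix.mul_smul, Matrix.smul_mul]
    rw [h4]
    exact K.add_mem (K.smul_mem K.one_mem a) (K.smul_mem h2 b)

theorem fk_vmv_mulVec (u v ξ : Fin n → F) : Matrix.vecMulVec u v *ᵥ ξ = (v ⬝ᵥ ξ) • u := by
  funext i
  simp only [Matrix.mulVec, dotProduct, Matrix.vecMulVec_apply, Pi.smul_apply, smul_eq_mul,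
    Finset.sum_mul]
  apply Finset.sum_congr rfl
  intro j _
  ring

/-- `c (1 + u vᵀ)` does not normalise a field subalgebra of dimension two when `n ≥ 3` -/
theorem fk_rank1 (K : Subalgebra F (Matrix (Fin n) (Fin n) F)) (hK : IsFieldSubalgebra 2 K)
    (hn : 3 ≤ n) (g : GL (Fin n) F) (c : F) (u v : Fin n → F) (hu : u ≠ 0) (hv : v ≠ 0)
    (hg : g.val = c • (1 + Matrix.vecMulVec u v)) : g ∉ subalgebraNormalizer K := by
  classical
  intro hmem
  obtain ⟨w, hwK, hwns, hspan⟩ := fk_span K hK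
  have hgi : g.val * (g⁻¹ : GL (Fin n) F).val = 1 := Units.mul_inv g
  have hig : (g⁻¹ : GL (Fin n) F).val * g.val = 1 := Units.inv_mul g
  haveI : Nonempty (Fin n) := ⟨⟨0, by omega⟩⟩
  have hc : c ≠ 0 := by
    rintro rfl
    rw [zero_smul] at hg
    rw [hg, Matrix.zero_mul] at hgi
    exact zero_ne_one hgi
  obtain ⟨G, hG⟩ : ∃ G : Matrix (Fin n) (Fin n) F, G = 1 + Matrix.vecMulVec u v := ⟨_, rfl⟩
  have hGg : G = c⁻¹ • g.val := by rw [hg, smul_smul, inv_mul_cancel₀ hc, one_smul, hG]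
  have hconj : ∀ k ∈ K, ∃ k' ∈ K, G * k = k' * G := by
    intro k hk
    have h1 : g.val * k * (g⁻¹ : GL (Fin n) F).val ∈ K := (hmem k).mp hk
    refine ⟨_, h1, ?_⟩
    rw [hGg, Matrix.mul_smul, Matrix.smul_mul, Matrix.mul_assoc (g.val * k), hig, Matrix.mul_one]
  have hker : ∀ v₂ : Fin n → F, ∃ ξ : Fin n → F, ξ ≠ 0 ∧ v ⬝ᵥ ξ = 0 ∧ v₂ ⬝ᵥ ξ = 0 := by
    intro v₂
    obtain ⟨L, hL⟩ : ∃ L : (Fin n → F) →ₗ[F] (Fin 2 → F),
        L = Matrix.mulVecLin (Matrix.of ![v, v₂]) := ⟨_, rfl⟩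
    have h1 : LinearMap.ker L ≠ ⊥ := by
      apply LinearMap.ker_ne_bot_of_finrank_lt
      rw [finrank_fin_fun, finrank_fin_fun]
      omega
    obtain ⟨ξ, hξ, hξ0⟩ := (Submodule.ne_bot_iff _).mp h1
    refine ⟨ξ, hξ0, ?_, ?_⟩
    · have h3 := congrFun (LinearMap.mem_ker.mp hξ) 0
      rw [hL] at h3
      exact h3
    · have h3 := congrFun (LinearMap.mem_ker.mp hξ) 1
      rw [hL] at h3
      exact h3
  have hcomm : ∀ k ∈ K, G * k = k * G := by
    intro k hk
    obtain ⟨k', hk', hkk'⟩ := hconj k hk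
    by_cases hne : k = k'
    · rw [hkk', ← hne]
    · exfalso
      obtain ⟨y, hyK, hy⟩ := hK.inv (k - k') (K.sub_mem hk hk') (sub_ne_zero.mpr hne)
      have hy' : y * (k - k') = 1 := by
        rw [hK.comm y hyK (k - k') (K.sub_mem hk hk')]
        exact hy
      have h3 : k - k' = k' * Matrix.vecMulVec u v - Matrix.vecMulVec u v * k := by
        rw [hG, add_mul, mul_add, Matrix.one_mul, Matrix.mul_one] at hkk'
        rw [sub_eq_sub_iff_add_eq_add, hkk', add_comm]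
      obtain ⟨ξ, hξ0, hξ1, hξ2⟩ := hker (v ᵥ* k)
      have h4 : (k - k') *ᵥ ξ = 0 := by
        rw [h3, Matrix.sub_mulVec, ← Matrix.mulVec_mulVec, fk_vmv_mulVec, hξ1, zero_smul,
          Matrix.mulVec_zero, Matrix.vecMulVec_mul, fk_vmv_mulVec, hξ2, zero_smul, sub_zero]
      apply hξ0
      have h5 : ξ = (y * (k - k')) *ᵥ ξ := by rw [hy', Matrix.one_mulVec]
      rw [h5, ← Matrix.mulVec_mulVec, h4, Matrix.mulVec_zero]
  obtain ⟨ξ, hξ⟩ : ∃ ξ : Fin n → F, v ⬝ᵥ ξ = 1 := by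
    have h1 : ∃ i, v i ≠ 0 := by
      by_contra hcon
      push Not at hcon
      exact hv (funext hcon)
    obtain ⟨i, hi⟩ := h1
    refine ⟨Pi.single i (v i)⁻¹, ?_⟩
    rw [dotProduct_single, mul_inv_cancel₀ hi]
  have h5 := hcomm w hwK
  rw [hG, add_mul, mul_add, Matrix.one_mul, Matrix.mul_one] at h5
  have h6 : Matrix.vecMulVec u v * w = w * Matrix.vecMulVec u v := add_left_cancel h5
  have h7 := congrArg (fun M : Matrix (Fin n) (Fin n) F => M *ᵥ ξ) h6
  simp only [Matrix.vecMulVec_mul, Matrix.mul_vecMulVec, fk_vmv_mulVec, hξ, one_smul] at h7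
  obtain ⟨lam, hlam⟩ : ∃ lam : F, lam = (v ᵥ* w) ⬝ᵥ ξ := ⟨_, rfl⟩
  rw [← hlam] at h7
  have h8 : w - lam • (1 : Matrix (Fin n) (Fin n) F) ≠ 0 := fun h => hwns lam (sub_eq_zero.mp h)
  obtain ⟨y, hyK, hy⟩ := hK.inv _ (K.sub_mem hwK (K.smul_mem K.one_mem lam)) h8
  have hy' : y * (w - lam • (1 : Matrix (Fin n) (Fin n) F)) = 1 := by
    rw [hK.comm y hyK _ (K.sub_mem hwK (K.smul_mem K.one_mem lam))]
    exact hy
  apply hu
  have h9 : (w - lam • (1 : Matrix (Fin n) (Fin n) F)) *ᵥ u = 0 := by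
    rw [Matrix.sub_mulVec, Matrix.smul_mulVec, Matrix.one_mulVec, ← h7, sub_self]
  have h10 : u = (y * (w - lam • (1 : Matrix (Fin n) (Fin n) F))) *ᵥ u := by
    rw [hy', Matrix.one_mulVec]
  rw [h10, ← Matrix.mulVec_mulVec, h9, Matrix.mulVec_zero]

/-- no `SL`-conjugate of `c (1 + u vᵀ)` normalises a field subalgebra of dimension two -/
theorem fk_bad_conj (K : Subalgebra F (Matrix (Fin n) (Fin n) F)) (hK : IsFieldSubalgebra 2 K)
    (hn : 3 ≤ n) (x : Matrix.SpecialLinearGroup (Fin n) F) (c : F) (u v : Fin n → F)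
    (hu : u ≠ 0) (hv : v ≠ 0) (hx : x.val = c • (1 + Matrix.vecMulVec u v))
    (P : Matrix.SpecialLinearGroup (Fin n) F) :
    P⁻¹ * x * P ∉ (subalgebraNormalizer K).comap (Matrix.SpecialLinearGroup.toGL :
      Matrix.SpecialLinearGroup (Fin n) F →* GL (Fin n) F) := by
  intro hP
  rw [Subgroup.mem_comap] at hP
  have hPP : (P⁻¹ : Matrix.SpecialLinearGroup (Fin n) F).val * P.val = 1 := by
    rw [← Matrix.SpecialLinearGroup.coe_mul, inv_mul_cancel, Matrix.SpecialLinearGroup.coe_one]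
  have hPP' : P.val * (P⁻¹ : Matrix.SpecialLinearGroup (Fin n) F).val = 1 := by
    rw [← Matrix.SpecialLinearGroup.coe_mul, mul_inv_cancel, Matrix.SpecialLinearGroup.coe_one]
  refine fk_rank1 K hK hn _ c ((P⁻¹ : Matrix.SpecialLinearGroup (Fin n) F).val *ᵥ u)
    (v ᵥ* P.val) ?_ ?_ ?_ hP
  · intro h
    apply hu
    have h1 := congrArg (fun ξ => P.val *ᵥ ξ) h
    simp only [Matrix.mulVec_mulVec, hPP', Matrix.one_mulVec, Matrix.mulVec_zero] at h1
    exact h1
  · intro h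
    apply hv
    have h1 := congrArg (fun ξ => ξ ᵥ* (P⁻¹ : Matrix.SpecialLinearGroup (Fin n) F).val) h
    simp only [Matrix.vecMul_vecMul, hPP', Matrix.vecMul_one, Matrix.zero_vecMul] at h1
    exact h1
  · simp only [SpecialLinearGroup.coe_GL_coe_matrix]
    rw [Matrix.SpecialLinearGroup.coe_mul, Matrix.SpecialLinearGroup.coe_mul, hx, Matrix.mul_smul,
      Matrix.smul_mul, mul_add, add_mul, Matrix.mul_one, hPP, Matrix.mul_vecMulVec,
      Matrix.vecMulVec_mul]

end Cfsg.Agent.Helper37
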