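import Mathlib
import Cfsg.Agent.Helper37.Fk1

set_option autoImplicit false

namespace Cfsg.Agent.Helper37

open Matrix Module Cfsg.Geo

universe u

variable {F : Type u} [Field F] {n : ℕ}

/-- transfer for the normaliser of a two-dimensional field subalgebra `K = F[y]`: `y` is conjugate to
`Bd`, `x` is conjugate to `B₁`, and `B₁ Bd B₁⁻¹ = ε Bd + η` -/
theorem fk_transfer (K : Subalgebra F (Matrix (Fin n) (Fin n) F)) (y : Matrix (Fin n) (Fin n) F)
    (hyK : y ∈ K)
    (hspan : ∀ k ∈ K, ∃ a b : F, k = a • (1 : Matrix (Fin n) (Fin n) F) + b • y)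
    (Bd : Matrix (Fin n) (Fin n) F) (P₀ : GL (Fin n) F) (hP₀ : P₀.val * y = Bd * P₀.val)
    (x : Matrix.SpecialLinearGroup (Fin n) F) (B₁ : Matrix (Fin n) (Fin n) F) (P₁ : GL (Fin n) F)
    (hP₁ : P₁.val * x.val = B₁ * P₁.val) (ε η : F) (hε : ε ≠ 0)
    (hrel : B₁ * Bd = (ε • Bd + η • (1 : Matrix (Fin n) (Fin n) F)) * B₁)
    (hcent : ∀ δ : F, δ ≠ 0 → ∃ C : Matrix (Fin n) (Fin n) F, C * B₁ = B₁ * C ∧ C.det = δ) :
    ∃ Q : Matrix.SpecialLinearGroup (Fin n) F, Q⁻¹ * x * Q ∈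
      (subalgebraNormalizer K).comap (Matrix.SpecialLinearGroup.toGL :
        Matrix.SpecialLinearGroup (Fin n) F →* GL (Fin n) F) := by
  classical
  have hP₀det := sq_gl_det_ne P₀
  have hP₁det := sq_gl_det_ne P₁
  obtain ⟨P₀i, hP₀i⟩ : ∃ P₀i : Matrix (Fin n) (Fin n) F, P₀i = (P₀⁻¹ : GL (Fin n) F).val :=
    ⟨_, rfl⟩
  have h01 : P₀.val * P₀i = 1 := by rw [hP₀i]; exact Units.mul_inv P₀
  have h10 : P₀i * P₀.val = 1 := by rw [hP₀i]; exact Units.inv_mul P₀
  have hP₀idet : P₀i.det * P₀.val.det = 1 := by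
    rw [← Matrix.det_mul, h10, Matrix.det_one]
  obtain ⟨C, hCB, hCdet⟩ := hcent (P₀.val.det * (P₁.val.det)⁻¹)
    (mul_ne_zero hP₀det (inv_ne_zero hP₁det))
  obtain ⟨Y, hY⟩ : ∃ Y : Matrix (Fin n) (Fin n) F, Y = P₀i * (C * P₁.val) := ⟨_, rfl⟩
  have hYdet : Y.det = 1 := by
    rw [hY, Matrix.det_mul, Matrix.det_mul, hCdet, mul_assoc (P₀.val.det),
      inv_mul_cancel₀ hP₁det, mul_one, hP₀idet]
  obtain ⟨B', hB'⟩ : ∃ B' : Matrix (Fin n) (Fin n) F, B' = P₀i * B₁ * P₀.val := ⟨_, rfl⟩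
  have hYx : Y * x.val = B' * Y := by
    have e1 : Y * x.val = P₀i * (B₁ * (C * P₁.val)) := by
      rw [hY, Matrix.mul_assoc, Matrix.mul_assoc, hP₁, ← Matrix.mul_assoc C, hCB, Matrix.mul_assoc]
    have e2 : B' * Y = P₀i * (B₁ * ((P₀.val * P₀i) * (C * P₁.val))) := by
      rw [hB', hY]
      simp only [Matrix.mul_assoc]
    rw [e1, e2, h01, Matrix.one_mul]
  have hyB : y = P₀i * Bd * P₀.val := by
    rw [Matrix.mul_assoc, ← hP₀, ← Matrix.mul_assoc, h10, Matrix.one_mul]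
  have hB'y : B' * y = (ε • y + η • (1 : Matrix (Fin n) (Fin n) F)) * B' := by
    have e1 : B' * y = P₀i * (B₁ * Bd) * P₀.val := by
      rw [hB', Matrix.mul_assoc, hP₀]
      simp only [Matrix.mul_assoc]
    have e2 : (ε • y + η • (1 : Matrix (Fin n) (Fin n) F)) * B' =
        P₀i * ((ε • Bd + η • (1 : Matrix (Fin n) (Fin n) F)) * B₁) * P₀.val := by
      rw [hB', hyB]
      have e3 : ε • (P₀i * Bd * P₀.val) + η • (1 : Matrix (Fin n) (Fin n) F) =
          P₀i * (ε • Bd + η • (1 : Matrix (Fin n) (Fin n) F)) * P₀.val := by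
        rw [mul_add, add_mul, Matrix.mul_smul, Matrix.smul_mul, Matrix.mul_smul, Matrix.smul_mul,
          Matrix.mul_one, h10]
      rw [e3]
      have e4 : P₀i * (ε • Bd + η • (1 : Matrix (Fin n) (Fin n) F)) * P₀.val * (P₀i * B₁ * P₀.val) =
          P₀i * ((ε • Bd + η • (1 : Matrix (Fin n) (Fin n) F)) * ((P₀.val * P₀i) * B₁)) * P₀.val := by
        simp only [Matrix.mul_assoc]
      rw [e4, h01, Matrix.one_mul]
    rw [e1, e2, hrel]
  obtain ⟨Ys, hYs⟩ : ∃ Ys : Matrix.SpecialLinearGroup (Fin n) F, Ys.val = Y := ⟨⟨Y, hYdet⟩, rfl⟩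
  refine ⟨Ys⁻¹, ?_⟩
  rw [Subgroup.mem_comap]
  have h2 : Y * (Ys⁻¹).val = 1 := by
    rw [← hYs, ← Matrix.SpecialLinearGroup.coe_mul, mul_inv_cancel,
      Matrix.SpecialLinearGroup.coe_one]
  have h1 : ((Ys⁻¹⁻¹ * x * Ys⁻¹ : Matrix.SpecialLinearGroup (Fin n) F) :
      Matrix (Fin n) (Fin n) F) = B' := by
    rw [inv_inv, Matrix.SpecialLinearGroup.coe_mul, Matrix.SpecialLinearGroup.coe_mul, hYs, hYx,
      Matrix.mul_assoc, h2, Matrix.mul_one]
  obtain ⟨g, hg⟩ : ∃ g : GL (Fin n) F, g = Matrix.SpecialLinearGroup.toGL (Ys⁻¹⁻¹ * x * Ys⁻¹) :=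
    ⟨_, rfl⟩
  rw [← hg]
  have hgv : g.val = B' := by
    rw [hg]
    simp only [SpecialLinearGroup.coe_GL_coe_matrix]
    exact h1
  have hgi : g.val * (g⁻¹ : GL (Fin n) F).val = 1 := Units.mul_inv g
  have hig : (g⁻¹ : GL (Fin n) F).val * g.val = 1 := Units.inv_mul g
  apply fk_norm_of K y hspan g
  · have e1 : g.val * y * (g⁻¹ : GL (Fin n) F).val = ε • y + η • (1 : Matrix (Fin n) (Fin n) F) := by
      rw [hgv, hB'y, ← hgv, Matrix.mul_assoc, hgi, Matrix.mul_one]
    rw [e1]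
    exact K.add_mem (K.smul_mem hyK ε) (K.smul_mem K.one_mem η)
  · have e1 : y * g.val = g.val * (ε⁻¹ • (y - η • (1 : Matrix (Fin n) (Fin n) F))) := by
      rw [Matrix.mul_smul, mul_sub, Matrix.mul_smul, Matrix.mul_one, hgv, hB'y, add_mul,
        Matrix.smul_mul, Matrix.smul_mul, Matrix.one_mul, add_sub_cancel_right, smul_smul,
        inv_mul_cancel₀ hε, one_smul]
    have e2 : (g⁻¹ : GL (Fin n) F).val * y * g.val =
        ε⁻¹ • (y - η • (1 : Matrix (Fin n) (Fin n) F)) := by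
      rw [Matrix.mul_assoc, e1, ← Matrix.mul_assoc, hig, Matrix.one_mul]
    rw [e2]
    exact K.smul_mem (K.sub_mem hyK (K.smul_mem K.one_mem η)) _

/-- odd characteristic: a generator with non-square square -/
theorem fk_odd_gen (h2 : (2 : F) ≠ 0) (K : Subalgebra F (Matrix (Fin n) (Fin n) F))
    (hK : IsFieldSubalgebra 2 K) :
    ∃ y ∈ K, ∃ d : F, ¬ IsSquare d ∧ y * y = d • (1 : Matrix (Fin n) (Fin n) F) ∧
      ∀ k ∈ K, ∃ a b : F, k = a • (1 : Matrix (Fin n) (Fin n) F) + b • y := by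
  obtain ⟨w, hwK, hwns, hspan⟩ := fk_span K hK
  obtain ⟨β, α, hww⟩ := hspan (w * w) (K.mul_mem hwK hwK)
  obtain ⟨y, hy⟩ : ∃ y : Matrix (Fin n) (Fin n) F, y = w - (α / 2) • 1 := ⟨_, rfl⟩
  have hyK : y ∈ K := by
    rw [hy]
    exact K.sub_mem hwK (K.smul_mem K.one_mem _)
  have hwy : w = y + (α / 2) • 1 := by rw [hy, sub_add_cancel]
  have hyy : y * y = (β + α / 2 * (α / 2)) • (1 : Matrix (Fin n) (Fin n) F) := by
    rw [hy, sub_mul, mul_sub, mul_sub, Matrix.mul_smul, Matrix.smul_mul, Matrix.smul_mul,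
      Matrix.mul_smul, Matrix.mul_one, Matrix.one_mul, Matrix.mul_one, hww, smul_smul]
    have e1 : α • w = (α / 2) • w + (α / 2) • w := by
      rw [← add_smul]
      congr 1
      field_simp
      ring
    rw [e1, add_smul]
    abel
  refine ⟨y, hyK, β + α / 2 * (α / 2), ?_, hyy, ?_⟩
  · rintro ⟨s, hs⟩
    have h3 : (y - s • (1 : Matrix (Fin n) (Fin n) F)) * (y + s • 1) = 0 := by
      rw [sub_mul, mul_add, mul_add, Matrix.mul_smul, Matrix.smul_mul, Matrix.smul_mul,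
        Matrix.mul_smul, Matrix.mul_one, Matrix.one_mul, Matrix.mul_one, hyy, hs, smul_smul]
      abel
    by_cases h4 : y - s • (1 : Matrix (Fin n) (Fin n) F) = 0
    · apply hwns (s + α / 2)
      rw [hwy, sub_eq_zero.mp h4, add_smul]
    · obtain ⟨y', hy'K, hy'⟩ := hK.inv _ (K.sub_mem hyK (K.smul_mem K.one_mem s)) h4
      have hy'' : y' * (y - s • (1 : Matrix (Fin n) (Fin n) F)) = 1 := by
        rw [hK.comm y' hy'K _ (K.sub_mem hyK (K.smul_mem K.one_mem s))]
        exact hy'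
      have h5 : y + s • (1 : Matrix (Fin n) (Fin n) F) = 0 := by
        have h6 := congrArg (fun M => y' * M) h3
        simp only [← Matrix.mul_assoc, hy'', Matrix.one_mul, Matrix.mul_zero] at h6
        exact h6
      apply hwns (-s + α / 2)
      rw [hwy, eq_neg_of_add_eq_zero_left h5, add_smul, neg_smul]
  · intro k hk
    obtain ⟨a, b, rfl⟩ := hspan k hk
    refine ⟨a + b * (α / 2), b, ?_⟩
    rw [hwy, smul_add, smul_smul, add_smul]
    abel

/-- diagonal matrices and the standard generator -/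
theorem fk_diag_comm (m : ℕ) (d ε : F) (w : Fin (2 * m) → F)
    (hw : ∀ j : Fin m, w (sqPar m (Sum.inl j)) = ε * w (sqPar m (Sum.inr j)))
    (hw' : ∀ j : Fin m, w (sqPar m (Sum.inr j)) = ε * w (sqPar m (Sum.inl j))) :
    Matrix.diagonal w * Matrix.reindex (sqPar m) (sqPar m)
        (Matrix.fromBlocks (0 : Matrix (Fin m) (Fin m) F) (d • (1 : Matrix (Fin m) (Fin m) F))
          (1 : Matrix (Fin m) (Fin m) F) (0 : Matrix (Fin m) (Fin m) F)) =
      ε • (Matrix.reindex (sqPar m) (sqPar m)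
        (Matrix.fromBlocks (0 : Matrix (Fin m) (Fin m) F) (d • (1 : Matrix (Fin m) (Fin m) F))
          (1 : Matrix (Fin m) (Fin m) F) (0 : Matrix (Fin m) (Fin m) F)) * Matrix.diagonal w) := by
  classical
  have h1 : Matrix.diagonal w = Matrix.reindex (sqPar m) (sqPar m)
      (Matrix.fromBlocks (Matrix.diagonal (fun j => w (sqPar m (Sum.inl j)))) 0 0
        (Matrix.diagonal (fun j => w (sqPar m (Sum.inr j))))) := by
    rw [Matrix.fromBlocks_diagonal, Matrix.reindex_apply, Matrix.submatrix_diagonal_equiv]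
    congr 1
    funext i
    simp only [Function.comp_apply]
    rcases h : (sqPar m).symm i with j | j
    · simp only [Sum.elim_inl]
      rw [← h, Equiv.apply_symm_apply]
    · simp only [Sum.elim_inr]
      rw [← h, Equiv.apply_symm_apply]
  rw [h1, sq_reindex_mul, sq_reindex_mul, Matrix.fromBlocks_multiply, Matrix.fromBlocks_multiply]
  have h3 : (fun j => w (sqPar m (Sum.inl j))) = fun j => ε * w (sqPar m (Sum.inr j)) :=
    funext hw
  have h4 : (fun j => w (sqPar m (Sum.inr j))) = fun j => ε * w (sqPar m (Sum.inl j)) :=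
    funext hw'
  have hblk : Matrix.fromBlocks
      ((Matrix.diagonal fun j => w ((sqPar m) (Sum.inl j))) * 0 + 0 * (1 : Matrix (Fin m) (Fin m) F))
      ((Matrix.diagonal fun j => w ((sqPar m) (Sum.inl j))) * d • (1 : Matrix (Fin m) (Fin m) F) +
        0 * 0)
      (0 * 0 + (Matrix.diagonal fun j => w ((sqPar m) (Sum.inr j))) * (1 : Matrix (Fin m) (Fin m) F))
      (0 * d • (1 : Matrix (Fin m) (Fin m) F) +
        (Matrix.diagonal fun j => w ((sqPar m) (Sum.inr j))) * 0) =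
      ε • Matrix.fromBlocks
        ((0 * Matrix.diagonal fun j => w ((sqPar m) (Sum.inl j))) +
          d • (1 : Matrix (Fin m) (Fin m) F) * 0)
        (0 * 0 + d • (1 : Matrix (Fin m) (Fin m) F) *
          Matrix.diagonal fun j => w ((sqPar m) (Sum.inr j)))
        (((1 : Matrix (Fin m) (Fin m) F) * Matrix.diagonal fun j => w ((sqPar m) (Sum.inl j))) +
          0 * 0)
        ((1 : Matrix (Fin m) (Fin m) F) * 0 +
          0 * Matrix.diagonal fun j => w ((sqPar m) (Sum.inr j))) := by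
    rw [Matrix.fromBlocks_smul]
    simp only [Matrix.mul_zero, Matrix.zero_mul, add_zero, zero_add, Matrix.mul_one, Matrix.one_mul,
      Matrix.mul_smul, Matrix.smul_mul, smul_zero]
    congr 1
    · ext i j
      simp only [Matrix.smul_apply, Matrix.diagonal_apply, smul_eq_mul]
      by_cases hij : i = j
      · subst hij
        simp only [if_true]
        rw [hw i]
        ring
      · simp [hij]
    · ext i j
      simp only [Matrix.smul_apply, Matrix.diagonal_apply, smul_eq_mul]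
      by_cases hij : i = j
      · subst hij
        simp only [if_true]
        rw [hw' i]
      · simp [hij]
  rw [hblk]
  rfl

end Cfsg.Agent.Helper37
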