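import Mathlib
import Cfsg.Agent.Helper37.Fk2

set_option autoImplicit false

namespace Cfsg.Agent.Helper37

open Matrix Module Cfsg.Geo

universe u

variable {F : Type u} [Field F]

/-- the centraliser of the standard generator has all determinants -/
theorem fk_cent_blk [Fintype F] (h2 : (2 : F) ≠ 0) (m : ℕ) (hm : 1 ≤ m) (z : F)
    (hz : ¬ IsSquare z) (δ : F) (hδ : δ ≠ 0) :
    ∃ C : Matrix (Fin (2 * m)) (Fin (2 * m)) F,
      C * Matrix.reindex (sqPar m) (sqPar m)
        (Matrix.fromBlocks (0 : Matrix (Fin m) (Fin m) F) (z • (1 : Matrix (Fin m) (Fin m) F))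
          (1 : Matrix (Fin m) (Fin m) F) (0 : Matrix (Fin m) (Fin m) F)) =
      Matrix.reindex (sqPar m) (sqPar m)
        (Matrix.fromBlocks (0 : Matrix (Fin m) (Fin m) F) (z • (1 : Matrix (Fin m) (Fin m) F))
          (1 : Matrix (Fin m) (Fin m) F) (0 : Matrix (Fin m) (Fin m) F)) * C ∧ C.det = δ := by
  classical
  obtain ⟨α, β, hα, hαβ⟩ := sq_norm_exists h2 z hz δ hδ
  obtain ⟨i₀⟩ : Nonempty (Fin m) := ⟨⟨0, by omega⟩⟩
  obtain ⟨dα, hdα⟩ : ∃ dα : Fin m → F, dα = fun i => if i = i₀ then α else 1 := ⟨_, rfl⟩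
  obtain ⟨dα', hdα'⟩ : ∃ dα' : Fin m → F, dα' = fun i => if i = i₀ then α⁻¹ else 1 := ⟨_, rfl⟩
  obtain ⟨dβ, hdβ⟩ : ∃ dβ : Fin m → F, dβ = fun i => if i = i₀ then β else 0 := ⟨_, rfl⟩
  have hinv1 : Matrix.diagonal dα * Matrix.diagonal dα' = 1 := by
    rw [Matrix.diagonal_mul_diagonal, ← Matrix.diagonal_one]
    congr 1
    funext i
    rw [hdα, hdα']
    by_cases h : i = i₀
    · simp [h, hα]
    · simp [h]
  have hinv2 : Matrix.diagonal dα' * Matrix.diagonal dα = 1 := by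
    rw [Matrix.diagonal_mul_diagonal, ← Matrix.diagonal_one]
    congr 1
    funext i
    rw [hdα, hdα']
    by_cases h : i = i₀
    · simp [h, hα]
    · simp [h]
  refine ⟨Matrix.reindex (sqPar m) (sqPar m) (Matrix.fromBlocks (Matrix.diagonal dα)
    (z • Matrix.diagonal dβ) (Matrix.diagonal dβ) (Matrix.diagonal dα)), ?_, ?_⟩
  · rw [sq_reindex_mul, sq_reindex_mul]
    congr 1
    rw [Matrix.fromBlocks_multiply, Matrix.fromBlocks_multiply]
    simp
  · rw [Matrix.det_reindex_self]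
    letI : Invertible (Matrix.diagonal dα) := ⟨Matrix.diagonal dα', hinv2, hinv1⟩
    rw [Matrix.det_fromBlocks₁₁]
    have h1 : (⅟(Matrix.diagonal dα) : Matrix (Fin m) (Fin m) F) = Matrix.diagonal dα' := rfl
    rw [h1, Matrix.mul_smul, Matrix.diagonal_mul_diagonal, Matrix.diagonal_mul_diagonal,
      ← Matrix.diagonal_smul, Matrix.diagonal_sub, Matrix.det_diagonal, Matrix.det_diagonal,
      ← Finset.prod_mul_distrib]
    have h3 : ∀ i : Fin m, dα i * (dα i - (z • fun i => dβ i * dα' i * dβ i) i) =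
        if i = i₀ then δ else 1 := by
      intro i
      rw [hdα, hdα', hdβ]
      by_cases h : i = i₀
      · simp only [h, if_true, Pi.smul_apply, smul_eq_mul]
        rw [← hαβ]
        field_simp
      · simp [h]
    rw [Finset.prod_congr rfl (fun i _ => h3 i), Finset.prod_ite_eq' Finset.univ i₀]
    simp

theorem fk_Bd_sq (m : ℕ) (d : F) :
    Matrix.reindex (sqPar m) (sqPar m)
        (Matrix.fromBlocks (0 : Matrix (Fin m) (Fin m) F) (d • (1 : Matrix (Fin m) (Fin m) F))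
          (1 : Matrix (Fin m) (Fin m) F) (0 : Matrix (Fin m) (Fin m) F)) *
      Matrix.reindex (sqPar m) (sqPar m)
        (Matrix.fromBlocks (0 : Matrix (Fin m) (Fin m) F) (d • (1 : Matrix (Fin m) (Fin m) F))
          (1 : Matrix (Fin m) (Fin m) F) (0 : Matrix (Fin m) (Fin m) F)) =
      d • (1 : Matrix (Fin (2 * m)) (Fin (2 * m)) F) := by
  rw [sq_reindex_mul, ← sq_reindex_smul_one]
  congr 1
  rw [Matrix.fromBlocks_multiply, ← Matrix.fromBlocks_one, Matrix.fromBlocks_smul]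
  simp

/-- parity of the `(-1)`-eigenspace from the determinant -/
theorem sq_pglNu_even (h2 : (2 : F) ≠ 0) {n : ℕ} (x : Matrix.SpecialLinearGroup (Fin n) F)
    (c : F) (hc : c ≠ 0) (hx : x.val * x.val = (c * c) • (1 : Matrix (Fin n) (Fin n) F))
    (hnum : ∀ c : F, c ^ n ≠ -1) : Even (pglNu (c⁻¹ • x.val)) := by
  classical
  obtain ⟨A, hAdef⟩ : ∃ A : Matrix (Fin n) (Fin n) F, A = c⁻¹ • x.val := ⟨_, rfl⟩
  rw [← hAdef]
  have hA : A * A = 1 := by
    rw [hAdef, Matrix.smul_mul, Matrix.mul_smul, hx, smul_smul, smul_smul]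
    have : c⁻¹ * c⁻¹ * (c * c) = 1 := by field_simp
    rw [this, one_smul]
  obtain ⟨b, hb⟩ : ∃ b, b = pglNu A := ⟨_, rfl⟩
  have hbn : b ≤ n := by
    rw [hb]
    unfold pglNu
    have h := Submodule.finrank_le (LinearMap.ker (A + 1).mulVecLin)
    rwa [finrank_fin_fun] at h
  obtain ⟨P, hP⟩ := pgl_inv_conj h2 A (pglD F n b) hA (pglD_sq n b)
    (by rw [pglNu_D h2 _ _ hbn, hb])
  have hPdet := sq_gl_det_ne P
  have hdetA : A.det = (-1) ^ b := by
    have h1 := congrArg Matrix.det hP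
    rw [Matrix.det_mul, Matrix.det_mul, pglD_det _ _ hbn] at h1
    have h3 : A.det * P.val.det = (-1) ^ b * P.val.det := by rw [mul_comm]; exact h1
    exact mul_right_cancel₀ hPdet h3
  have hxA : x.val = c • A := by rw [hAdef, smul_smul, mul_inv_cancel₀ hc, one_smul]
  have hdetx : c ^ n * (-1) ^ b = 1 := by
    have h1 := x.2
    rw [hxA, Matrix.det_smul, Fintype.card_fin, hdetA] at h1
    exact h1
  rw [← hb]
  by_contra hodd
  rw [Nat.not_even_iff_odd] at hodd
  rw [hodd.neg_one_pow, mul_neg_one] at hdetx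
  exact hnum c (by rw [← hdetx, neg_neg])

/-- odd characteristic, `x² = c²` -/
theorem fk_caseA (h2 : (2 : F) ≠ 0) (m : ℕ) (hm : 1 ≤ m)
    (K : Subalgebra F (Matrix (Fin (2 * m)) (Fin (2 * m)) F)) (hK : IsFieldSubalgebra 2 K)
    (x : Matrix.SpecialLinearGroup (Fin (2 * m)) F) (c : F) (hc : c ≠ 0)
    (hx : x.val * x.val = (c * c) • (1 : Matrix (Fin (2 * m)) (Fin (2 * m)) F))
    (hb : Even (pglNu (c⁻¹ • x.val)) ∨ (m = 1 ∧ pglNu (c⁻¹ • x.val) = 1)) :
    ∃ Q : Matrix.SpecialLinearGroup (Fin (2 * m)) F, Q⁻¹ * x * Q ∈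
      (subalgebraNormalizer K).comap (Matrix.SpecialLinearGroup.toGL :
        Matrix.SpecialLinearGroup (Fin (2 * m)) F →* GL (Fin (2 * m)) F) := by
  classical
  obtain ⟨y, hyK, d, hd, hyy, hspan⟩ := fk_odd_gen h2 K hK
  obtain ⟨P₀, hP₀⟩ := pgl_nonsq_conj d hd y _ hyy (fk_Bd_sq m d)
  obtain ⟨A, hAdef⟩ : ∃ A : Matrix (Fin (2 * m)) (Fin (2 * m)) F, A = c⁻¹ • x.val := ⟨_, rfl⟩
  rw [← hAdef] at hb
  have hA : A * A = 1 := by
    rw [hAdef, Matrix.smul_mul, Matrix.mul_smul, hx, smul_smul, smul_smul]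
    have : c⁻¹ * c⁻¹ * (c * c) = 1 := by field_simp
    rw [this, one_smul]
  obtain ⟨b, hbdef⟩ : ∃ b, b = pglNu A := ⟨_, rfl⟩
  rw [← hbdef] at hb
  have hbn : b ≤ 2 * m := by
    rw [hbdef]
    unfold pglNu
    have h := Submodule.finrank_le (LinearMap.ker (A + 1).mulVecLin)
    rwa [finrank_fin_fun] at h
  obtain ⟨P₁, hP₁⟩ := pgl_inv_conj h2 A (pglD F (2 * m) b) hA (pglD_sq (2 * m) b)
    (by rw [pglNu_D h2 _ _ hbn, hbdef])
  have hxA : x.val = c • A := by rw [hAdef, smul_smul, mul_inv_cancel₀ hc, one_smul]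
  obtain ⟨ε, hε⟩ : ∃ ε : F, ε = if Even b then 1 else -1 := ⟨_, rfl⟩
  have hε0 : ε ≠ 0 := by
    rw [hε]
    split_ifs
    · exact one_ne_zero
    · exact neg_ne_zero.mpr one_ne_zero
  have hcomm := fk_diag_comm m d ε (fun i : Fin (2 * m) => if i.val < b then (-1 : F) else 1)
    (by
      intro j
      simp only [sqPar_inl, sqPar_inr]
      rcases hb with hb | ⟨hm1, hb1⟩
      · rw [hε, if_pos hb, one_mul]
        have hpar : (2 * j.val + 1 < b) ↔ (2 * j.val < b) := by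
          obtain ⟨r, hr⟩ := hb
          omega
        by_cases h : 2 * j.val < b
        · simp only [h, hpar.mpr h, if_true]
        · simp only [h, (not_congr hpar).mpr h, if_false]
      · have hj : j.val = 0 := by
          have := j.isLt
          omega
        have hne : ¬ Even 1 := by decide
        rw [hε, hb1, if_neg hne]
        simp [hj])
    (by
      intro j
      simp only [sqPar_inl, sqPar_inr]
      rcases hb with hb | ⟨hm1, hb1⟩
      · rw [hε, if_pos hb, one_mul]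
        have hpar : (2 * j.val + 1 < b) ↔ (2 * j.val < b) := by
          obtain ⟨r, hr⟩ := hb
          omega
        by_cases h : 2 * j.val < b
        · simp only [h, hpar.mpr h, if_true]
        · simp only [h, (not_congr hpar).mpr h, if_false]
      · have hj : j.val = 0 := by
          have := j.isLt
          omega
        have hne : ¬ Even 1 := by decide
        rw [hε, hb1, if_neg hne]
        simp [hj])
  refine fk_transfer K y hyK hspan _ P₀ hP₀ x (c • pglD F (2 * m) b) P₁ ?_ ε 0 hε0 ?_ ?_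
  · rw [hxA, Matrix.mul_smul, hP₁, Matrix.smul_mul]
  · rw [zero_smul, add_zero, Matrix.smul_mul, Matrix.smul_mul, Matrix.mul_smul]
    unfold pglD
    rw [hcomm, smul_comm]
  · intro δ hδ
    obtain ⟨i₀⟩ : Nonempty (Fin (2 * m)) := ⟨⟨0, by omega⟩⟩
    refine ⟨Matrix.diagonal (Function.update (fun _ => (1 : F)) i₀ δ), ?_, ?_⟩
    · unfold pglD
      rw [Matrix.mul_smul, Matrix.smul_mul, Matrix.diagonal_mul_diagonal,
        Matrix.diagonal_mul_diagonal]
      congr 2
      funext i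
      ring
    · rw [Matrix.det_diagonal, Finset.prod_update_of_mem (Finset.mem_univ _),
        Finset.prod_const_one, mul_one]

/-- odd characteristic, `x² = z` a non-square -/
theorem fk_caseB [Fintype F] (h2 : (2 : F) ≠ 0) (m : ℕ) (hm : 1 ≤ m)
    (K : Subalgebra F (Matrix (Fin (2 * m)) (Fin (2 * m)) F)) (hK : IsFieldSubalgebra 2 K)
    (x : Matrix.SpecialLinearGroup (Fin (2 * m)) F) (z : F) (hz : ¬ IsSquare z)
    (hx : x.val * x.val = z • (1 : Matrix (Fin (2 * m)) (Fin (2 * m)) F)) :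
    ∃ Q : Matrix.SpecialLinearGroup (Fin (2 * m)) F, Q⁻¹ * x * Q ∈
      (subalgebraNormalizer K).comap (Matrix.SpecialLinearGroup.toGL :
        Matrix.SpecialLinearGroup (Fin (2 * m)) F →* GL (Fin (2 * m)) F) := by
  classical
  have hchar := sq_ringChar_ne h2
  obtain ⟨y, hyK, d, hd, hyy, hspan⟩ := fk_odd_gen h2 K hK
  obtain ⟨P₀, hP₀⟩ := pgl_nonsq_conj d hd y _ hyy (fk_Bd_sq m d)
  have hz0 : z ≠ 0 := by
    rintro rfl
    exact hz ⟨0, by rw [mul_zero]⟩
  have hd0 : d ≠ 0 := by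
    rintro rfl
    exact hd ⟨0, by rw [mul_zero]⟩
  have hsq : IsSquare (z / d) := by
    rw [FiniteField.isSquare_iff hchar (div_ne_zero hz0 hd0), div_pow]
    have e1 : z ^ (Fintype.card F / 2) = -1 := by
      rcases FiniteField.pow_dichotomy hchar hz0 with h | h
      · exact absurd ((FiniteField.isSquare_iff hchar hz0).mpr h) hz
      · exact h
    have e2 : d ^ (Fintype.card F / 2) = -1 := by
      rcases FiniteField.pow_dichotomy hchar hd0 with h | h
      · exact absurd ((FiniteField.isSquare_iff hchar hd0).mpr h) hd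
      · exact h
    rw [e1, e2]
    norm_num
  obtain ⟨s, hs⟩ := hsq
  have hzs : z = s * s * d := by rw [← hs, div_mul_cancel₀ z hd0]
  obtain ⟨Bd, hBd⟩ : ∃ Bd : Matrix (Fin (2 * m)) (Fin (2 * m)) F,
      Bd = Matrix.reindex (sqPar m) (sqPar m)
        (Matrix.fromBlocks (0 : Matrix (Fin m) (Fin m) F) (d • (1 : Matrix (Fin m) (Fin m) F))
          (1 : Matrix (Fin m) (Fin m) F) (0 : Matrix (Fin m) (Fin m) F)) := ⟨_, rfl⟩
  have hBdBd : Bd * Bd = d • (1 : Matrix (Fin (2 * m)) (Fin (2 * m)) F) := by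
    rw [hBd]
    exact fk_Bd_sq m d
  rw [← hBd] at hP₀
  obtain ⟨P₁, hP₁⟩ := pgl_nonsq_conj z hz x.val (s • Bd) hx (by
    rw [Matrix.smul_mul, Matrix.mul_smul, hBdBd, smul_smul, smul_smul, hzs])
  refine fk_transfer K y hyK hspan Bd P₀ hP₀ x (s • Bd) P₁ hP₁ 1 0 one_ne_zero ?_ ?_
  · rw [zero_smul, add_zero, one_smul, Matrix.smul_mul, Matrix.mul_smul]
  · intro δ hδ
    obtain ⟨C, hC, hCdet⟩ := fk_cent_blk h2 m hm d hd δ hδ
    rw [← hBd] at hC
    refine ⟨C, ?_, hCdet⟩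
    rw [Matrix.mul_smul, Matrix.smul_mul, hC]

end Cfsg.Agent.Helper37
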