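import Mathlib
import Cfsg.Agent.Helper37.Fk2

set_option autoImplicit false

namespace Cfsg.Agent.Helper37

open Matrix Module Cfsg.Geo

universe u

variable {F : Type u} [Field F]

theorem sqz_rank_pos {n : ℕ} (N : Matrix (Fin n) (Fin n) F) (hN : N * N = 0) (hne : N ≠ 0) :
    0 < N.rank := by
  by_contra h
  have hk : N.rank = 0 := by omega
  obtain ⟨l, Θ, -, hΘ⟩ := sqz_model N hN 0 hk
  apply hne
  apply pgl_eq_of_mulVec
  intro v
  obtain ⟨⟨a, b, c⟩, rfl⟩ := Θ.surjective v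
  rw [hΘ, Matrix.zero_mulVec]
  have ha : a = 0 := Subsingleton.elim _ _
  rw [ha]
  exact map_zero Θ

/-- a non-scalar `2 × 2` matrix with `w² = b + w` is conjugate to its companion matrix -/
theorem fk_companion (w : Matrix (Fin 2) (Fin 2) F) (b : F)
    (hw : w * w = b • (1 : Matrix (Fin 2) (Fin 2) F) + w)
    (hns : ∀ a : F, w ≠ a • (1 : Matrix (Fin 2) (Fin 2) F)) :
    ∃ P : GL (Fin 2) F, P.val * w = !![0, b; 1, 1] * P.val := by
  have hv : ∃ v : Fin 2 → F, v 0 * (w *ᵥ v) 1 - (w *ᵥ v) 0 * v 1 ≠ 0 := by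
    by_cases hr : w 1 0 = 0
    · by_cases hq : w 0 1 = 0
      · refine ⟨![1, 1], ?_⟩
        simp only [Matrix.mulVec, dotProduct, Fin.sum_univ_two, Matrix.cons_val_zero,
          Matrix.cons_val_one, hr, hq]
        intro h
        apply hns (w 0 0)
        ext i j
        fin_cases i <;> fin_cases j
        · simp
        · simp [hq]
        · simp [hr]
        · simp
          linear_combination h
      · refine ⟨![0, 1], ?_⟩
        simp only [Matrix.mulVec, dotProduct, Fin.sum_univ_two, Matrix.cons_val_zero,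
          Matrix.cons_val_one]
        intro h
        apply hq
        linear_combination -h
    · refine ⟨![1, 0], ?_⟩
      simp only [Matrix.mulVec, dotProduct, Fin.sum_univ_two, Matrix.cons_val_zero,
        Matrix.cons_val_one]
      intro h
      apply hr
      linear_combination h
  obtain ⟨v, hv⟩ := hv
  obtain ⟨u, hu⟩ : ∃ u : Fin 2 → F, u = w *ᵥ v := ⟨_, rfl⟩
  rw [← hu] at hv
  obtain ⟨M, hM⟩ : ∃ M : Matrix (Fin 2) (Fin 2) F, M = !![v 0, u 0; v 1, u 1] := ⟨_, rfl⟩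
  have hdet : M.det ≠ 0 := by
    rw [hM, Matrix.det_fin_two_of]
    exact hv
  have hwu : w *ᵥ u = b • v + u := by
    rw [hu, Matrix.mulVec_mulVec, hw, Matrix.add_mulVec, Matrix.smul_mulVec, Matrix.one_mulVec]
  have hwM : w * M = M * !![0, b; 1, 1] := by
    have e0 : ∀ i, (w *ᵥ v) i = u i := fun i => by rw [hu]
    have e1 : ∀ i, (w *ᵥ u) i = b * v i + u i := fun i => by
      rw [hwu]
      rfl
    simp only [Matrix.mulVec, dotProduct, Fin.sum_univ_two] at e0 e1
    rw [hM]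
    ext i j
    fin_cases i <;> fin_cases j
    · simp [Matrix.mul_apply, Fin.sum_univ_two]
      exact e0 0
    · simp [Matrix.mul_apply, Fin.sum_univ_two]
      linear_combination e1 0
    · simp [Matrix.mul_apply, Fin.sum_univ_two]
      exact e0 1
    · simp [Matrix.mul_apply, Fin.sum_univ_two]
      linear_combination e1 1
  obtain ⟨G, hG⟩ : ∃ G : GL (Fin 2) F, G.val = M :=
    ⟨Matrix.GeneralLinearGroup.mkOfDetNeZero M hdet, rfl⟩
  refine ⟨G⁻¹, ?_⟩
  have hgi : G.val * (G⁻¹ : GL (Fin 2) F).val = 1 := Units.mul_inv G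
  have hig : (G⁻¹ : GL (Fin 2) F).val * G.val = 1 := Units.inv_mul G
  calc (G⁻¹ : GL (Fin 2) F).val * w
      = (G⁻¹ : GL (Fin 2) F).val * w * (G.val * (G⁻¹ : GL (Fin 2) F).val) := by
        rw [hgi, Matrix.mul_one]
    _ = (G⁻¹ : GL (Fin 2) F).val * (w * G.val) * (G⁻¹ : GL (Fin 2) F).val := by
        simp only [Matrix.mul_assoc]
    _ = (G⁻¹ : GL (Fin 2) F).val * (G.val * !![0, b; 1, 1]) * (G⁻¹ : GL (Fin 2) F).val := by
        rw [hG, hwM]
    _ = ((G⁻¹ : GL (Fin 2) F).val * G.val) * !![0, b; 1, 1] * (G⁻¹ : GL (Fin 2) F).val := by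
        simp only [Matrix.mul_assoc]
    _ = !![0, b; 1, 1] * (G⁻¹ : GL (Fin 2) F).val := by rw [hig, Matrix.one_mul]

/-- characteristic two, `n = 2` -/
theorem fk_caseC2 [Fintype F] (h2 : (2 : F) = 0)
    (K : Subalgebra F (Matrix (Fin 2) (Fin 2) F)) (hK : IsFieldSubalgebra 2 K)
    (x : Matrix.SpecialLinearGroup (Fin 2) F) (c : F) (hc : c ≠ 0)
    (hx : x.val * x.val = (c * c) • (1 : Matrix (Fin 2) (Fin 2) F))
    (hns : ∀ z : F, x.val ≠ z • (1 : Matrix (Fin 2) (Fin 2) F)) :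
    ∃ Q : Matrix.SpecialLinearGroup (Fin 2) F, Q⁻¹ * x * Q ∈
      (subalgebraNormalizer K).comap (Matrix.SpecialLinearGroup.toGL :
        Matrix.SpecialLinearGroup (Fin 2) F →* GL (Fin 2) F) := by
  classical
  have hch : ringChar F = 2 :=
    CharP.ringChar_of_prime_eq_zero Nat.prime_two (by exact_mod_cast h2)
  have hch2 : ∀ M : Matrix (Fin 2) (Fin 2) F, M + M = 0 := by
    intro M
    rw [← two_smul F M, h2, zero_smul]
  obtain ⟨w, hwK, hwns, hspan⟩ := fk_span K hK
  obtain ⟨β, α, hww⟩ := hspan (w * w) (K.mul_mem hwK hwK)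
  have hα : α ≠ 0 := by
    rintro rfl
    rw [zero_smul, add_zero] at hww
    obtain ⟨e, he⟩ := FiniteField.isSquare_of_char_two hch β
    have h3 : (w + e • (1 : Matrix (Fin 2) (Fin 2) F)) * (w + e • 1) = 0 := by
      rw [add_mul, mul_add, mul_add, Matrix.mul_smul, Matrix.smul_mul, Matrix.smul_mul,
        Matrix.mul_smul, Matrix.mul_one, Matrix.one_mul, Matrix.mul_one, hww, smul_smul, ← he]
      have e1 : β • (1 : Matrix (Fin 2) (Fin 2) F) + e • w + (e • w + β • 1) =
          (β • 1 + β • 1) + (e • w + e • w) := by abel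
      rw [e1, hch2, hch2, add_zero]
    by_cases h4 : w + e • (1 : Matrix (Fin 2) (Fin 2) F) = 0
    · apply hwns e
      have h5 := eq_neg_of_add_eq_zero_left h4
      rw [h5, ← neg_smul]
      congr 1
      have h6 : e + e = 0 := by rw [← two_mul, h2, zero_mul]
      exact neg_eq_of_add_eq_zero_left h6
    · obtain ⟨y', hy'K, hy'⟩ := hK.inv _ (K.add_mem hwK (K.smul_mem K.one_mem e)) h4
      apply h4
      have h6 := congrArg (fun M => M * y') h3
      simp only [Matrix.mul_assoc, hy', Matrix.mul_one, Matrix.zero_mul] at h6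
      exact h6
  obtain ⟨w₁, hw₁⟩ : ∃ w₁ : Matrix (Fin 2) (Fin 2) F, w₁ = α⁻¹ • w := ⟨_, rfl⟩
  have hw₁K : w₁ ∈ K := by
    rw [hw₁]
    exact K.smul_mem hwK _
  have hww₁ : w = α • w₁ := by rw [hw₁, smul_smul, mul_inv_cancel₀ hα, one_smul]
  obtain ⟨b, hb⟩ : ∃ b : F, b = α⁻¹ * α⁻¹ * β := ⟨_, rfl⟩
  have hw₁w₁ : w₁ * w₁ = b • (1 : Matrix (Fin 2) (Fin 2) F) + w₁ := by
    rw [hw₁, Matrix.smul_mul, Matrix.mul_smul, hww, smul_smul, smul_add, smul_smul, smul_smul, hb]
    congr 2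
    field_simp
  have hw₁ns : ∀ a : F, w₁ ≠ a • (1 : Matrix (Fin 2) (Fin 2) F) := by
    intro a ha
    apply hwns (α * a)
    rw [hww₁, ha, smul_smul]
  have hspan₁ : ∀ k ∈ K, ∃ a b : F, k = a • (1 : Matrix (Fin 2) (Fin 2) F) + b • w₁ := by
    intro k hk
    obtain ⟨a, b', rfl⟩ := hspan k hk
    exact ⟨a, b' * α, by rw [hww₁, smul_smul]⟩
  obtain ⟨P₀, hP₀⟩ := fk_companion w₁ b hw₁w₁ hw₁ns
  obtain ⟨N, hNdef⟩ : ∃ N : Matrix (Fin 2) (Fin 2) F, N = c⁻¹ • x.val + 1 := ⟨_, rfl⟩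
  have hN : N * N = 0 := by
    rw [hNdef, add_mul, mul_add, mul_add, Matrix.smul_mul, Matrix.mul_smul, hx, smul_smul,
      smul_smul, Matrix.mul_one, Matrix.one_mul, Matrix.one_mul]
    have h1 : c⁻¹ * c⁻¹ * (c * c) = 1 := by field_simp
    rw [h1, one_smul]
    have h3 : (1 : Matrix (Fin 2) (Fin 2) F) + c⁻¹ • x.val + (c⁻¹ • x.val + 1) =
        (1 + 1) + (c⁻¹ • x.val + c⁻¹ • x.val) := by abel
    rw [h3, hch2, hch2, add_zero]
  have hxN : x.val = c • N + c • 1 := by
    rw [hNdef, smul_add, smul_smul, mul_inv_cancel₀ hc, one_smul, add_assoc, ← smul_add, hch2,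
      smul_zero, add_zero]
  have hN0 : N ≠ 0 := by
    intro h
    apply hns c
    rw [hxN, h, smul_zero, zero_add]
  obtain ⟨E, hE⟩ : ∃ E : Matrix (Fin 2) (Fin 2) F, E = !![0, 1; 0, 0] := ⟨_, rfl⟩
  have hEE : E * E = 0 := by
    rw [hE]
    ext i j
    fin_cases i <;> fin_cases j <;> simp [Matrix.mul_apply, Fin.sum_univ_two]
  have hE0 : E ≠ 0 := by
    intro h
    have h1 := congrFun (congrFun h 0) 1
    rw [hE] at h1
    simp at h1
  have hrN : N.rank = 1 := by
    have h1 := sqz_rank_pos N hN hN0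
    have h3 := sqz_rank_le N hN
    omega
  have hrE : E.rank = 1 := by
    have h1 := sqz_rank_pos E hEE hE0
    have h3 := sqz_rank_le E hEE
    omega
  obtain ⟨P₁, hP₁⟩ := sqz_conj N E hN hEE (by rw [hrN, hrE])
  refine fk_transfer K w₁ hw₁K hspan₁ _ P₀ hP₀ x (c • E + c • 1) P₁ ?_ 1 1 one_ne_zero ?_ ?_
  · rw [hxN, mul_add, add_mul, Matrix.mul_smul, Matrix.mul_smul, hP₁, Matrix.smul_mul,
      Matrix.smul_mul, Matrix.mul_one, Matrix.one_mul]
  · rw [hE]
    ext i j
    fin_cases i <;> fin_cases j <;>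
      simp [Matrix.mul_apply, Fin.sum_univ_two, Matrix.add_apply, Matrix.smul_apply,
        Matrix.one_apply]
    · ring
    · left
      rw [one_add_one_eq_two]
      exact h2
  · intro δ hδ
    obtain ⟨ρ, hρ⟩ := FiniteField.isSquare_of_char_two hch δ
    refine ⟨ρ • 1, ?_, ?_⟩
    · rw [Matrix.smul_mul, Matrix.mul_smul, Matrix.one_mul, Matrix.mul_one]
    · rw [Matrix.det_smul, Matrix.det_one, mul_one, Fintype.card_fin, hρ, pow_two]

/-- the transvection: a bad element in characteristic two -/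
theorem fk_bad_two (h2 : (2 : F) = 0) {n : ℕ} (hn : 3 ≤ n) :
    ∃ x : Matrix.SpecialLinearGroup (Fin n) F,
      x.val * x.val = (1 : F) • (1 : Matrix (Fin n) (Fin n) F) ∧
      (∀ z : F, x.val ≠ z • (1 : Matrix (Fin n) (Fin n) F)) ∧
      ∃ (c : F) (u v : Fin n → F), u ≠ 0 ∧ v ≠ 0 ∧ x.val = c • (1 + Matrix.vecMulVec u v) := by
  classical
  obtain ⟨i0, hi0⟩ : ∃ i : Fin n, i.val = 0 := ⟨⟨0, by omega⟩, rfl⟩
  obtain ⟨i1, hi1⟩ : ∃ i : Fin n, i.val = 1 := ⟨⟨1, by omega⟩, rfl⟩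
  have h01 : i0 ≠ i1 := by
    intro h
    rw [h] at hi0
    omega
  have hE : (1 : Matrix (Fin n) (Fin n) F) +
      Matrix.vecMulVec (Pi.single i0 (1 : F)) (Pi.single i1 (1 : F)) =
      Matrix.transvection i0 i1 (1 : F) := by
    rw [Matrix.transvection]
    congr 1
    ext a b
    rw [Matrix.vecMulVec_apply, Matrix.single_apply, Pi.single_apply, Pi.single_apply]
    by_cases ha : a = i0
    · by_cases hb : b = i1
      · subst ha
        subst hb
        simp
      · have hb' : ¬ i1 = b := fun h => hb h.symm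
        simp [ha, hb, hb']
    · have ha' : ¬ i0 = a := fun h => ha h.symm
      simp [ha, ha']
  have hdet : ((1 : Matrix (Fin n) (Fin n) F) +
      Matrix.vecMulVec (Pi.single i0 (1 : F)) (Pi.single i1 (1 : F))).det = 1 := by
    rw [hE, Matrix.det_transvection_of_ne i0 i1 h01]
  obtain ⟨x, hxv⟩ : ∃ x : Matrix.SpecialLinearGroup (Fin n) F, x.val = (1 : Matrix (Fin n) (Fin n) F) +
      Matrix.vecMulVec (Pi.single i0 (1 : F)) (Pi.single i1 (1 : F)) := ⟨⟨_, hdet⟩, rfl⟩
  refine ⟨x, ?_, ?_, 1, Pi.single i0 1, Pi.single i1 1, ?_, ?_, ?_⟩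
  · rw [hxv, hE, Matrix.transvection_mul_transvection_same i0 i1 h01, one_add_one_eq_two, h2,
      Matrix.transvection_zero, one_smul]
  · intro z hz
    rw [hxv] at hz
    have h1 := congrFun (congrFun hz i0) i1
    rw [Matrix.add_apply, Matrix.vecMulVec_apply, Matrix.one_apply_ne h01, Matrix.smul_apply,
      Matrix.one_apply_ne h01, Pi.single_eq_same, Pi.single_eq_same] at h1
    simp at h1
  · intro h
    have h1 := congrFun h i0
    simp at h1
  · intro h
    have h1 := congrFun h i1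
    simp at h1
  · rw [hxv, one_smul]

/-- the diagonal bad element in odd characteristic -/
theorem fk_bad_odd (h2 : (2 : F) ≠ 0) {n : ℕ} (hn : 3 ≤ n) (c : F) (hc : c ^ n = -1) :
    ∃ x : Matrix.SpecialLinearGroup (Fin n) F,
      x.val * x.val = (c * c) • (1 : Matrix (Fin n) (Fin n) F) ∧
      (∀ z : F, x.val ≠ z • (1 : Matrix (Fin n) (Fin n) F)) ∧
      ∃ (c' : F) (u v : Fin n → F), u ≠ 0 ∧ v ≠ 0 ∧ x.val = c' • (1 + Matrix.vecMulVec u v) := by
  classical
  have hc0 : c ≠ 0 := by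
    rintro rfl
    rw [zero_pow (by omega)] at hc
    exact one_ne_zero (neg_eq_zero.mp hc.symm)
  have hdet : (c • pglD F n 1).det = 1 := by
    rw [Matrix.det_smul, Fintype.card_fin, hc, pglD_det _ _ (by omega)]
    norm_num
  obtain ⟨i0, hi0⟩ : ∃ i : Fin n, i.val = 0 := ⟨⟨0, by omega⟩, rfl⟩
  obtain ⟨i1, hi1⟩ : ∃ i : Fin n, i.val = 1 := ⟨⟨1, by omega⟩, rfl⟩
  have hlt : ∀ i : Fin n, i.val < 1 ↔ i = i0 := by
    intro i
    constructor
    · intro h
      apply Fin.ext
      omega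
    · rintro rfl
      omega
  obtain ⟨x, hxv⟩ : ∃ x : Matrix.SpecialLinearGroup (Fin n) F, x.val = c • pglD F n 1 :=
    ⟨⟨_, hdet⟩, rfl⟩
  refine ⟨x, ?_, ?_, c, Pi.single i0 (-2), Pi.single i0 1, ?_, ?_, ?_⟩
  · rw [hxv, Matrix.smul_mul, Matrix.mul_smul, pglD_sq, smul_smul]
  · intro z hz
    rw [hxv] at hz
    have e0 := congrFun (congrFun hz i0) i0
    have e1 := congrFun (congrFun hz i1) i1
    unfold pglD at e0 e1
    simp only [Matrix.smul_apply, Matrix.diagonal_apply_eq, Matrix.one_apply_eq, smul_eq_mul,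
      mul_one] at e0 e1
    rw [if_pos (by omega)] at e0
    rw [if_neg (by omega)] at e1
    apply h2
    have h3 : (2 : F) * c = 0 := by linear_combination e1 - e0
    rcases mul_eq_zero.mp h3 with h | h
    · exact h
    · exact absurd h hc0
  · intro h
    have h1 := congrFun h i0
    simp at h1
    exact h2 h1
  · intro h
    have h1 := congrFun h i0
    simp at h1
  · rw [hxv]
    congr 1
    unfold pglD
    ext a b
    rw [Matrix.add_apply, Matrix.vecMulVec_apply, Matrix.diagonal_apply, Matrix.one_apply,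
      Pi.single_apply, Pi.single_apply]
    by_cases hab : a = b
    · subst hab
      by_cases ha : a = i0
      · have h1 : a.val < 1 := (hlt a).mpr ha
        simp only [ha, if_true]
        rw [if_pos ((hlt i0).mpr rfl)]
        ring
      · have h1 : ¬ a.val < 1 := fun h => ha ((hlt a).mp h)
        simp [ha, h1]
    · by_cases ha : a = i0
      · have hb : ¬ b = i0 := fun h => hab (by rw [ha, h])
        simp [hab, hb]
      · simp [hab, ha]

end Cfsg.Agent.Helper37
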