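import Mathlib
import Cfsg.Agent.Helper90.HTDefs
import Cfsg.Agent.Helper44.Unitary

set_option autoImplicit false

namespace Cfsg.Agent.Helper37.HT5953

open Module Polynomial Cfsg.Agent.Helper90.HT

/-- the span of a totally isotropic family is totally isotropic -/
theorem htcntb_span_ti {F : Type*} [Field F] [Fintype F] (q : ℕ) (hq : Fintype.card F = q ^ 2)
    (n m : ℕ) (v : Fin m → (Fin n → F))
    (hv : ∀ a b, Cfsg.hermForm n F q (v a) (v b) = 0) :
    ∀ x ∈ Submodule.span F (Set.range v), ∀ y ∈ Submodule.span F (Set.range v),
      Cfsg.hermForm n F q x y = 0 := by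
  obtain ⟨σ, hσ⟩ := Cfsg.Agent.Helper44.exists_conj hq
  have hh := isHerm_hermForm hq σ hσ n
  intro x hx y hy
  induction hx using Submodule.span_induction with
  | mem x hx =>
    obtain ⟨a, rfl⟩ := hx
    induction hy using Submodule.span_induction with
    | mem y hy => obtain ⟨b, rfl⟩ := hy; exact hv a b
    | zero => exact hh.zero_right _
    | add y y' _ _ h h' => rw [hh.add_right, h, h', add_zero]
    | smul c y _ h => rw [hh.smul_right, h, mul_zero]
  | zero => exact hh.zero_left _
  | add x x' _ _ h h' => rw [hh.add_left, h, h', add_zero]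
  | smul c x _ h => rw [hh.smul_left, h, mul_zero]

/-- CNTB: frames = subspaces × bases (with the hypothesis `|F| = q²`, needed for the span of a
totally isotropic family to be totally isotropic). -/
theorem ht_cnt_b (F : Type*) [Field F] [Fintype F] (q : ℕ) (hq : Fintype.card F = q ^ 2)
    (n m : ℕ) :
    Nat.card {v : Fin m → (Fin n → F) // LinearIndependent F v ∧
        ∀ a b, Cfsg.hermForm n F q (v a) (v b) = 0} =
      Nat.card {W : Submodule F (Fin n → F) // Module.finrank F ↥W = m ∧
        (∀ u ∈ W, ∀ v ∈ W, Cfsg.hermForm n F q u v = 0)} *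
      ∏ j ∈ Finset.range m, (Fintype.card F ^ m - Fintype.card F ^ j) := by
  classical
  have hfinT : Finite {v : Fin m → (Fin n → F) // LinearIndependent F v ∧
        ∀ a b, Cfsg.hermForm n F q (v a) (v b) = 0} := inferInstance
  have hfinS : Finite (Submodule F (Fin n → F)) :=
    Finite.of_injective (fun W : Submodule F (Fin n → F) => (W : Set (Fin n → F)))
      SetLike.coe_injective
  let f : {v : Fin m → (Fin n → F) // LinearIndependent F v ∧
        ∀ a b, Cfsg.hermForm n F q (v a) (v b) = 0} →
      {W : Submodule F (Fin n → F) // Module.finrank F ↥W = m ∧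
        (∀ u ∈ W, ∀ v ∈ W, Cfsg.hermForm n F q u v = 0)} := fun v =>
    ⟨Submodule.span F (Set.range v.1), by
      have := finrank_span_eq_card v.2.1
      rw [Fintype.card_fin] at this
      exact this, htcntb_span_ti q hq n m v.1 v.2.2⟩
  have hfib : ∀ W : {W : Submodule F (Fin n → F) // Module.finrank F ↥W = m ∧
        (∀ u ∈ W, ∀ v ∈ W, Cfsg.hermForm n F q u v = 0)},
      Nat.card {x : {v : Fin m → (Fin n → F) // LinearIndependent F v ∧
        ∀ a b, Cfsg.hermForm n F q (v a) (v b) = 0} // f x = W} =
        ∏ j ∈ Finset.range m, (Fintype.card F ^ m - Fintype.card F ^ j) := by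
    intro W
    have hmem : ∀ (x : {v : Fin m → (Fin n → F) // LinearIndependent F v ∧
        ∀ a b, Cfsg.hermForm n F q (v a) (v b) = 0}), f x = W → ∀ a, x.1 a ∈ W.1 := by
      intro x hx a
      have h1 : Submodule.span F (Set.range x.1) = W.1 := congrArg Subtype.val hx
      rw [← h1]
      exact Submodule.subset_span (Set.mem_range_self a)
    let e : {x : {v : Fin m → (Fin n → F) // LinearIndependent F v ∧
        ∀ a b, Cfsg.hermForm n F q (v a) (v b) = 0} // f x = W} ≃
        {s : Fin m → W.1 // LinearIndependent F s} :=
      { toFun := fun x => ⟨fun a => ⟨x.1.1 a, hmem x.1 x.2 a⟩, by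
          apply LinearIndependent.of_comp W.1.subtype
          exact x.1.2.1⟩
        invFun := fun s => ⟨⟨fun a => (s.1 a : Fin n → F),
            s.2.map' W.1.subtype (Submodule.ker_subtype _),
            fun a b => W.2.2 _ (s.1 a).2 _ (s.1 b).2⟩, by
          apply Subtype.ext
          show Submodule.span F (Set.range fun a => (s.1 a : Fin n → F)) = W.1
          have h1 : Submodule.span F (Set.range s.1) = ⊤ := by
            apply s.2.span_eq_top_of_card_eq_finrank'
            rw [Fintype.card_fin, W.2.1]
          have h2 : (Set.range fun a => (s.1 a : Fin n → F)) =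
              W.1.subtype '' (Set.range s.1) := by
            rw [← Set.range_comp]
            rfl
          rw [h2, Submodule.span_image, h1, Submodule.map_top, Submodule.range_subtype]⟩
        left_inv := fun x => by
          apply Subtype.ext
          apply Subtype.ext
          rfl
        right_inv := fun s => by
          apply Subtype.ext
          rfl }
    rw [Nat.card_congr e, card_linearIndependent (le_of_eq W.2.1.symm), W.2.1,
      ← Finset.prod_range (fun j => Fintype.card F ^ m - Fintype.card F ^ j)]
  have hfinW : Finite {W : Submodule F (Fin n → F) // Module.finrank F ↥W = m ∧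
        (∀ u ∈ W, ∀ v ∈ W, Cfsg.hermForm n F q u v = 0)} := inferInstance
  letI : Fintype {W : Submodule F (Fin n → F) // Module.finrank F ↥W = m ∧
        (∀ u ∈ W, ∀ v ∈ W, Cfsg.hermForm n F q u v = 0)} := Fintype.ofFinite _
  rw [← Nat.card_congr (Equiv.sigmaFiberEquiv f), Nat.card_sigma]
  simp_rw [hfib]
  rw [Finset.sum_const, Finset.card_univ, Nat.card_eq_fintype_card, smul_eq_mul]

end Cfsg.Agent.Helper37.HT5953
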