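import Mathlib
import Cfsg.Agent.Helper90.HTDefs
import Cfsg.Agent.Helper67.HermGS

set_option autoImplicit false

namespace Cfsg.Agent.Helper37.HT5953

open Module Polynomial Cfsg.Agent.Helper90.HT

section geom

variable {F : Type*} [Field F] {V : Type*} [AddCommGroup V] [Module F V] [FiniteDimensional F V]
  (σ : F →+* F) (h : V → V → F)

omit [FiniteDimensional F V] in
theorem htonb_expand (hh : IsHerm σ h) {n : ℕ} (B : Fin n → V) (x y : Fin n → F) :
    h (∑ i, x i • B i) (∑ j, y j • B j) = ∑ i, ∑ j, x i * h (B i) (B j) * σ (y j) := by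
  rw [hh.sum_left]
  refine Finset.sum_congr rfl fun i _ => ?_
  rw [hh.smul_left, hh.sum_right, Finset.mul_sum]
  refine Finset.sum_congr rfl fun j _ => ?_
  rw [hh.smul_right]; ring

/-- HONB: a nondegenerate Hermitian space over a finite field is isometric to the standard one. -/
theorem ht_onb [Fintype F] (q : ℕ) (hq : Fintype.card F = q ^ 2) (hσ : ∀ a, σ a = a ^ q)
    (hh : IsHerm σ h) (hnd : ∀ v, (∀ w, h v w = 0) → v = 0) (n : ℕ) (hn : finrank F V = n) :
    ∃ Φ : V ≃ₗ[F] (Fin n → F), ∀ u v, Cfsg.hermForm n F q (Φ u) (Φ v) = h u v := by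
  classical
  let σ' : F ≃+* F :=
    { toFun := σ, invFun := σ, left_inv := hh.invol, right_inv := hh.invol,
      map_mul' := σ.map_mul, map_add' := σ.map_add }
  have hσ' : ∀ x, σ' x = x ^ q := hσ
  have hσσ : ∀ x, σ' x = σ x := fun _ => rfl
  let B : Basis (Fin n) F V := Module.finBasisOfFinrankEq F V hn
  let A : Matrix (Fin n) (Fin n) F := Matrix.of fun i j => h (B i) (B j)
  have hA : A.transpose = A.map σ' := by
    ext i j
    simp only [Matrix.transpose_apply, Matrix.map_apply, A, Matrix.of_apply]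
    exact hh.symm (B i) (B j)
  have hform : ∀ x y : Fin n → F, h (∑ i, x i • B i) (∑ j, y j • B j) =
      Cfsg.Agent.Helper67.hgsForm A σ' x y := by
    intro x y
    rw [htonb_expand σ h hh]
    rfl
  have hdet : A.det ≠ 0 := by
    intro h0
    obtain ⟨x, hx0, hx⟩ := Matrix.exists_vecMul_eq_zero_iff.mpr h0
    apply hx0
    have hv : (∑ i, x i • B i) = 0 := by
      apply hnd
      intro w
      have hw : w = ∑ j, B.repr w j • B j := (B.sum_repr w).symm
      rw [hw, htonb_expand σ h hh, Finset.sum_comm]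
      refine Finset.sum_eq_zero fun j _ => ?_
      rw [← Finset.sum_mul]
      have h1 : ∑ i, x i * h (B i) (B j) = (Matrix.vecMul x A) j := by
        simp [Matrix.vecMul, dotProduct, A]
      rw [h1, hx]; simp
    have hB := B.linearIndependent
    rw [Fintype.linearIndependent_iff] at hB
    funext i
    exact hB x hv i
  obtain ⟨u, hu⟩ := Cfsg.Agent.Helper67.hgs_orthonormal q hq σ' hσ' n A hA hdet n le_rfl
  obtain ⟨e, hedef⟩ : ∃ e : Fin n → V, e = fun i => ∑ l, u i l • B l := ⟨_, rfl⟩
  have he : ∀ i j, h (e i) (e j) = if i = j then 1 else 0 := by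
    intro i j
    rw [hedef]
    show h (∑ l, u i l • B l) (∑ l, u j l • B l) = _
    rw [hform]; exact hu i j
  have hli : LinearIndependent F e := by
    rw [Fintype.linearIndependent_iff]
    intro c hc j
    have h1 : h (∑ i, c i • e i) (e j) = c j := by
      rw [hh.sum_left, Finset.sum_eq_single j]
      · rw [hh.smul_left, he, if_pos rfl, mul_one]
      · intro i _ hij
        rw [hh.smul_left, he, if_neg hij, mul_zero]
      · intro hj; exact absurd (Finset.mem_univ j) hj
    rw [hc, hh.zero_left] at h1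
    exact h1.symm
  have hspan : Submodule.span F (Set.range e) = ⊤ :=
    hli.span_eq_top_of_card_eq_finrank' (by rw [Fintype.card_fin, hn])
  let B' : Basis (Fin n) F V := Basis.mk hli (le_of_eq hspan.symm)
  have hB' : ∀ i, B' i = e i := fun i => Basis.mk_apply hli (le_of_eq hspan.symm) i
  refine ⟨B'.equivFun, ?_⟩
  intro a b
  have ha : a = ∑ i, B'.equivFun a i • e i := by
    conv_lhs => rw [← B'.sum_equivFun a]
    simp [hB']
  have hb : b = ∑ i, B'.equivFun b i • e i := by
    conv_lhs => rw [← B'.sum_equivFun b]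
    simp [hB']
  conv_rhs => rw [ha, hb, htonb_expand σ h hh]
  unfold Cfsg.hermForm
  refine Finset.sum_congr rfl fun i _ => ?_
  rw [Finset.sum_eq_single i]
  · rw [he, if_pos rfl, mul_one, hσ]
  · intro j _ hji
    rw [he, if_neg (Ne.symm hji)]; ring
  · intro hi; exact absurd (Finset.mem_univ i) hi

end geom

end Cfsg.Agent.Helper37.HT5953
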