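import Mathlib
import Cfsg.Agent.Helper9.OrdTools
import Cfsg.Agent.Helper8.SylFix

set_option autoImplicit false

namespace Cfsg.Agent.Helper37

open Subgroup

/-- if `y` moves `Q` like the commuting element `x`, so do the powers -/
theorem j1o_pow_smul {G : Type*} [Group G] {X : Type*} [MulAction G X] (y x : G)
    (hc : x * y = y * x) (Q : X) (h : y • Q = x • Q) (n : ℕ) : y ^ n • Q = x ^ n • Q := by
  induction n with
  | zero => simp
  | succ n ih =>
    have hc' : x * y ^ n = y ^ n * x := ((show Commute x y from hc).pow_right n).eq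
    rw [pow_succ, mul_smul, h, ← mul_smul, ← hc', mul_smul, ih, ← mul_smul, ← pow_succ']

/-- a Sylow subgroup of prime order acts freely on the other Sylow subgroups -/
theorem j1o_free {G : Type*} [Group G] [Finite G] {p : ℕ} [Fact p.Prime] (P : Sylow p G)
    (hP : Nat.card (P : Subgroup G) = p) (Q : Sylow p G) (hQ : Q ≠ P) (x : G)
    (hx : x ∈ (P : Subgroup G)) (hxQ : x • Q = Q) : x = 1 := by
  by_contra hx1
  have hz := Cfsg.Agent.Helper9.OrdTools.zpowers_eq_sylow P hP hx hx1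
  have hxNQ : x ∈ normalizer ((Q : Subgroup G) : Set G) := Sylow.smul_eq_iff_mem_normalizer.1 hxQ
  have hle : (P : Subgroup G) ≤ normalizer ((Q : Subgroup G) : Set G) := by
    rw [← hz]
    exact (Subgroup.zpowers_le).2 hxNQ
  exact hQ (Cfsg.Agent.Helper8.SylFix.eq_of_le_normalizer P Q hle)

/-- PIECE P6 of CALL S4274. -/
theorem j1o_mul_le_of_dvd_centralizer {G : Type*} [Group G] [Finite G] [IsSimpleGroup G]
    {p : ℕ} [Fact p.Prime] (P : Sylow p G) (hP : Nat.card (P : Subgroup G) = p)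
    (h1 : 1 < Nat.card (Sylow p G)) (q : ℕ) (hq : q.Prime) (hqp : q ≠ p)
    (hdvd : q ∣ Nat.card (centralizer ((P : Subgroup G) : Set G))) :
    p * q + 1 ≤ Nat.card (Sylow p G) := by
  classical
  haveI : Fact q.Prime := ⟨hq⟩
  have hp : p.Prime := Fact.out
  obtain ⟨y', hy'⟩ := exists_prime_orderOf_dvd_card' q hdvd
  obtain ⟨y, hyC, hyo⟩ : ∃ y : G, y ∈ centralizer ((P : Subgroup G) : Set G) ∧ orderOf y = q :=
    ⟨y', y'.2, by rw [← hy', Subgroup.orderOf_coe]⟩
  have hcomm : ∀ x ∈ (P : Subgroup G), x * y = y * x := fun x hx => hyC x hx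
  have hyN : y ∈ normalizer ((P : Subgroup G) : Set G) := centralizer_le_normalizer _ hyC
  have hfix : ∀ g ∈ normalizer ((P : Subgroup G) : Set G), g • P = P :=
    fun g hg => Sylow.smul_eq_iff_mem_normalizer.2 hg
  have hxp : ∀ x ∈ (P : Subgroup G), x ^ p = 1 := by
    intro x hx
    have := Subgroup.orderOf_dvd_natCard (P : Subgroup G) hx
    rw [hP] at this
    exact orderOf_dvd_iff_pow_eq_one.1 this
  -- the Sylow subgroup `Q₀`
  obtain ⟨Q₀, hQ₀⟩ : ∃ Q : Sylow p G, ∀ x ∈ (P : Subgroup G), y • Q ≠ x • Q := by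
    by_contra hcon
    push Not at hcon
    have hyp : y ^ p = 1 := by
      apply Cfsg.Agent.Helper9.OrdTools.eq_one_of_smul_sylow h1
      intro Q
      obtain ⟨x, hx, hxQ⟩ := hcon Q
      rw [j1o_pow_smul y x (hcomm x hx) Q hxQ p, hxp x hx, one_smul]
    have : q ∣ p := by
      rw [← hyo]
      exact orderOf_dvd_of_pow_eq_one hyp
    exact hqp ((Nat.prime_dvd_prime_iff_eq hq hp).1 this)
  have hQ₀P : Q₀ ≠ P := by
    intro h
    apply hQ₀ 1 (one_mem _)
    rw [h, one_smul, hfix y hyN]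
  have key : ∀ (i j : ℕ) (x x' : G), x ∈ (P : Subgroup G) → x' ∈ (P : Subgroup G) → i ≤ j →
      j < q → y ^ i • x • Q₀ = y ^ j • x' • Q₀ → i = j ∧ x = x' := by
    intro i j x x' hx hx' hij hjq heq
    obtain ⟨d, rfl⟩ := Nat.exists_eq_add_of_le hij
    rw [pow_add, mul_smul] at heq
    have heq2 : x • Q₀ = y ^ d • x' • Q₀ := smul_left_cancel _ heq
    have hcd : x' * y ^ d = y ^ d * x' := ((show Commute x' y from hcomm x' hx').pow_right d).eq
    have heq3 : y ^ d • Q₀ = (x'⁻¹ * x) • Q₀ := by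
      rw [mul_smul, heq2, ← mul_smul (y ^ d) x', ← hcd, mul_smul, inv_smul_smul]
    have hx'' : x'⁻¹ * x ∈ (P : Subgroup G) := mul_mem (inv_mem hx') hx
    by_cases hd : d = 0
    · subst hd
      simp only [pow_zero, one_smul] at heq3
      have h3 := j1o_free P hP Q₀ hQ₀P _ hx'' heq3.symm
      exact ⟨by omega, (inv_mul_eq_one.1 h3).symm⟩
    · exfalso
      have hdq : Nat.Coprime d q := by
        apply Nat.Coprime.symm
        rw [Nat.Prime.coprime_iff_not_dvd hq]
        intro hdvd'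
        have := Nat.le_of_dvd (Nat.pos_of_ne_zero hd) hdvd'
        omega
      obtain ⟨m, hym⟩ : ∃ m : ℕ, (y ^ d) ^ m = y :=
        exists_pow_eq_self_of_coprime (by rw [hyo]; exact hdq)
      have hcd' : (x'⁻¹ * x) * y ^ d = y ^ d * (x'⁻¹ * x) :=
        ((show Commute (x'⁻¹ * x) y from hcomm _ hx'').pow_right d).eq
      have h4 := j1o_pow_smul (y ^ d) (x'⁻¹ * x) hcd' Q₀ heq3 m
      rw [hym] at h4
      exact hQ₀ _ (pow_mem hx'' m) h4
  have hnotP : ∀ (i : ℕ) (x : G), x ∈ (P : Subgroup G) → y ^ i • x • Q₀ ≠ P := by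
    intro i x hx h
    have hg : y ^ i * x ∈ normalizer ((P : Subgroup G) : Set G) :=
      mul_mem (pow_mem hyN i) (le_normalizer hx)
    have h5 : Q₀ = (y ^ i * x)⁻¹ • P := eq_inv_smul_iff.2 (by rw [mul_smul]; exact h)
    rw [hfix _ (inv_mem hg)] at h5
    exact hQ₀P h5
  -- the injection
  obtain ⟨f, hf⟩ : ∃ f : Option (Fin q × (P : Subgroup G)) → Sylow p G,
      (f none = P) ∧ ∀ ix : Fin q × (P : Subgroup G),
        f (some ix) = y ^ (ix.1 : ℕ) • (ix.2 : G) • Q₀ :=
    ⟨fun o => o.elim P (fun ix => y ^ (ix.1 : ℕ) • (ix.2 : G) • Q₀), rfl, fun _ => rfl⟩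
  have hinj : Function.Injective f := by
    intro o₁ o₂ h
    rcases o₁ with _ | ix₁ <;> rcases o₂ with _ | ix₂
    · rfl
    · rw [hf.1, hf.2] at h
      exact absurd h.symm (hnotP _ _ ix₂.2.2)
    · rw [hf.1, hf.2] at h
      exact absurd h (hnotP _ _ ix₁.2.2)
    · rw [hf.2, hf.2] at h
      obtain ⟨⟨i, hi⟩, ⟨x, hx⟩⟩ := ix₁
      obtain ⟨⟨j, hj⟩, ⟨x', hx'⟩⟩ := ix₂
      simp only at h
      rcases le_total i j with hij | hij
      · obtain ⟨rfl, rfl⟩ := key i j x x' hx hx' hij hj h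
        rfl
      · obtain ⟨rfl, rfl⟩ := key j i x' x hx' hx hij hi h.symm
        rfl
  have hcard := Nat.card_le_card_of_injective f hinj
  rw [Finite.card_option, Nat.card_prod, Nat.card_fin, hP] at hcard
  rw [mul_comm]
  exact hcard

end Cfsg.Agent.Helper37
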