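import Mathlib
import Cfsg.Agent.Helper9.OrdTools
import Cfsg.Agent.Helper8.SylFix
import Cfsg.Agent.Helper37.J1oP6

set_option autoImplicit false

namespace Cfsg.Agent.Helper37

open Subgroup

/-- PIECE P7 of CALL S4274. -/
theorem j1o_sign {G : Type*} [Group G] [Finite G] [IsSimpleGroup G] {p : ℕ} [Fact p.Prime]
    (P : Sylow p G) (hP : Nat.card (P : Subgroup G) = p)
    (hn : Nat.card (Sylow p G) = p + 1) (hp4 : p % 4 = 3)
    (h2 : 2 ∣ Nat.card (normalizer ((P : Subgroup G) : Set G)))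
    (hna : ∃ a b : G, a * b ≠ b * a) : False := by
  classical
  haveI : Fact (Nat.Prime 2) := ⟨Nat.prime_two⟩
  haveI : Fintype (Sylow p G) := Fintype.ofFinite _
  have hC : Nat.card (centralizer ((P : Subgroup G) : Set G)) = p :=
    Cfsg.Agent.Helper9.OrdTools.card_centralizer_of_num P hP hn
  obtain ⟨t', ht'⟩ := exists_prime_orderOf_dvd_card' 2 h2
  obtain ⟨t, htN, hto⟩ : ∃ t : G, t ∈ normalizer ((P : Subgroup G) : Set G) ∧ orderOf t = 2 :=
    ⟨t', t'.2, by rw [← ht', Subgroup.orderOf_coe]⟩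
  have htC : t ∉ centralizer ((P : Subgroup G) : Set G) := by
    intro h
    have := Subgroup.orderOf_dvd_natCard _ h
    rw [hto, hC] at this
    omega
  have htP : t • P = P := Sylow.smul_eq_iff_mem_normalizer.2 htN
  -- a second fixed point
  obtain ⟨Q₁, hQ₁, hQ₁P⟩ : ∃ Q : Sylow p G, t • Q = Q ∧ Q ≠ P := by
    by_contra hcon
    push Not at hcon
    have hfixset : MulAction.fixedBy (Sylow p G) t = {P} := by
      ext Q
      simp only [MulAction.mem_fixedBy, Set.mem_singleton_iff]
      exact ⟨fun h => hcon Q h, fun h => by rw [h]; exact htP⟩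
    have hmod := Cfsg.Agent.Helper8.SylFix.card_fixedBy_modEq (p := p) t (k := 1)
      (by rw [hto, pow_one])
    rw [hfixset, hn] at hmod
    have h1 : Nat.card ({P} : Set (Sylow p G)) = 1 := by simp
    rw [h1] at hmod
    unfold Nat.ModEq at hmod
    omega
  -- `P` acts regularly on the other Sylow subgroups
  obtain ⟨f, hf⟩ : ∃ f : Option (P : Subgroup G) → Sylow p G,
      (f none = P) ∧ ∀ u : (P : Subgroup G), f (some u) = (u : G) • Q₁ :=
    ⟨fun o => o.elim P (fun u => (u : G) • Q₁), rfl, fun _ => rfl⟩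
  have hne : ∀ u : (P : Subgroup G), (u : G) • Q₁ ≠ P := by
    intro u h
    have h5 : Q₁ = (u : G)⁻¹ • P := eq_inv_smul_iff.2 h
    rw [Sylow.smul_eq_iff_mem_normalizer.2 (le_normalizer (inv_mem u.2))] at h5
    exact hQ₁P h5
  have hinj : Function.Injective f := by
    intro o₁ o₂ h
    rcases o₁ with _ | u₁ <;> rcases o₂ with _ | u₂
    · rfl
    · rw [hf.1, hf.2] at h
      exact absurd h.symm (hne u₂)
    · rw [hf.1, hf.2] at h
      exact absurd h (hne u₁)
    · rw [hf.2, hf.2] at h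
      have h6 : ((u₂ : G)⁻¹ * (u₁ : G)) • Q₁ = Q₁ := by rw [mul_smul, h, inv_smul_smul]
      have h7 := j1o_free P hP Q₁ hQ₁P _ (mul_mem (inv_mem u₂.2) u₁.2) h6
      have h8 : (u₁ : G) = u₂ := (inv_mul_eq_one.1 h7).symm
      exact congrArg some (Subtype.ext h8)
  have hbij : Function.Bijective f := by
    apply Function.Injective.bijective_of_nat_card_le hinj
    rw [Finite.card_option, hP, hn]
  -- the fixed points of `t`
  have hfixall : ∀ Q : Sylow p G, t • Q = Q → Q = P ∨ Q = Q₁ := by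
    intro Q hQ
    obtain ⟨o, rfl⟩ := hbij.2 Q
    rcases o with _ | u
    · left; exact hf.1
    · right
      rw [hf.2] at hQ ⊢
      obtain ⟨u, hu⟩ := u
      simp only at hQ ⊢
      have hc : t * u * t⁻¹ ∈ (P : Subgroup G) := (Subgroup.mem_normalizer_iff.1 htN u).1 hu
      have h8 : (u⁻¹ * (t * u * t⁻¹)) • Q₁ = Q₁ := by
        have h9 : (t * u * t⁻¹) • Q₁ = u • Q₁ := by
          conv_lhs => rw [← hQ₁]
          rw [← mul_smul, inv_mul_cancel_right, mul_smul, hQ]
        rw [mul_smul, h9, inv_smul_smul]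
      have h9 := j1o_free P hP Q₁ hQ₁P _ (mul_mem (inv_mem hu) hc) h8
      have h10 : t * u * t⁻¹ = u := (inv_mul_eq_one.1 h9).symm
      by_cases hu1 : u = 1
      · rw [hu1, one_smul]
      · exfalso
        have hz := Cfsg.Agent.Helper9.OrdTools.zpowers_eq_sylow P hP hu hu1
        have hcz := Cfsg.Agent.Helper9.OrdTools.centralizer_singleton_eq hz
        apply htC
        rw [← hcz, Subgroup.mem_centralizer_iff]
        intro h hh
        rw [Set.mem_singleton_iff.1 hh]
        exact (mul_inv_eq_iff_eq_mul.1 h10).symm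
  -- the permutation induced by `t`
  obtain ⟨σ, hσ⟩ : ∃ σ : Equiv.Perm (Sylow p G), σ = MulAction.toPermHom G (Sylow p G) t :=
    ⟨_, rfl⟩
  have hσ2 : σ ^ 2 = 1 := by
    rw [hσ, ← map_pow, ← hto, pow_orderOf_eq_one, map_one]
  have hσapp : ∀ Q, σ Q = t • Q := fun Q => by rw [hσ]; rfl
  have hfp : Function.fixedPoints σ = {P, Q₁} := by
    ext Q
    simp only [Function.mem_fixedPoints, Function.IsFixedPt, Set.mem_insert_iff,
      Set.mem_singleton_iff, hσapp]
    constructor
    · exact hfixall Q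
    · rintro (rfl | rfl)
      · exact htP
      · exact hQ₁
  have hcardfp : Nat.card (Function.fixedPoints σ) = 2 := by
    rw [hfp, Nat.card_coe_set_eq, Set.ncard_pair hQ₁P.symm]
  have hs := Cfsg.Agent.Helper8.SylFix.sign_of_involution σ hσ2 ((p - 1) / 2)
    (by
      rw [← Nat.card_eq_fintype_card, ← Nat.card_eq_fintype_card, hcardfp, hn]
      omega)
    (Nat.odd_iff.2 (by omega))
  have h1 := Cfsg.Agent.Helper9.OrdTools.hom_trivial hna
    (Equiv.Perm.sign.comp (MulAction.toPermHom G (Sylow p G))) t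
  have h3 : Equiv.Perm.sign σ = 1 := by rw [hσ]; exact h1
  rw [hs] at h3
  exact absurd h3 (by decide)

end Cfsg.Agent.Helper37
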