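import Mathlib

set_option autoImplicit false
set_option linter.unusedVariables false

/-!
# CALL NP (helper13, row S5989), piece COMB (helper37; double)
-/

namespace Cfsg.Agent.Helper37.NP5989

universe u

/-- a multiset below `{x} + {x} + replicate n 2` (`x ≠ 2`) consists of at most two `x` and of `2`s -/
theorem npcomb_aux (x : ℕ) (hx : x ≠ 2) (n : ℕ) (ν : Multiset ℕ)
    (h : ν ≤ {x} + {x} + Multiset.replicate n 2) :
    ν.count x ≤ 2 ∧ ν.sum = ν.count x * x + ν.count 2 * 2 := by
  have hcx : ν.count x ≤ 2 := by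
    have := Multiset.count_le_of_le x h
    rw [Multiset.count_add, Multiset.count_add, Multiset.count_singleton_self,
      Multiset.count_replicate, if_neg (Ne.symm hx)] at this
    exact this
  refine ⟨hcx, ?_⟩
  have hν : ν = Multiset.replicate (ν.count x) x + Multiset.replicate (ν.count 2) 2 := by
    ext e
    rw [Multiset.count_add, Multiset.count_replicate, Multiset.count_replicate]
    by_cases h1 : e = x
    · subst h1
      rw [if_pos rfl, if_neg (Ne.symm hx), add_zero]
    · by_cases h2 : e = 2
      · subst h2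
        rw [if_neg (Ne.symm h1), if_pos rfl, zero_add]
      · rw [if_neg (Ne.symm h1), if_neg (Ne.symm h2), add_zero]
        have := Multiset.count_le_of_le e h
        rw [Multiset.count_add, Multiset.count_add, Multiset.count_singleton,
          Multiset.count_replicate, if_neg h1, if_neg (Ne.symm h2)] at this
        omega
  conv_lhs => rw [hν]
  rw [Multiset.sum_add, Multiset.sum_replicate, Multiset.sum_replicate, smul_eq_mul, smul_eq_mul]

/-- COMB [S-M, pure Multiset]: no sub-type of odd size with even multiplicities of the even parts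
(`ν = replicate a o + replicate k 2`; compare `Cfsg.Agent.Helper10.u5994_sub_cons_replicate`). -/
theorem np_comb (d m : ℕ) (hm : Odd m) (ν : Multiset ℕ) (hs : ν.sum = m)
    (hpar : ∀ e, Even e → Even (ν.count e)) :
    (Even d → ¬ ν ≤ Multiset.replicate d 2) ∧
    (Odd d → m % 4 = 3 → ¬ ν ≤ {1} + {1} + Multiset.replicate (d - 1) 2) ∧
    (Odd d → m % 4 = 1 → ¬ ν ≤ {3} + {3} + Multiset.replicate (d - 3) 2) := by
  obtain ⟨km, hkm⟩ := hm
  obtain ⟨j, hj⟩ := hpar 2 even_two
  refine ⟨fun _ h => ?_, fun _ hm4 h => ?_, fun _ hm4 h => ?_⟩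
  · have hall : ∀ b ∈ ν, b = 2 := fun b hb => Multiset.eq_of_mem_replicate (Multiset.mem_of_le h hb)
    have hν := Multiset.eq_replicate_card.2 hall
    rw [hν, Multiset.sum_replicate, smul_eq_mul] at hs
    omega
  · obtain ⟨h1, h2⟩ := npcomb_aux 1 (by norm_num) (d - 1) ν h
    rw [hs] at h2
    omega
  · obtain ⟨h1, h2⟩ := npcomb_aux 3 (by norm_num) (d - 3) ν h
    rw [hs] at h2
    omega

end Cfsg.Agent.Helper37.NP5989
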