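import Mathlib
import Cfsg.Agent.Helper37.NPCOMB

set_option autoImplicit false
set_option linter.unusedSectionVars false
set_option linter.unusedVariables false

/-!
# CALL OD (helper69; rows S5989 + S5991), piece PCOMBO (helper37)

Follows from `Cfsg.Agent.Helper37.NP5989.np_comb` (the twin piece COMB of CALL NP).
-/

namespace Cfsg.Agent.Helper37.OD59

/-- PCOMBO [M, pure multisets]: `d` odd.  `m % 4 = 1`: `μ = 3 ::ₘ 3 ::ₘ replicate (d - 3) 2`; a
sub-multiset `ν` with even `count 2` has sum `3 * count 3 + 2 * count 2` (`Finset.sum_multiset_count`),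
odd only if `count 3 = 1`, and then `≡ 3 mod 4`.  `m % 4 = 3`: `μ = 1 ::ₘ 1 ::ₘ replicate (d - 1) 2`,
sum `count 1 + 2 * count 2 ≡ 1 mod 4` when odd. -/
theorem od_p_comb_odd (p d m : ℕ) (hp3 : 3 ≤ p) (hd : 3 ≤ d) (hdo : Odd d) (hmo : Odd m) :
    ∃ μ : Multiset ℕ, (∀ e ∈ μ, 0 < e ∧ e ≤ p) ∧ (∀ e : ℕ, Even e → Even (μ.count e)) ∧
      μ.sum = 2 * d ∧ (∃ e ∈ μ, Odd e) ∧
      ¬ ∃ ν : Multiset ℕ, ν ≤ μ ∧ ν.sum = m ∧ ∀ e : ℕ, Even e → Even (ν.count e) := by
  obtain ⟨kd, hkd⟩ := hdo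
  have hm4 : m % 4 = 1 ∨ m % 4 = 3 := by
    obtain ⟨km, hkm⟩ := hmo
    omega
  -- a general computation for `μ = {x} + {x} + replicate n 2`, `x` odd
  have key : ∀ x n : ℕ, Odd x → 0 < x → x ≤ p → Even n → x + x + 2 * n = 2 * d →
      (∀ e ∈ ({x} + {x} + Multiset.replicate n 2 : Multiset ℕ), 0 < e ∧ e ≤ p) ∧
      (∀ e : ℕ, Even e → Even (({x} + {x} + Multiset.replicate n 2 : Multiset ℕ).count e)) ∧
      ({x} + {x} + Multiset.replicate n 2 : Multiset ℕ).sum = 2 * d ∧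
      (∃ e ∈ ({x} + {x} + Multiset.replicate n 2 : Multiset ℕ), Odd e) := by
    intro x n hxo hx0 hxp hne hsum
    refine ⟨?_, ?_, ?_, ?_⟩
    · intro e he
      rw [Multiset.mem_add, Multiset.mem_add, Multiset.mem_singleton] at he
      rcases he with (rfl | rfl) | he
      · exact ⟨hx0, hxp⟩
      · exact ⟨hx0, hxp⟩
      · rw [Multiset.eq_of_mem_replicate he]
        omega
    · intro e he
      have hex : e ≠ x := by
        rintro rfl
        exact (Nat.not_even_iff_odd.2 hxo) he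
      rw [Multiset.count_add, Multiset.count_add, Multiset.count_singleton, if_neg hex,
        Multiset.count_replicate]
      split_ifs
      · simpa using hne
      · exact Even.zero
    · rw [Multiset.sum_add, Multiset.sum_add, Multiset.sum_singleton, Multiset.sum_replicate,
        smul_eq_mul]
      omega
    · exact ⟨x, by simp, hxo⟩
  rcases hm4 with h1 | h3
  · obtain ⟨k1, k2, k3, k4⟩ := key 3 (d - 3) (by decide) (by norm_num) hp3 ⟨kd - 1, by omega⟩
      (by omega)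
    refine ⟨{3} + {3} + Multiset.replicate (d - 3) 2, k1, k2, k3, k4, ?_⟩
    rintro ⟨ν, hle, hs, hpar⟩
    exact (Cfsg.Agent.Helper37.NP5989.np_comb d m hmo ν hs hpar).2.2 ⟨kd, hkd⟩ h1 hle
  · obtain ⟨k1, k2, k3, k4⟩ := key 1 (d - 1) (by decide) (by norm_num) (by omega) ⟨kd, by omega⟩
      (by omega)
    refine ⟨{1} + {1} + Multiset.replicate (d - 1) 2, k1, k2, k3, k4, ?_⟩
    rintro ⟨ν, hle, hs, hpar⟩
    exact (Cfsg.Agent.Helper37.NP5989.np_comb d m hmo ν hs hpar).2.1 ⟨kd, hkd⟩ h3 hle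

end Cfsg.Agent.Helper37.OD59
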