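import Mathlib
import Cfsg.Agent.Helper96.OHDefs
import Cfsg.Agent.Helper69.ODDefs
import Cfsg.Agent.Helper45.Spinor

set_option autoImplicit false
set_option linter.unusedSectionVars false
set_option linter.unusedVariables false

/-!
# CALL OD (helper69) piece R2GEN (double, helper37): core

The statement of R2GEN with the pieces it uses (Z of CALL TSR2, DGOOD2, DSISO2, DSKEVEN) taken as
hypotheses, so that this file depends on the two hubs only.
-/

namespace Cfsg.Agent.Helper37.OD59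

open Module Polynomial Cfsg Cfsg.Geo
open Cfsg.Agent.Helper13.TIu Cfsg.Agent.Helper96.OH Cfsg.Agent.Helper69.OD
open scoped MatrixGroups

variable {ι : Type} [Fintype ι] [DecidableEq ι] {F : Type*} [Field F] (Q : (ι → F) → F)

theorem od_two_iff_of [Fintype F] (hQ : IsNondegenerateQuadraticForm Q) (h2 : (2 : F) ≠ 0)
    (d m : ℕ) (hcard : Fintype.card ι = 2 * d) (hmo : Odd m) (hmd : m < d)
    (W₀ : Submodule F (ι → F)) (hW₀ : finrank F W₀ = m ∧ ONd Q W₀)
    (hZ : ∀ (M : Matrix ι ι F), (∀ v, Q (M.mulVec v) = Q v) → ∀ z : F,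
      M * M = z • (1 : Matrix ι ι F) → z = 1 ∨ z = -1)
    (hGood2 : ∀ (M : Matrix ι ι F), (∀ v, Q (M.mulVec v) = Q v) → M * M = 1 → ∀ b : Prop,
      ∃ W : Submodule F (ι → F), (finrank F W = m ∧ ONd Q W ∧ (ODs Q W ↔ b)) ∧
        W.map (Matrix.toLin' M) ≤ W)
    (hIso : ∀ W W' : Submodule F (ι → F), ONd Q W → ONd Q W' → finrank F W = finrank F W' →
      (ODs Q W ↔ ODs Q W') → AreIsometricFor Q W W')
    (hSkEven : ∀ (M : Matrix ι ι F), (∀ v, Q (M.mulVec v) = Q v) → M * M = -1 →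
      ∀ W : Submodule F (ι → F), W.map (Matrix.toLin' M) ≤ W → ONd Q W → Even (finrank F W)) :
    (∀ x : GL ι F, x ∈ Cfsg.Geo.omegaGL Q →
      (∃ z : F, ((x ^ 2 : GL ι F) : Matrix ι ι F) = z • (1 : Matrix ι ι F)) →
      (∀ z : F, (x : Matrix ι ι F) ≠ z • (1 : Matrix ι ι F)) →
      ∃ W : Submodule F (ι → F), (finrank F W = m ∧ ONd Q W ∧ AreIsometricFor Q W W₀) ∧
        W.map (Matrix.toLin' (x : Matrix ι ι F)) ≤ W) ↔
    ¬ ∃ g : ↥(Cfsg.isometryGroup F Q), g ∈ Cfsg.Omega F Q ∧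
      ((g : GL ι F) : Matrix ι ι F) * ((g : GL ι F) : Matrix ι ι F) = -1 := by
  classical
  have hne : Nonempty ι := by
    by_contra h
    rw [not_nonempty_iff] at h
    have h0 : Fintype.card ι = 0 := Fintype.card_eq_zero
    omega
  obtain ⟨i0⟩ := hne
  have hw0 : (Pi.single i0 (1 : F) : ι → F) ≠ 0 := by
    intro h
    have := congrFun h i0
    simp at this
  obtain ⟨-, x0, hx0⟩ := hQ.nondegenerate _ hw0
  have hex : ∃ v : ι → F, Q v ≠ 0 := by
    by_contra hcon
    push Not at hcon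
    apply hx0
    unfold QuadraticMap.polar
    rw [hcon, hcon, hcon]; ring
  constructor
  · rintro hall ⟨g, hgΩ, hg2⟩
    have hiso : ∀ v, Q (((g : GL ι F) : Matrix ι ι F).mulVec v) = Q v :=
      (Cfsg.Agent.Helper45.mem_iso_iff Q g.1).mp g.2
    have hmem : (g : GL ι F) ∈ Cfsg.Geo.omegaGL Q := ⟨g, hgΩ, rfl⟩
    have hsq : ∃ z : F, (((g : GL ι F) ^ 2 : GL ι F) : Matrix ι ι F) = z • (1 : Matrix ι ι F) := by
      refine ⟨-1, ?_⟩
      rw [pow_two, Units.val_mul, hg2, neg_smul, one_smul]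
    have hns : ∀ z : F, ((g : GL ι F) : Matrix ι ι F) ≠ z • (1 : Matrix ι ι F) := by
      intro z hz
      obtain ⟨v, hv⟩ := hex
      have h1 := hiso v
      rw [hz, Matrix.smul_mulVec, Matrix.one_mulVec, hQ.smul] at h1
      have hzz : z * z = -1 := by
        have h3 := congrFun (congrFun hg2 i0) i0
        rw [hz] at h3
        simpa using h3
      have h4 : (2 : F) * Q v = 0 := by
        have : z ^ 2 = -1 := by rw [pow_two]; exact hzz
        rw [this] at h1
        linear_combination -h1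
      rcases mul_eq_zero.mp h4 with h5 | h5
      · exact h2 h5
      · exact hv h5
    obtain ⟨W, ⟨hWm, hWnd, -⟩, hWinv⟩ := hall _ hmem hsq hns
    have hev := hSkEven _ hiso hg2 W hWinv hWnd
    rw [hWm] at hev
    exact (Nat.not_even_iff_odd.mpr hmo) hev
  · rintro hno x hx ⟨z, hz⟩ hns
    obtain ⟨g, hgΩ, hgx⟩ := hx
    have hgx' : (g : GL ι F) = x := hgx
    have hiso : ∀ v, Q ((x : Matrix ι ι F).mulVec v) = Q v := by
      rw [← hgx']
      exact (Cfsg.Agent.Helper45.mem_iso_iff Q g.1).mp g.2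
    have hz' : (x : Matrix ι ι F) * (x : Matrix ι ι F) = z • (1 : Matrix ι ι F) := by
      rw [← hz, pow_two, Units.val_mul]
    rcases hZ _ hiso z hz' with rfl | rfl
    · rw [one_smul] at hz'
      obtain ⟨W, ⟨hWm, hWnd, hWb⟩, hWinv⟩ := hGood2 _ hiso hz' (ODs Q W₀)
      exact ⟨W, ⟨hWm, hWnd, hIso W W₀ hWnd hW₀.2 (hWm.trans hW₀.1.symm) hWb⟩, hWinv⟩
    · exfalso
      apply hno
      refine ⟨g, hgΩ, ?_⟩
      rw [hgx', hz', neg_smul, one_smul]

end Cfsg.Agent.Helper37.OD59
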