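import Mathlib
import Cfsg.Agent.Helper96.OHDefs
import Cfsg.Agent.Helper69.ODDefs
import Cfsg.Agent.Helper37.ODR2GENCore
import Cfsg.Agent.Helper70.TSR2Z
import Cfsg.Agent.Helper33.ODDSISO2
import Cfsg.Agent.Helper52.ODDSKEVEN
import Cfsg.Agent.Helper58.ODDGOOD2

set_option autoImplicit false
set_option linter.unusedSectionVars false
set_option linter.unusedVariables false

/-!
# CALL OD (helper69) piece R2GEN (double, helper37)
-/

namespace Cfsg.Agent.Helper37.OD59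

open Module Polynomial Cfsg Cfsg.Geo
open Cfsg.Agent.Helper13.TIu Cfsg.Agent.Helper96.OH Cfsg.Agent.Helper69.OD
open scoped MatrixGroups

variable {ι : Type} [Fintype ι] [DecidableEq ι] {F : Type*} [Field F] (Q : (ι → F) → F)

theorem od_two_iff [Fintype F] (hQ : IsNondegenerateQuadraticForm Q) (h2 : (2 : F) ≠ 0)
    (d m : ℕ) (hcard : Fintype.card ι = 2 * d) (hmo : Odd m) (hmd : m < d)
    (W₀ : Submodule F (ι → F)) (hW₀ : finrank F W₀ = m ∧ ONd Q W₀) :
    (∀ x : GL ι F, x ∈ Cfsg.Geo.omegaGL Q →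
      (∃ z : F, ((x ^ 2 : GL ι F) : Matrix ι ι F) = z • (1 : Matrix ι ι F)) →
      (∀ z : F, (x : Matrix ι ι F) ≠ z • (1 : Matrix ι ι F)) →
      ∃ W : Submodule F (ι → F), (finrank F W = m ∧ ONd Q W ∧ AreIsometricFor Q W W₀) ∧
        W.map (Matrix.toLin' (x : Matrix ι ι F)) ≤ W) ↔
    ¬ ∃ g : ↥(Cfsg.isometryGroup F Q), g ∈ Cfsg.Omega F Q ∧
      ((g : GL ι F) : Matrix ι ι F) * ((g : GL ι F) : Matrix ι ι F) = -1 := by
  have hne : Nonempty ι := by
    by_contra h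
    rw [not_nonempty_iff] at h
    have h0 : Fintype.card ι = 0 := Fintype.card_eq_zero
    omega
  exact od_two_iff_of Q hQ h2 d m hcard hmo hmd W₀ hW₀
    (fun M hM z hz => Cfsg.Agent.Helper70.TSR2.r2_z Q hQ hne M hM z hz)
    (fun M hM hM2 b => Cfsg.Agent.Helper58.OD59.od_good_two Q hQ h2 M hM hM2 m (Odd.pos hmo)
      (by omega) b)
    (fun W W' hW hW' hdim h => Cfsg.Agent.Helper33.OD59.iso_of_ods Q hQ h2 W W' hW hW' hdim h)
    (fun M hM hM2 W hW hnd => Cfsg.Agent.Helper52.OD59.od_skew_even Q hQ h2 M hM hM2 W hW hnd)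

end Cfsg.Agent.Helper37.OD59
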