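import Mathlib
import Cfsg.Agent.Helper96.OHDefs
import Cfsg.Agent.Helper43.PrimeOrdO

set_option autoImplicit false
set_option linter.unusedSectionVars false
set_option linter.unusedVariables false

/-!
# CALL S5992 (helper96), piece OSTD (helper37)
-/

namespace Cfsg.Agent.Helper37.OH5992

open Module Polynomial Cfsg Cfsg.Geo
open Cfsg.Agent.Helper13.TIu Cfsg.Agent.Helper96.OH

variable {ι : Type} [Fintype ι] [DecidableEq ι] {F : Type*} [Field F] (Q : (ι → F) → F)

/-- OSTD: the standard odd-dimensional form is a nondegenerate quadratic form in odd characteristic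
(`Cfsg.Agent.Helper43.PrimeOrdO.oddQF_nondeg`, `Cfsg.Agent.Helper43.OrthStd.polar_odd`). -/
theorem o_std_nondeg (h2 : (2 : F) ≠ 0) (d : ℕ) :
    IsNondegenerateQuadraticForm (Cfsg.quadFormOdd d F) := by
  have hnd := Cfsg.Agent.Helper43.PrimeOrdO.oddQF_nondeg h2 d
  refine ⟨fun c v => ?_, ⟨?_, ?_, ?_, ?_⟩, fun v hv => ?_⟩
  · have h := QuadraticMap.map_smul (Cfsg.Agent.Helper43.oddQF d F) c v
    rw [smul_eq_mul, ← pow_two] at h
    exact h
  · exact fun x y v => QuadraticMap.polar_add_left (Cfsg.Agent.Helper43.oddQF d F) x y v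
  · intro c x v
    have h := QuadraticMap.polar_smul_left (Cfsg.Agent.Helper43.oddQF d F) c x v
    rw [smul_eq_mul] at h
    exact h
  · exact fun v x y => QuadraticMap.polar_add_right (Cfsg.Agent.Helper43.oddQF d F) v x y
  · intro c v x
    have h := QuadraticMap.polar_smul_right (Cfsg.Agent.Helper43.oddQF d F) c v x
    rw [smul_eq_mul] at h
    exact h
  · have h1 : ∃ x, QuadraticMap.polar (Cfsg.quadFormOdd d F) v x ≠ 0 := by
      by_contra hcon
      push Not at hcon
      exact hv (hnd.1 v hcon)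
    obtain ⟨x, hx⟩ := h1
    exact ⟨⟨x, by rwa [QuadraticMap.polar_comm]⟩, ⟨x, hx⟩⟩

end Cfsg.Agent.Helper37.OH5992
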