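import Mathlib
import Cfsg.Agent.Helper43.OTDefs

set_option autoImplicit false

/-!
# CALL OT (helper43, S5972), piece BADC — core (helper37)

`ot_bad_c_core` is the piece BADC with the two pieces it uses (MODC and XFER, at the parameters it
needs) passed in as hypotheses; `Cfsg.Agent.Helper37.OTBADC` instantiates them with the landed
modules.
-/

namespace Cfsg.Agent.Helper37.OT5972

open Module Polynomial Cfsg.Agent.Helper90.HT Cfsg.Agent.Helper43.OT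
open Cfsg.Agent.Helper43.C3O (gm)

universe u

section grp3

variable {F : Type u} [Field F] [Fintype F] {ι : Type} [Fintype ι] [DecidableEq ι]

/-- BADC with MODC and XFER as hypotheses. -/
theorem ot_bad_c_core (p : ℕ) [Fact p.Prime] [CharP F p] (r : ℕ)
    [Fact r.Prime]
    (hr2 : 2 < r) (hrp : r ≠ p) (i : ℕ) (hi : i = orderOf ((Fintype.card F : ℕ) : ZMod r))
    (hie : Even i) (d u e : ℕ) (hu : 1 ≤ u) (hut : u ≤ (r - 1) / i)
    (hdim : 2 * d + 1 = i * u + e)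
    (MODC : ∀ (e₁ : ℕ) [NeZero (2 * e₁)], 1 ≤ e₁ → (r : F) ≠ 0 →
      orderOf ((Fintype.card F : ℕ) : ZMod r) = 2 * e₁ → ∀ (u e' : ℕ), 1 ≤ u →
      u ≤ (r - 1) / (2 * e₁) →
      ∃ (Q' : QuadraticForm F
          ((Fin u → FiniteField.Extension F p (2 * e₁)) × (Unit ⊕ (Fin e' ⊕ Fin e') → F)))
        (T : Module.End F
          ((Fin u → FiniteField.Extension F p (2 * e₁)) × (Unit ⊕ (Fin e' ⊕ Fin e') → F))),
        (∀ v, (∀ w, QuadraticMap.polar Q' v w = 0) → v = 0) ∧ (∀ v, Q' (T v) = Q' v) ∧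
          T ^ r = 1 ∧ T ≠ 1 ∧
          ∀ W : Submodule F
              ((Fin u → FiniteField.Extension F p (2 * e₁)) × (Unit ⊕ (Fin e' ⊕ Fin e') → F)),
            (∀ w ∈ W, Q' w = 0) → W.map T ≤ W → 2 * finrank F W ≤ 2 * e' + 1)
    (XFER : ∀ {V' : Type u} [AddCommGroup V'] [Module F V'] [FiniteDimensional F V']
      (Q' : QuadraticForm F V'), (∀ v, (∀ w, QuadraticMap.polar Q' v w = 0) → v = 0) →
      finrank F V' = 2 * d + 1 → ∀ (T : Module.End F V'), (∀ v, Q' (T v) = Q' v) →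
      T ^ r = 1 → T ≠ 1 →
      ∃ (x : Matrix.GeneralLinearGroup (Unit ⊕ (Fin d ⊕ Fin d)) F)
        (Φ : V' ≃ₗ[F] (Unit ⊕ (Fin d ⊕ Fin d) → F)),
        x ∈ Cfsg.Geo.omegaGL (Cfsg.quadFormOdd d F) ∧ orderOf x = r ∧
        (∀ v, Cfsg.quadFormOdd d F (Φ v) = 0 ↔ Q' v = 0) ∧
        ∀ v, Matrix.toLin'
          (x : Matrix (Unit ⊕ (Fin d ⊕ Fin d)) (Unit ⊕ (Fin d ⊕ Fin d)) F) (Φ v) = Φ (T v)) :
    ∃ x : Matrix.GeneralLinearGroup (Unit ⊕ (Fin d ⊕ Fin d)) F,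
      x ∈ Cfsg.Geo.omegaGL (Cfsg.quadFormOdd d F) ∧ orderOf x = r ∧
      ∀ W : Submodule F (Unit ⊕ (Fin d ⊕ Fin d) → F), (∀ w ∈ W, Cfsg.quadFormOdd d F w = 0) →
        W.map (Matrix.toLin'
          (x : Matrix (Unit ⊕ (Fin d ⊕ Fin d)) (Unit ⊕ (Fin d ⊕ Fin d)) F)) ≤ W →
        2 * finrank F W ≤ e := by
  have hp : p.Prime := Fact.out
  have hr : r.Prime := Fact.out
  have hi0 : 0 < i := by
    rw [hi, orderOf_pos_iff, isOfFinOrder_iff_pow_eq_one]
    refine ⟨r - 1, by omega, ?_⟩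
    apply ZMod.pow_card_sub_one_eq_one
    obtain ⟨n, -, hn⟩ := FiniteField.card F p
    rw [hn]
    intro h0
    rw [ZMod.natCast_eq_zero_iff] at h0
    exact hrp ((Nat.prime_dvd_prime_iff_eq hr hp).1 (hr.dvd_of_dvd_pow h0))
  obtain ⟨k, hk⟩ := hie
  have hi2 : 2 * (i / 2) = i := by omega
  haveI : NeZero (2 * (i / 2)) := ⟨by omega⟩
  have hrF : (r : F) ≠ 0 := by
    intro h0
    rw [CharP.cast_eq_zero_iff F p] at h0
    exact hrp ((Nat.prime_dvd_prime_iff_eq hp hr).1 h0).symm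
  have hiu : i * u = 2 * (k * u) := by rw [hk]; ring
  have he2 : 2 * ((e - 1) / 2) + 1 = e := by omega
  obtain ⟨Q', T, hnd, hT, hTr, hT1, hW⟩ := MODC (i / 2) (by omega) hrF
    (by rw [hi2]; exact hi.symm) u ((e - 1) / 2) hu (by rw [hi2]; exact hut)
  have hfin : finrank F ((Fin u → FiniteField.Extension F p (2 * (i / 2))) ×
      (Unit ⊕ (Fin ((e - 1) / 2) ⊕ Fin ((e - 1) / 2)) → F)) = 2 * d + 1 := by
    rw [Module.finrank_prod, Module.finrank_pi_fintype, Module.finrank_fintype_fun_eq_card]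
    simp only [FiniteField.finrank_extension, Finset.sum_const, Finset.card_univ, Fintype.card_fin,
      Fintype.card_sum, Fintype.card_unit, smul_eq_mul]
    rw [hi2, hdim, mul_comm u i]
    omega
  obtain ⟨x, Φ, hxΩ, hxr, hΦ, hxT⟩ := XFER Q' hnd hfin T hT hTr hT1
  refine ⟨x, hxΩ, hxr, fun W hWs hWx => ?_⟩
  have h1 := hW (W.comap Φ.toLinearMap) (fun w hw => (hΦ w).1 (hWs _ hw)) (by
    rintro _ ⟨w, hw, rfl⟩
    show Φ (T w) ∈ W
    rw [← hxT]
    exact hWx ⟨Φ w, hw, rfl⟩)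
  have hfr : finrank F (W.comap Φ.toLinearMap) = finrank F W := by
    rw [Submodule.comap_equiv_eq_map_symm]
    exact LinearEquiv.finrank_map_eq Φ.symm W
  rw [hfr] at h1
  omega

end grp3

end Cfsg.Agent.Helper37.OT5972
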