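-- helper37 library: piece EV of helper43's CALL S2720.
import Mathlib
import Cfsg.Agent.Helper45.IDMinus
import Cfsg.Agent.Helper43.OrthSemi
import Cfsg.Agent.Helper43.USimDet
import Cfsg.Agent.Helper43.NormGen

set_option autoImplicit false

namespace Cfsg.Agent.Helper37.PFEV

open Cfsg Matrix Polynomial Cfsg.Agent.Helper45 Cfsg.Agent.Helper45.ID

universe u

variable {ι : Type} [Fintype ι] [DecidableEq ι] {F : Type u} [Field F] [Fintype F]

/-- EV: the cyclic module generated by a vector killed by the irreducible `f(G)` is `F[X]/(f)` -/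
theorem pf_ev (G : Matrix ι ι F) (f : F[X]) (hf : Irreducible f) (v : ι → F) (hv : v ≠ 0)
    (hfv : (aeval G f) *ᵥ v = 0) :
    ∃ j : AdjoinRoot f →ₗ[F] (ι → F), Function.Injective j ∧
      ∀ a : F[X], j (AdjoinRoot.mk f a) = (aeval G a) *ᵥ v := by
  classical
  -- `f ∣ a - b` implies `a(G) v = b(G) v`
  have hk : ∀ a b : F[X], f ∣ a - b → (aeval G a) *ᵥ v = (aeval G b) *ᵥ v := by
    intro a b hab
    obtain ⟨c, hc⟩ := hab
    have h1 : aeval G a = aeval G b + aeval G c * aeval G f := by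
      have h2 : a = b + c * f := by rw [mul_comm, ← hc]; ring
      rw [h2, map_add, map_mul]
    rw [h1, Matrix.add_mulVec, ← Matrix.mulVec_mulVec, hfv, Matrix.mulVec_zero, add_zero]
  have hsurj : ∀ x : AdjoinRoot f, ∃ a : F[X], AdjoinRoot.mk f a = x :=
    fun x => AdjoinRoot.mk_surjective x
  choose rep hrep using hsurj
  have hjmk : ∀ a : F[X], (aeval G (rep (AdjoinRoot.mk f a))) *ᵥ v = (aeval G a) *ᵥ v := by
    intro a
    apply hk
    rw [← AdjoinRoot.mk_eq_mk, hrep]
  let j : AdjoinRoot f →ₗ[F] (ι → F) :=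
    { toFun := fun x => (aeval G (rep x)) *ᵥ v
      map_add' := by
        intro x y
        have h1 : x + y = AdjoinRoot.mk f (rep x + rep y) := by
          rw [map_add, hrep, hrep]
        show (aeval G (rep (x + y))) *ᵥ v = (aeval G (rep x)) *ᵥ v + (aeval G (rep y)) *ᵥ v
        rw [h1, hjmk, map_add, Matrix.add_mulVec]
      map_smul' := by
        intro c x
        have h1 : c • x = AdjoinRoot.mk f (c • rep x) := by
          rw [← AdjoinRoot.smul_mk, hrep]
        show (aeval G (rep (c • x))) *ᵥ v = c • ((aeval G (rep x)) *ᵥ v)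
        rw [h1, hjmk, map_smul, Matrix.smul_mulVec] }
  have hj : ∀ a : F[X], j (AdjoinRoot.mk f a) = (aeval G a) *ᵥ v := hjmk
  refine ⟨j, ?_, hj⟩
  rw [injective_iff_map_eq_zero]
  intro x hx
  obtain ⟨a, rfl⟩ := AdjoinRoot.mk_surjective x
  rw [hj] at hx
  by_contra hne
  have hnd : ¬ f ∣ a := by
    intro hd
    apply hne
    rw [AdjoinRoot.mk_eq_zero]
    exact hd
  have hcop : IsCoprime f a := (EuclideanDomain.dvd_or_coprime f a hf).resolve_left hnd
  obtain ⟨s, t, hst⟩ := hcop
  apply hv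
  have h1 : (aeval G (s * f + t * a)) *ᵥ v = v := by
    rw [hst, map_one, Matrix.one_mulVec]
  rw [map_add, map_mul, map_mul, Matrix.add_mulVec, ← Matrix.mulVec_mulVec, ← Matrix.mulVec_mulVec,
    hfv, hx, Matrix.mulVec_zero, Matrix.mulVec_zero, add_zero] at h1
  exact h1.symm

end Cfsg.Agent.Helper37.PFEV
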