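-- helper37 library: piece FIXV of helper43's CALL S2720.
import Mathlib
import Cfsg.Agent.Helper45.IDMinus
import Cfsg.Agent.Helper43.OrthSemi
import Cfsg.Agent.Helper43.USimDet
import Cfsg.Agent.Helper43.NormGen

set_option autoImplicit false

namespace Cfsg.Agent.Helper37.PFFIXV

open Cfsg Matrix Polynomial Cfsg.Agent.Helper45 Cfsg.Agent.Helper45.ID

universe u

variable {ι : Type} [Fintype ι] [DecidableEq ι] {F : Type u} [Field F] [Fintype F]

/-- FIXV: if `g` (of order prime to `p`) fixes a non-zero vector, it fixes an anisotropic one. -/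
theorem pf_fix_or (Q : QuadraticForm F (ι → F)) (hQ : (QuadraticMap.polarBilin Q).Nondegenerate)
    (g : ↥(isometryGroup F ⇑Q)) {r : ℕ} (hrF : (r : F) ≠ 0) (hgr : g ^ r = 1) :
    (∃ v : ι → F, mv ⇑Q g v = v ∧ Q v ≠ 0) ∨ (∀ v : ι → F, mv ⇑Q g v = v → v = 0) := by
  classical
  by_cases h : ∀ v : ι → F, mv ⇑Q g v = v → v = 0
  · exact Or.inr h
  · left
    push Not at h
    obtain ⟨v₀, hv₀, hv₀0⟩ := h
    -- `y` with `B(v₀, y) ≠ 0`
    have hy : ∃ y : ι → F, QuadraticMap.polar ⇑Q v₀ y ≠ 0 := by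
      by_contra hcon
      push Not at hcon
      exact hv₀0 (hQ.1 v₀ hcon)
    obtain ⟨y, hy⟩ := hy
    -- powers of `g` fix `v₀`
    have hpow : ∀ i : ℕ, mv ⇑Q (g ^ i) v₀ = v₀ := by
      intro i
      induction i with
      | zero => rw [pow_zero, mv_one]
      | succ i ih => rw [pow_succ, mv_mul, hv₀, ih]
    obtain ⟨w, hw⟩ : ∃ w : ι → F, w = ∑ i ∈ Finset.range r, mv ⇑Q (g ^ i) y := ⟨_, rfl⟩
    have hsum : ∀ (M : Matrix ι ι F) (s : Finset ℕ) (x : ℕ → ι → F),
        M *ᵥ (∑ i ∈ s, x i) = ∑ i ∈ s, M *ᵥ x i := by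
      intro M s x
      exact map_sum (Matrix.mulVecLin M) x s
    have hwfix : mv ⇑Q g w = w := by
      rw [hw]
      show ((g : GL ι F) : Matrix ι ι F) *ᵥ _ = _
      rw [hsum]
      have h1 : ∀ i : ℕ, ((g : GL ι F) : Matrix ι ι F) *ᵥ mv ⇑Q (g ^ i) y
          = mv ⇑Q (g ^ (i + 1)) y := by
        intro i
        rw [pow_succ', mv_mul]
      rw [Finset.sum_congr rfl (fun i _ => h1 i)]
      have h2 := Finset.sum_range_succ (fun i => mv ⇑Q (g ^ i) y) r
      have h3 := Finset.sum_range_succ' (fun i => mv ⇑Q (g ^ i) y) r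
      rw [h3] at h2
      simp only [pow_zero, hgr, mv_one] at h2
      exact add_right_cancel h2
    have hBw : QuadraticMap.polar ⇑Q v₀ w = (r : F) * QuadraticMap.polar ⇑Q v₀ y := by
      have h1 : QuadraticMap.polar ⇑Q v₀ w
          = ∑ i ∈ Finset.range r, QuadraticMap.polar ⇑Q v₀ (mv ⇑Q (g ^ i) y) := by
        rw [hw]
        exact map_sum (QuadraticMap.polarBilin Q v₀) _ _
      have h2 : ∀ i : ℕ, QuadraticMap.polar ⇑Q v₀ (mv ⇑Q (g ^ i) y)
          = QuadraticMap.polar ⇑Q v₀ y := by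
        intro i
        conv_lhs => rw [← hpow i]
        exact mv_polar Q (g ^ i) v₀ y
      rw [h1, Finset.sum_congr rfl (fun i _ => h2 i), Finset.sum_const, Finset.card_range,
        nsmul_eq_mul]
    have hBne : QuadraticMap.polar ⇑Q v₀ w ≠ 0 := by
      rw [hBw]
      exact mul_ne_zero hrF hy
    by_cases hq0 : Q v₀ = 0
    · by_cases hqw : Q w = 0
      · refine ⟨v₀ + w, ?_, ?_⟩
        · rw [mv_add, hv₀, hwfix]
        · have h1 : Q (v₀ + w) = Q v₀ + Q w + QuadraticMap.polar ⇑Q v₀ w := by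
            unfold QuadraticMap.polar
            ring
          rw [h1, hq0, hqw, zero_add, zero_add]
          exact hBne
      · exact ⟨w, hwfix, hqw⟩
    · exact ⟨v₀, hv₀, hq0⟩

end Cfsg.Agent.Helper37.PFFIXV
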