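import Mathlib
import Cfsg.Agent.Helper37.Pgl1
import Cfsg.Agent.Helper37.Pgl2

set_option autoImplicit false

namespace Cfsg.Agent.Helper37

open Matrix

theorem pgl_count {H : Type*} [Group H] (m : ℕ) (reps : Fin m → H)
    (h1 : ∀ i, orderOf (reps i) = 2) (h2 : ∀ i j, IsConj (reps i) (reps j) → i = j)
    (h3 : ∀ x : H, orderOf x = 2 → ∃ i, IsConj (reps i) x) :
    Nat.card {C : ConjClasses H // ∃ g : H, ConjClasses.mk g = C ∧ orderOf g = 2} = m := by
  let f : Fin m → {C : ConjClasses H // ∃ g : H, ConjClasses.mk g = C ∧ orderOf g = 2} :=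
    fun i => ⟨ConjClasses.mk (reps i), reps i, rfl, h1 i⟩
  have hf : Function.Bijective f := by
    constructor
    · intro i j hij
      have := congrArg Subtype.val hij
      exact h2 i j (ConjClasses.mk_eq_mk_iff_isConj.mp this)
    · rintro ⟨C, g, rfl, hg⟩
      obtain ⟨i, hi⟩ := h3 g hg
      exact ⟨i, Subtype.ext (ConjClasses.mk_eq_mk_iff_isConj.mpr hi)⟩
  rw [← Nat.card_congr (Equiv.ofBijective f hf), Nat.card_fin]

variable {F : Type*} [Field F] {n : ℕ}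

theorem pgl_scalar_iff (g : GL (Fin n) F) :
    g ∈ Subgroup.center (GL (Fin n) F) ↔
      ∃ a : F, g.val = a • (1 : Matrix (Fin n) (Fin n) F) := by
  rw [Matrix.GeneralLinearGroup.mem_center_iff_val_mem_range_scalar]
  constructor
  · rintro ⟨a, ha⟩
    exact ⟨a, by rw [← ha, Matrix.smul_one_eq_diagonal, Matrix.scalar_apply]⟩
  · rintro ⟨a, ha⟩
    exact ⟨a, by rw [ha, Matrix.smul_one_eq_diagonal, Matrix.scalar_apply]⟩

theorem pgl_isConj (g g' : GL (Fin n) F) :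
    IsConj (QuotientGroup.mk g : GL (Fin n) F ⧸ Subgroup.center (GL (Fin n) F))
      (QuotientGroup.mk g') ↔
      ∃ (h : GL (Fin n) F) (c : F), g'.val * h.val = c • (h.val * g.val) := by
  rw [isConj_iff]
  constructor
  · rintro ⟨x, hx⟩
    obtain ⟨h, rfl⟩ := QuotientGroup.mk_surjective x
    rw [← QuotientGroup.mk_inv, ← QuotientGroup.mk_mul, ← QuotientGroup.mk_mul, QuotientGroup.eq,
      pgl_scalar_iff] at hx
    obtain ⟨c, hc⟩ := hx
    refine ⟨h, c, ?_⟩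
    have h1 : g' * h = (h * g) * ((h * g * h⁻¹)⁻¹ * g') := by
      have hcen : (h * g * h⁻¹)⁻¹ * g' ∈ Subgroup.center (GL (Fin n) F) :=
        (pgl_scalar_iff _).mpr ⟨c, hc⟩
      rw [Subgroup.mem_center_iff] at hcen
      have := hcen h
      calc g' * h = (h * g * h⁻¹) * ((h * g * h⁻¹)⁻¹ * g') * h := by group
        _ = (h * g * h⁻¹) * (((h * g * h⁻¹)⁻¹ * g') * h) := by group
        _ = (h * g * h⁻¹) * (h * ((h * g * h⁻¹)⁻¹ * g')) := by rw [this]
        _ = (h * g) * ((h * g * h⁻¹)⁻¹ * g') := by group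
    have hv := congrArg Units.val h1
    rw [Units.val_mul, Units.val_mul, Units.val_mul, hc] at hv
    rw [hv, Matrix.mul_smul, Matrix.mul_one]
  · rintro ⟨h, c, hc⟩
    refine ⟨QuotientGroup.mk h, ?_⟩
    rw [← QuotientGroup.mk_inv, ← QuotientGroup.mk_mul, ← QuotientGroup.mk_mul, QuotientGroup.eq,
      pgl_scalar_iff]
    refine ⟨c, ?_⟩
    have h1 : ((h * g * h⁻¹)⁻¹ * g' : GL (Fin n) F) = (h * g * h⁻¹)⁻¹ * (g' * h) * h⁻¹ := by
      group
    rw [h1]
    simp only [Units.val_mul]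
    rw [hc, Matrix.mul_smul, Matrix.smul_mul]
    congr 1
    have h2 : ((h * g * h⁻¹)⁻¹ * (h * g) * h⁻¹ : GL (Fin n) F) = 1 := by group
    have := congrArg Units.val h2
    simpa only [Units.val_mul, Units.val_one] using this

theorem pgl_order_two (g : GL (Fin n) F) :
    orderOf (QuotientGroup.mk g : GL (Fin n) F ⧸ Subgroup.center (GL (Fin n) F)) = 2 ↔
      (∃ μ : F, g.val * g.val = μ • (1 : Matrix (Fin n) (Fin n) F)) ∧
        ¬ ∃ a : F, g.val = a • (1 : Matrix (Fin n) (Fin n) F) := by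
  rw [orderOf_eq_prime_iff, ← QuotientGroup.mk_pow, QuotientGroup.eq_one_iff, pgl_scalar_iff, Ne,
    QuotientGroup.eq_one_iff, pgl_scalar_iff, pow_two, Units.val_mul]

end Cfsg.Agent.Helper37

namespace Cfsg.Agent.Helper37

open Matrix

variable {F : Type*} [Field F] {n : ℕ}

theorem pgl_unit_ne_zero (hn : 0 < n) (h : GL (Fin n) F) : h.val ≠ 0 := by
  intro h0
  have h1 : h.val * (h⁻¹).val = 1 := Units.mul_inv h
  rw [h0, zero_mul] at h1
  have := congrFun (congrFun h1 ⟨0, hn⟩) ⟨0, hn⟩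
  simp at this

theorem pgl_smul_cancel (hn : 0 < n) (h : GL (Fin n) F) (c d : F) (hcd : c • h.val = d • h.val) :
    c = d := by
  have : (c - d) • h.val = 0 := by rw [sub_smul, hcd, sub_self]
  rcases smul_eq_zero.mp this with h' | h'
  · exact sub_eq_zero.mp h'
  · exact absurd h' (pgl_unit_ne_zero hn h)

theorem pgl_K2 (h2 : (2 : F) ≠ 0) (hn : 0 < n) (k k' : ℕ) (hk : k ≤ n / 2) (hk' : k' ≤ n / 2)
    (h : GL (Fin n) F) (c : F) (hc : pglD F n k' * h.val = c • (h.val * pglD F n k)) : k = k' := by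
  have hsq : (1 : F) • h.val = (c * c) • h.val := by
    calc (1 : F) • h.val = (pglD F n k' * pglD F n k') * h.val := by
          rw [pglD_sq, one_smul, one_mul]
      _ = pglD F n k' * (c • (h.val * pglD F n k)) := by rw [mul_assoc, hc]
      _ = c • ((pglD F n k' * h.val) * pglD F n k) := by
          rw [Matrix.mul_smul, ← mul_assoc]
      _ = c • ((c • (h.val * pglD F n k)) * pglD F n k) := by rw [hc]
      _ = (c * c) • (h.val * (pglD F n k * pglD F n k)) := by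
          rw [Matrix.smul_mul, smul_smul, mul_assoc]
      _ = (c * c) • h.val := by rw [pglD_sq, mul_one]
  have hcc : c * c = 1 := (pgl_smul_cancel hn h _ _ hsq).symm
  have e1 := pglNu_D h2 n k (by omega)
  have e2 := pglNu_D h2 n k' (by omega)
  rcases mul_self_eq_one_iff.mp hcc with rfl | rfl
  · rw [one_smul] at hc
    have := pglNu_conj (pglD F n k) (pglD F n k') h hc.symm
    omega
  · have hc' : h.val * pglD F n k = (-pglD F n k') * h.val := by
      rw [Matrix.neg_mul, hc, neg_one_smul, neg_neg]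
    have := pglNu_conj (pglD F n k) (-pglD F n k') h hc'
    have hs := pglNu_neg h2 (pglD F n k') (pglD_sq n k')
    omega

theorem pgl_K3 (hn : 0 < n) (k : ℕ) (μ₀ : F) (hμ₀ : ¬ IsSquare μ₀) (B : Matrix (Fin n) (Fin n) F)
    (hB : B * B = μ₀ • (1 : Matrix (Fin n) (Fin n) F))
    (h : GL (Fin n) F) (c : F) (hc : B * h.val = c • (h.val * pglD F n k)) : False := by
  have hsq : μ₀ • h.val = (c * c) • h.val := by
    calc μ₀ • h.val = (B * B) * h.val := by rw [hB, Matrix.smul_mul, one_mul]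
      _ = B * (c • (h.val * pglD F n k)) := by rw [mul_assoc, hc]
      _ = c • ((B * h.val) * pglD F n k) := by rw [Matrix.mul_smul, ← mul_assoc]
      _ = c • ((c • (h.val * pglD F n k)) * pglD F n k) := by rw [hc]
      _ = (c * c) • (h.val * (pglD F n k * pglD F n k)) := by
          rw [Matrix.smul_mul, smul_smul, mul_assoc]
      _ = (c * c) • h.val := by rw [pglD_sq, mul_one]
  exact hμ₀ ⟨c, pgl_smul_cancel hn h _ _ hsq⟩

theorem pgl_K1 (h2 : (2 : F) ≠ 0) (hn : 0 < n) (g : GL (Fin n) F) (l : F)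
    (hg2 : g.val * g.val = (l * l) • (1 : Matrix (Fin n) (Fin n) F))
    (hns : ¬ ∃ a : F, g.val = a • (1 : Matrix (Fin n) (Fin n) F)) :
    ∃ k, 1 ≤ k ∧ k ≤ n / 2 ∧ ∃ (h : GL (Fin n) F) (c : F),
      g.val * h.val = c • (h.val * pglD F n k) := by
  have hl : l ≠ 0 := by
    rintro rfl
    rw [zero_mul, zero_smul] at hg2
    exact pgl_unit_ne_zero hn (g * g) hg2
  have hgA : g.val = l • (l⁻¹ • g.val) := by rw [smul_smul, mul_inv_cancel₀ hl, one_smul]
  have hA : (l⁻¹ • g.val) * (l⁻¹ • g.val) = 1 := by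
    rw [Matrix.smul_mul, Matrix.mul_smul, hg2, smul_smul, smul_smul]
    have : l⁻¹ * l⁻¹ * (l * l) = 1 := by field_simp
    rw [this, one_smul]
  have hA1 : l⁻¹ • g.val ≠ 1 := by
    intro h
    apply hns
    exact ⟨l, by rw [hgA, h]⟩
  have hAm : l⁻¹ • g.val ≠ -1 := by
    intro h
    apply hns
    exact ⟨-l, by rw [hgA, h]; simp⟩
  have hν0 : pglNu (l⁻¹ • g.val) ≠ 0 := fun h => hA1 (pglNu_eq_zero h2 _ hA h)
  have hνn : pglNu (l⁻¹ • g.val) ≠ n := fun h => hAm (pglNu_eq_card _ h)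
  have hsum := pglNu_neg h2 _ hA
  by_cases hle : pglNu (l⁻¹ • g.val) ≤ n / 2
  · refine ⟨pglNu (l⁻¹ • g.val), by omega, hle, ?_⟩
    obtain ⟨P, hP⟩ := pgl_inv_conj h2 (pglD F n (pglNu (l⁻¹ • g.val))) (l⁻¹ • g.val)
      (pglD_sq _ _) hA (by rw [pglNu_D h2 n _ (by omega)])
    refine ⟨P, l, ?_⟩
    rw [hP, Matrix.smul_mul, smul_smul, mul_inv_cancel₀ hl, one_smul]
  · refine ⟨pglNu (-(l⁻¹ • g.val)), by omega, by omega, ?_⟩
    obtain ⟨P, hP⟩ := pgl_inv_conj h2 (pglD F n (pglNu (-(l⁻¹ • g.val)))) (-(l⁻¹ • g.val))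
      (pglD_sq _ _) (by rw [neg_mul_neg, hA]) (by rw [pglNu_D h2 n _ (by omega)])
    refine ⟨P, -l, ?_⟩
    rw [hP, Matrix.neg_mul, Matrix.smul_mul, smul_neg, neg_smul, neg_neg, smul_smul,
      mul_inv_cancel₀ hl, one_smul]

theorem pgl_nonsq_ratio [Fintype F] (μ μ₀ : F) (hμ : ¬ IsSquare μ)
    (hμ₀ : ¬ IsSquare μ₀) : ∃ c : F, μ = c * c * μ₀ := by
  classical
  have h0 : μ₀ ≠ 0 := by
    rintro rfl
    exact hμ₀ ⟨0, by simp⟩
  have h0' : μ ≠ 0 := by
    rintro rfl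
    exact hμ ⟨0, by simp⟩
  have h1 : quadraticChar F (μ * μ₀) = 1 := by
    rw [map_mul, quadraticChar_neg_one_iff_not_isSquare.mpr hμ,
      quadraticChar_neg_one_iff_not_isSquare.mpr hμ₀]
    norm_num
  obtain ⟨d, hd⟩ := (quadraticChar_one_iff_isSquare (mul_ne_zero h0' h0)).mp h1
  refine ⟨d / μ₀, ?_⟩
  rw [div_mul_div_comm, ← hd]
  field_simp

theorem pgl_K1' [Fintype F] (g : GL (Fin n) F) (μ μ₀ : F)
    (hμ : ¬ IsSquare μ) (hμ₀ : ¬ IsSquare μ₀)
    (hg2 : g.val * g.val = μ • (1 : Matrix (Fin n) (Fin n) F))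
    (B : Matrix (Fin n) (Fin n) F) (hB : B * B = μ₀ • (1 : Matrix (Fin n) (Fin n) F)) :
    ∃ (h : GL (Fin n) F) (c : F), g.val * h.val = c • (h.val * B) := by
  obtain ⟨c, hc⟩ := pgl_nonsq_ratio μ μ₀ hμ hμ₀
  have hcB : (c • B) * (c • B) = μ • (1 : Matrix (Fin n) (Fin n) F) := by
    rw [Matrix.smul_mul, Matrix.mul_smul, hB, smul_smul, smul_smul, hc]
  obtain ⟨P, hP⟩ := pgl_nonsq_conj μ hμ (c • B) g.val hcB hg2
  exact ⟨P, c, by rw [← hP, Matrix.mul_smul]⟩

end Cfsg.Agent.Helper37
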