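import Mathlib
import Cfsg.Agent.Helper37.Pgl3

set_option autoImplicit false

namespace Cfsg.Agent.Helper37

open Matrix

variable {F : Type*} [Field F] {n : ℕ}

/-- the diagonal involutions as units -/
def pglDU (F : Type*) [Field F] (n k : ℕ) : GL (Fin n) F :=
  ⟨pglD F n k, pglD F n k, pglD_sq n k, pglD_sq n k⟩

theorem pglDU_order (h2 : (2 : F) ≠ 0) (hn : 2 ≤ n) (k : ℕ) (hk1 : 1 ≤ k) (hk : k ≤ n / 2) :
    orderOf (QuotientGroup.mk (pglDU F n k) :
      GL (Fin n) F ⧸ Subgroup.center (GL (Fin n) F)) = 2 := by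
  rw [pgl_order_two]
  refine ⟨⟨1, by rw [one_smul]; exact pglD_sq n k⟩, ?_⟩
  rintro ⟨a, ha⟩
  have ha' : pglD F n k = a • (1 : Matrix (Fin n) (Fin n) F) := ha
  have e1 := congrFun (congrFun ha' ⟨0, by omega⟩) ⟨0, by omega⟩
  have e2 := congrFun (congrFun ha' ⟨n - 1, by omega⟩) ⟨n - 1, by omega⟩
  unfold pglD at e1 e2
  rw [Matrix.diagonal_apply_eq, Matrix.smul_apply, Matrix.one_apply_eq, smul_eq_mul, mul_one] at e1 e2
  rw [if_pos (show (0 : ℕ) < k by omega)] at e1
  rw [if_neg (show ¬ (n - 1 < k) by omega)] at e2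
  apply h2
  rw [← e1] at e2
  have : (1 : F) + 1 = 0 := by
    nth_rewrite 1 [e2]
    exact neg_add_cancel 1
  rw [← this]
  norm_num

theorem pgl_main [Fintype F] (hodd : Odd (Fintype.card F)) (hn : 2 ≤ n) :
    Nat.card {C : ConjClasses (GL (Fin n) F ⧸ Subgroup.center (GL (Fin n) F)) //
      ∃ g : GL (Fin n) F ⧸ Subgroup.center (GL (Fin n) F),
        ConjClasses.mk g = C ∧ orderOf g = 2} = n / 2 + (if Even n then 1 else 0) := by
  have hchar : ringChar F ≠ 2 := by
    intro h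
    rw [FiniteField.even_card_iff_char_two] at h
    obtain ⟨t, ht⟩ := hodd
    omega
  have h2 : (2 : F) ≠ 0 := Ring.two_ne_zero hchar
  obtain ⟨μ₀, hμ₀⟩ := FiniteField.exists_nonsquare hchar
  have hn0 : 0 < n := by omega
  rcases Nat.even_or_odd n with he | ho
  · rw [if_pos he]
    obtain ⟨B₀, hB₀⟩ := pgl_nonsq_exists (n := n) μ₀ hμ₀ he
    have hμ0 : μ₀ ≠ 0 := by
      rintro rfl
      exact hμ₀ ⟨0, by simp⟩
    let BU : GL (Fin n) F := ⟨B₀, μ₀⁻¹ • B₀,
      by rw [Matrix.mul_smul, hB₀, smul_smul, inv_mul_cancel₀ hμ0, one_smul],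
      by rw [Matrix.smul_mul, hB₀, smul_smul, inv_mul_cancel₀ hμ0, one_smul]⟩
    have hBU : orderOf (QuotientGroup.mk BU :
        GL (Fin n) F ⧸ Subgroup.center (GL (Fin n) F)) = 2 := by
      rw [pgl_order_two]
      refine ⟨⟨μ₀, hB₀⟩, ?_⟩
      rintro ⟨a, ha⟩
      have ha' : B₀ = a • (1 : Matrix (Fin n) (Fin n) F) := ha
      apply hμ₀
      refine ⟨a, ?_⟩
      have : μ₀ • (1 : Matrix (Fin n) (Fin n) F) = (a * a) • (1 : Matrix (Fin n) (Fin n) F) := by
        rw [← hB₀, ha', Matrix.smul_mul, Matrix.mul_smul, one_mul, smul_smul]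
      have h' := pgl_smul_cancel hn0 (1 : GL (Fin n) F) μ₀ (a * a) this
      exact h'
    apply pgl_count (n / 2 + 1) (fun i : Fin (n / 2 + 1) =>
      if i.val < n / 2 then (QuotientGroup.mk (pglDU F n (i.val + 1)) :
        GL (Fin n) F ⧸ Subgroup.center (GL (Fin n) F)) else QuotientGroup.mk BU)
    · intro i
      split_ifs with hi
      · exact pglDU_order h2 hn _ (by omega) (by omega)
      · exact hBU
    · intro i j hij
      split_ifs at hij with hi hj hj
      · rw [pgl_isConj] at hij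
        obtain ⟨h, c, hc⟩ := hij
        have := pgl_K2 h2 hn0 (i.val + 1) (j.val + 1) (by omega) (by omega) h c hc
        exact Fin.ext (by omega)
      · exfalso
        rw [pgl_isConj] at hij
        obtain ⟨h, c, hc⟩ := hij
        exact pgl_K3 hn0 (i.val + 1) μ₀ hμ₀ B₀ hB₀ h c hc
      · exfalso
        have hij' := hij.symm
        rw [pgl_isConj] at hij'
        obtain ⟨h, c, hc⟩ := hij'
        exact pgl_K3 hn0 (j.val + 1) μ₀ hμ₀ B₀ hB₀ h c hc
      · exact Fin.ext (by omega)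
    · intro x hx
      obtain ⟨g, rfl⟩ := QuotientGroup.mk_surjective x
      rw [pgl_order_two] at hx
      obtain ⟨⟨μ, hg2⟩, hns⟩ := hx
      by_cases hsq : IsSquare μ
      · obtain ⟨l, rfl⟩ := hsq
        obtain ⟨k, hk1, hk, h, c, hc⟩ := pgl_K1 h2 hn0 g l hg2 hns
        refine ⟨⟨k - 1, by omega⟩, ?_⟩
        dsimp only
        rw [if_pos (show k - 1 < n / 2 by omega), show k - 1 + 1 = k by omega, pgl_isConj]
        exact ⟨h, c, hc⟩
      · obtain ⟨h, c, hc⟩ := pgl_K1' g μ μ₀ hsq hμ₀ hg2 B₀ hB₀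
        refine ⟨⟨n / 2, by omega⟩, ?_⟩
        dsimp only
        rw [if_neg (lt_irrefl _), pgl_isConj]
        exact ⟨h, c, hc⟩
  · rw [if_neg (Nat.not_even_iff_odd.mpr ho), add_zero]
    apply pgl_count (n / 2) (fun i : Fin (n / 2) =>
      (QuotientGroup.mk (pglDU F n (i.val + 1)) :
        GL (Fin n) F ⧸ Subgroup.center (GL (Fin n) F)))
    · intro i
      exact pglDU_order h2 hn _ (by omega) (by omega)
    · intro i j hij
      rw [pgl_isConj] at hij
      obtain ⟨h, c, hc⟩ := hij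
      have := pgl_K2 h2 hn0 (i.val + 1) (j.val + 1) (by omega) (by omega) h c hc
      exact Fin.ext (by omega)
    · intro x hx
      obtain ⟨g, rfl⟩ := QuotientGroup.mk_surjective x
      rw [pgl_order_two] at hx
      obtain ⟨⟨μ, hg2⟩, hns⟩ := hx
      by_cases hsq : IsSquare μ
      · obtain ⟨l, rfl⟩ := hsq
        obtain ⟨k, hk1, hk, h, c, hc⟩ := pgl_K1 h2 hn0 g l hg2 hns
        refine ⟨⟨k - 1, by omega⟩, ?_⟩
        dsimp only
        rw [show k - 1 + 1 = k by omega, pgl_isConj]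
        exact ⟨h, c, hc⟩
      · exfalso
        exact (Nat.not_even_iff_odd.mpr ho) (pgl_nonsq_even μ hsq g.val hg2)

end Cfsg.Agent.Helper37
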