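import Mathlib
import Cfsg.Agent.Helper37.Pgl1

set_option autoImplicit false

namespace Cfsg.Agent.Helper37

open Matrix Module

variable {F : Type*} [Field F] {n : ℕ} {ι : Type*} [Fintype ι] [DecidableEq ι] (ev : ι → F)

/-- eigenspace of a matrix -/
def prE (A : Matrix (Fin n) (Fin n) F) (c : F) : Submodule F (Fin n → F) :=
  LinearMap.ker (A - c • (1 : Matrix (Fin n) (Fin n) F)).mulVecLin

theorem pr_mem (A : Matrix (Fin n) (Fin n) F) (c : F) (v : Fin n → F) :
    v ∈ prE A c ↔ A *ᵥ v = c • v := by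
  unfold prE
  rw [LinearMap.mem_ker, Matrix.mulVecLin_apply, Matrix.sub_mulVec, Matrix.smul_mulVec,
    Matrix.one_mulVec, sub_eq_zero]

/-- eigenvalue multiplicity -/
noncomputable def prMult (A : Matrix (Fin n) (Fin n) F) (c : F) : ℕ := finrank F (prE A c)

theorem pr_indep (hinj : Function.Injective ev) (A : Matrix (Fin n) (Fin n) F) :
    iSupIndep (fun x => prE A (ev x)) := by
  have h := Module.End.eigenspaces_iSupIndep (A.mulVecLin : Module.End F (Fin n → F))
  have h2 := h.comp hinj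
  convert h2 using 1
  funext x
  ext v
  rw [pr_mem, Function.comp, Module.End.mem_eigenspace_iff]
  rfl

theorem pr_internal (hinj : Function.Injective ev) (A : Matrix (Fin n) (Fin n) F)
    (hs : ⨆ x, prE A (ev x) = ⊤) : DirectSum.IsInternal (fun x => prE A (ev x)) :=
  DirectSum.isInternal_submodule_of_iSupIndep_of_iSup_eq_top (pr_indep ev hinj A) hs

/-- eigenbasis -/
noncomputable def prBasis (hinj : Function.Injective ev) (A : Matrix (Fin n) (Fin n) F)
    (hs : ⨆ x, prE A (ev x) = ⊤) : Basis (Σ x : ι, Fin (prMult A (ev x))) F (Fin n → F) :=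
  (pr_internal ev hinj A hs).collectedBasis (fun x => Module.finBasis F (prE A (ev x)))

theorem prBasis_eig (hinj : Function.Injective ev) (A : Matrix (Fin n) (Fin n) F)
    (hs : ⨆ x, prE A (ev x) = ⊤) (p : Σ x : ι, Fin (prMult A (ev x))) :
    A *ᵥ (prBasis ev hinj A hs p) = ev p.1 • prBasis ev hinj A hs p :=
  (pr_mem A _ _).mp ((pr_internal ev hinj A hs).collectedBasis_mem _ p)

theorem pr_sum (hinj : Function.Injective ev) (A : Matrix (Fin n) (Fin n) F)
    (hs : ⨆ x, prE A (ev x) = ⊤) : ∑ x, prMult A (ev x) = n := by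
  have := Module.finrank_eq_card_basis (prBasis ev hinj A hs)
  rw [Module.finrank_fin_fun, Fintype.card_sigma] at this
  simp only [Fintype.card_fin] at this
  exact this.symm

theorem pr_conj (hinj : Function.Injective ev) (A B : Matrix (Fin n) (Fin n) F)
    (hsA : ⨆ x, prE A (ev x) = ⊤) (hsB : ⨆ x, prE B (ev x) = ⊤)
    (h : ∀ x, prMult A (ev x) = prMult B (ev x)) :
    ∃ P : GL (Fin n) F, P.val * A = B * P.val := by
  let e : (Σ x : ι, Fin (prMult A (ev x))) ≃ (Σ x : ι, Fin (prMult B (ev x))) :=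
    Equiv.sigmaCongrRight (fun x => finCongr (h x))
  let Φ := (prBasis ev hinj A hsA).equiv (prBasis ev hinj B hsB) e
  apply pgl_of_linearEquiv A B Φ
  have : Φ.toLinearMap ∘ₗ A.mulVecLin = B.mulVecLin ∘ₗ Φ.toLinearMap := by
    apply (prBasis ev hinj A hsA).ext
    intro p
    simp only [LinearMap.comp_apply, Matrix.mulVecLin_apply, LinearEquiv.coe_coe]
    rw [prBasis_eig, map_smul]
    show ev p.1 • Φ (prBasis ev hinj A hsA p) = B *ᵥ Φ (prBasis ev hinj A hsA p)
    have hΦ : Φ (prBasis ev hinj A hsA p) = prBasis ev hinj B hsB (e p) := Basis.equiv_apply _ _ _ _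
    rw [hΦ, prBasis_eig]
    rfl
  intro v
  exact congrArg (fun g => g v) this

theorem prMult_conj (A B : Matrix (Fin n) (Fin n) F) (P : GL (Fin n) F)
    (h : P.val * A = B * P.val) (c : F) : prMult A c = prMult B c := by
  unfold prMult
  let e : (Fin n → F) ≃ₗ[F] (Fin n → F) :=
    LinearEquiv.ofLinearMap P.val.mulVecLin (P⁻¹).val.mulVecLin
      (by rw [← Matrix.mulVecLin_mul, Units.mul_inv, Matrix.mulVecLin_one])
      (by rw [← Matrix.mulVecLin_mul, Units.inv_mul, Matrix.mulVecLin_one])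
  have hker : prE A c = (prE B c).comap e.toLinearMap := by
    ext v
    rw [Submodule.mem_comap, pr_mem, pr_mem]
    show A *ᵥ v = c • v ↔ B *ᵥ (P.val *ᵥ v) = c • (P.val *ᵥ v)
    rw [Matrix.mulVec_mulVec, ← h, ← Matrix.mulVec_mulVec, ← Matrix.mulVec_smul]
    constructor
    · intro h'; rw [h']
    · intro h'
      have := congrArg (fun w => (P⁻¹).val *ᵥ w) h'
      simpa [Matrix.mulVec_mulVec] using this
  rw [hker, Submodule.comap_equiv_eq_map_symm, LinearEquiv.finrank_map_eq]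

theorem prMult_smul (A : Matrix (Fin n) (Fin n) F) (d c : F) (hd : d ≠ 0) :
    prMult (d • A) c = prMult A (d⁻¹ * c) := by
  unfold prMult
  have : prE (d • A) c = prE A (d⁻¹ * c) := by
    ext v
    rw [pr_mem, pr_mem, Matrix.smul_mulVec]
    constructor
    · intro h
      rw [← smul_smul, ← h, smul_smul, inv_mul_cancel₀ hd, one_smul]
    · intro h
      rw [h, smul_smul, mul_inv_cancel_left₀ hd]
  rw [this]

theorem pr_span (r : ℕ) (hr : (r : F) ≠ 0) (hcard : Fintype.card ι = r)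
    (hev : ∀ x, ev x ^ r = 1) (horth : ∀ i, 0 < i → i < r → ∑ x, (ev x)⁻¹ ^ i = 0)
    (A : Matrix (Fin n) (Fin n) F) (hA : A ^ r = 1) : ⨆ x, prE A (ev x) = ⊤ := by
  have hr0 : r ≠ 0 := by
    rintro rfl
    exact hr (by simp)
  rw [eq_top_iff]
  intro v _
  have hSx : ∀ x, (∑ i ∈ Finset.range r, ((ev x)⁻¹ ^ i) • ((A ^ i) *ᵥ v)) ∈ prE A (ev x) := by
    intro x
    rw [pr_mem]
    have hx0 : ev x ≠ 0 := by
      intro h
      have := hev x
      rw [h, zero_pow hr0] at this
      exact zero_ne_one this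
    have h1 : A *ᵥ (∑ i ∈ Finset.range r, ((ev x)⁻¹ ^ i) • ((A ^ i) *ᵥ v)) =
        ∑ i ∈ Finset.range r, ((ev x)⁻¹ ^ i) • ((A ^ (i + 1)) *ᵥ v) := by
      rw [Matrix.mulVec_sum]
      apply Finset.sum_congr rfl
      intro i _
      rw [Matrix.mulVec_smul, Matrix.mulVec_mulVec, ← pow_succ']
    have h2 : (ev x)⁻¹ • (A *ᵥ (∑ i ∈ Finset.range r, ((ev x)⁻¹ ^ i) • ((A ^ i) *ᵥ v))) =
        ∑ i ∈ Finset.range r, ((ev x)⁻¹ ^ i) • ((A ^ i) *ᵥ v) := by
      rw [h1, Finset.smul_sum]
      have h3 : ∀ i ∈ Finset.range r, (ev x)⁻¹ • ((ev x)⁻¹ ^ i • (A ^ (i + 1)) *ᵥ v) =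
          (fun j => (ev x)⁻¹ ^ j • (A ^ j) *ᵥ v) (i + 1) := by
        intro i _
        show _ = (ev x)⁻¹ ^ (i + 1) • (A ^ (i + 1)) *ᵥ v
        rw [smul_smul, ← pow_succ']
      rw [Finset.sum_congr rfl h3]
      have h4 := Finset.sum_range_succ' (fun j => (ev x)⁻¹ ^ j • (A ^ j) *ᵥ v) r
      have h5 := Finset.sum_range_succ (fun j => (ev x)⁻¹ ^ j • (A ^ j) *ᵥ v) r
      have h6 : (ev x)⁻¹ ^ r • (A ^ r) *ᵥ v = (ev x)⁻¹ ^ 0 • (A ^ 0) *ᵥ v := by
        rw [inv_pow, hev x, hA, pow_zero, pow_zero]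
        simp
      rw [h4] at h5
      rw [h6] at h5
      exact add_right_cancel h5
    nth_rewrite 2 [← h2]
    rw [smul_smul, mul_inv_cancel₀ hx0, one_smul]
  have hsum : ∑ x, (∑ i ∈ Finset.range r, ((ev x)⁻¹ ^ i) • ((A ^ i) *ᵥ v)) = (r : F) • v := by
    rw [Finset.sum_comm]
    have : ∀ i ∈ Finset.range r, ∑ x, ((ev x)⁻¹ ^ i) • ((A ^ i) *ᵥ v) =
        if i = 0 then (r : F) • v else 0 := by
      intro i hi
      rw [← Finset.sum_smul]
      split_ifs with h0
      · subst h0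
        simp [hcard]
      · rw [horth i (Nat.pos_of_ne_zero h0) (Finset.mem_range.mp hi), zero_smul]
    rw [Finset.sum_congr rfl this, Finset.sum_ite_eq']
    simp [Nat.pos_of_ne_zero hr0]
  have hv : v = (r : F)⁻¹ • ∑ x, (∑ i ∈ Finset.range r, ((ev x)⁻¹ ^ i) • ((A ^ i) *ᵥ v)) := by
    rw [hsum, smul_smul, inv_mul_cancel₀ hr, one_smul]
  rw [hv]
  apply Submodule.smul_mem
  apply Submodule.sum_mem
  intro x _
  exact Submodule.mem_iSup_of_mem x (hSx x)

end Cfsg.Agent.Helper37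

namespace Cfsg.Agent.Helper37

open Matrix Module

variable {F : Type*} [Field F] {n : ℕ} {ι : Type*} [Fintype ι] [DecidableEq ι] (ev : ι → F)

/-- diagonal matrix from a labelling -/
def prD (f : Fin n → ι) : Matrix (Fin n) (Fin n) F := Matrix.diagonal (fun i => ev (f i))

theorem prD_pow (f : Fin n → ι) (k : ℕ) :
    prD ev f ^ k = Matrix.diagonal (fun i => ev (f i) ^ k) := by
  unfold prD
  rw [Matrix.diagonal_pow]
  rfl

theorem prMult_D (hinj : Function.Injective ev) (f : Fin n → ι) (x : ι) :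
    prMult (prD ev f) (ev x) = Fintype.card {i // f i = x} := by
  classical
  unfold prMult prE
  have hrn := LinearMap.finrank_range_add_finrank_ker
    (prD ev f - ev x • (1 : Matrix (Fin n) (Fin n) F)).mulVecLin
  have hD : prD ev f - ev x • (1 : Matrix (Fin n) (Fin n) F) =
      Matrix.diagonal (fun i => ev (f i) - ev x) := by
    unfold prD
    rw [Matrix.smul_one_eq_diagonal, Matrix.diagonal_sub]
  have hrank : finrank F (LinearMap.range
      (prD ev f - ev x • (1 : Matrix (Fin n) (Fin n) F)).mulVecLin) =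
      Fintype.card {i // ¬ (f i = x)} := by
    show (prD ev f - ev x • (1 : Matrix (Fin n) (Fin n) F)).rank = _
    rw [hD, Matrix.rank_diagonal]
    apply Fintype.card_congr
    apply Equiv.subtypeEquivRight
    intro i
    rw [Ne, sub_eq_zero, hinj.eq_iff]
  have hc := Fintype.card_subtype_compl (fun i : Fin n => f i = x)
  have hle := Fintype.card_subtype_le (fun i : Fin n => f i = x)
  rw [hrank] at hrn
  simp only [finrank_pi, Fintype.card_fin] at hrn hc hle
  omega

theorem pr_exists_label (b : ι → ℕ) (hb : ∑ x, b x = n) :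
    ∃ f : Fin n → ι, ∀ x, Fintype.card {i // f i = x} = b x := by
  have hcard : Fintype.card (Σ x : ι, Fin (b x)) = Fintype.card (Fin n) := by
    simp [Fintype.card_sigma, hb]
  let e := Fintype.equivOfCardEq hcard
  refine ⟨fun i => (e.symm i).1, fun x => ?_⟩
  rw [Fintype.card_congr ((e.symm.subtypeEquiv (p := fun i => (e.symm i).1 = x)
    (q := fun s => s.1 = x) (fun i => Iff.rfl)).trans (Equiv.sigmaSubtype x))]
  exact Fintype.card_fin _

end Cfsg.Agent.Helper37
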