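import Mathlib
import Cfsg.Agent.Helper37.Pgl1

set_option autoImplicit false

namespace Cfsg.Agent.Helper37

open Polynomial Module Matrix

variable {F : Type*} [Field F]

theorem pr_root_pow (r : ℕ) (μ : F) :
    AdjoinRoot.root (X ^ r - C μ : F[X]) ^ r = AdjoinRoot.of (X ^ r - C μ : F[X]) μ := by
  have h := AdjoinRoot.mk_self (f := (X ^ r - C μ : F[X]))
  rw [map_sub, map_pow, AdjoinRoot.mk_X, AdjoinRoot.mk_C, sub_eq_zero] at h
  exact h

theorem pr_finrank_K (r : ℕ) (hr0 : r ≠ 0) (μ : F) :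
    finrank F (AdjoinRoot (X ^ r - C μ : F[X])) = r := by
  have hm : (X ^ r - C μ : F[X]).Monic := monic_X_pow_sub_C μ hr0
  rw [(AdjoinRoot.powerBasis' hm).finrank, AdjoinRoot.powerBasis'_dim, natDegree_X_pow_sub_C]

theorem pr_mulVecLin_pow {n : ℕ} (A : Matrix (Fin n) (Fin n) F) (k : ℕ) :
    (A.mulVecLin : Module.End F (Fin n → F)) ^ k = (A ^ k).mulVecLin := by
  induction k with
  | zero => rw [pow_zero, pow_zero, Matrix.mulVecLin_one]; rfl
  | succ k ih => rw [pow_succ, pow_succ, ih, Matrix.mulVecLin_mul, Module.End.mul_eq_comp]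

theorem pr_model {n : ℕ} (r : ℕ) (hr0 : r ≠ 0) (μ : F) [Fact (Irreducible (X ^ r - C μ : F[X]))]
    (A : Matrix (Fin n) (Fin n) F) (hA : A ^ r = μ • (1 : Matrix (Fin n) (Fin n) F)) :
    ∃ k, n = r * k ∧ ∃ Ψ : (Fin n → F) ≃ₗ[F] (Fin k → AdjoinRoot (X ^ r - C μ : F[X])),
      ∀ v, Ψ (A *ᵥ v) = AdjoinRoot.root (X ^ r - C μ : F[X]) • Ψ v := by
  have hev : Polynomial.aeval (A.mulVecLin) (X ^ r - C μ : F[X]) = 0 := by
    rw [map_sub, map_pow, aeval_X, aeval_C, pr_mulVecLin_pow, hA, sub_eq_zero]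
    apply LinearMap.ext
    intro v
    rw [Matrix.mulVecLin_apply, Matrix.smul_mulVec, Matrix.one_mulVec,
      Module.algebraMap_end_apply]
  let φ : AdjoinRoot (X ^ r - C μ : F[X]) →+* Module.End F (Fin n → F) :=
    Ideal.Quotient.lift (Ideal.span {(X ^ r - C μ : F[X])})
      (Polynomial.aeval A.mulVecLin).toRingHom (by
        intro g hg
        obtain ⟨y, rfl⟩ := Ideal.mem_span_singleton.mp hg
        show Polynomial.aeval A.mulVecLin ((X ^ r - C μ : F[X]) * y) = 0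
        rw [map_mul, hev, zero_mul])
  have hφmk : ∀ g : F[X], φ (AdjoinRoot.mk _ g) = Polynomial.aeval A.mulVecLin g := fun g => rfl
  have hφroot : φ (AdjoinRoot.root _) = A.mulVecLin := by
    rw [AdjoinRoot.root, hφmk, aeval_X]
  have hφof : ∀ a : F, φ (AdjoinRoot.of _ a) = algebraMap F _ a := by
    intro a
    rw [← AdjoinRoot.mk_C, hφmk, aeval_C]
  letI : Module (AdjoinRoot (X ^ r - C μ : F[X])) (Fin n → F) := Module.compHom _ φ
  have hsmul : ∀ (k : AdjoinRoot (X ^ r - C μ : F[X])) (v : Fin n → F), k • v = φ k v :=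
    fun k v => rfl
  haveI : IsScalarTower F (AdjoinRoot (X ^ r - C μ : F[X])) (Fin n → F) := by
    constructor
    intro a k v
    rw [hsmul, hsmul, Algebra.smul_def, map_mul, AdjoinRoot.algebraMap_eq, hφof,
      Module.End.mul_apply, Module.algebraMap_end_apply]
  haveI : Module.Finite (AdjoinRoot (X ^ r - C μ : F[X])) (Fin n → F) :=
    Module.Finite.of_restrictScalars_finite F _ _
  have hfr := Module.finrank_mul_finrank F (AdjoinRoot (X ^ r - C μ : F[X])) (Fin n → F)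
  rw [pr_finrank_K r hr0, Module.finrank_fin_fun] at hfr
  refine ⟨finrank (AdjoinRoot (X ^ r - C μ : F[X])) (Fin n → F), hfr.symm, ?_⟩
  let e : (Fin n → F) ≃ₗ[AdjoinRoot (X ^ r - C μ : F[X])]
      (Fin (finrank (AdjoinRoot (X ^ r - C μ : F[X])) (Fin n → F)) →
        AdjoinRoot (X ^ r - C μ : F[X])) :=
    LinearEquiv.ofFinrankEq _ _ (by rw [Module.finrank_fin_fun])
  refine ⟨e.restrictScalars F, ?_⟩
  intro v
  have : A *ᵥ v = AdjoinRoot.root (X ^ r - C μ : F[X]) • v := by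
    rw [hsmul, hφroot, Matrix.mulVecLin_apply]
  rw [this]
  exact e.map_smul _ _

theorem pr_nonpow_conj {n : ℕ} (r : ℕ) (hr : r.Prime) (μ : F) (hμ : ∀ b : F, b ^ r ≠ μ)
    (A B : Matrix (Fin n) (Fin n) F)
    (hA : A ^ r = μ • (1 : Matrix (Fin n) (Fin n) F))
    (hB : B ^ r = μ • (1 : Matrix (Fin n) (Fin n) F)) :
    ∃ P : GL (Fin n) F, P.val * A = B * P.val := by
  haveI : Fact (Irreducible (X ^ r - C μ : F[X])) := ⟨X_pow_sub_C_irreducible_of_prime hr hμ⟩
  obtain ⟨k, hk, Ψ, hΨ⟩ := pr_model r hr.ne_zero μ A hA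
  obtain ⟨k', hk', Ψ', hΨ'⟩ := pr_model r hr.ne_zero μ B hB
  obtain rfl : k = k' := by
    have : r * k = r * k' := by omega
    exact Nat.eq_of_mul_eq_mul_left hr.pos this
  apply pgl_of_linearEquiv A B (Ψ.trans Ψ'.symm)
  intro v
  rw [LinearEquiv.trans_apply, LinearEquiv.trans_apply, hΨ]
  apply Ψ'.injective
  rw [LinearEquiv.apply_symm_apply, hΨ', LinearEquiv.apply_symm_apply]

theorem pr_nonpow_dvd {n : ℕ} (r : ℕ) (hr : r.Prime) (μ : F) (hμ : ∀ b : F, b ^ r ≠ μ)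
    (A : Matrix (Fin n) (Fin n) F)
    (hA : A ^ r = μ • (1 : Matrix (Fin n) (Fin n) F)) : r ∣ n := by
  haveI : Fact (Irreducible (X ^ r - C μ : F[X])) := ⟨X_pow_sub_C_irreducible_of_prime hr hμ⟩
  obtain ⟨k, hk, -⟩ := pr_model r hr.ne_zero μ A hA
  exact ⟨k, hk⟩

theorem pr_nonpow_exists {n : ℕ} (r : ℕ) (hr : r.Prime) (μ : F) (hμ : ∀ b : F, b ^ r ≠ μ)
    (hn : r ∣ n) :
    ∃ A : Matrix (Fin n) (Fin n) F, A ^ r = μ • (1 : Matrix (Fin n) (Fin n) F) := by
  haveI : Fact (Irreducible (X ^ r - C μ : F[X])) := ⟨X_pow_sub_C_irreducible_of_prime hr hμ⟩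
  obtain ⟨k, rfl⟩ := hn
  haveI : Module.Finite F (AdjoinRoot (X ^ r - C μ : F[X])) :=
    Module.finite_of_finrank_pos (by rw [pr_finrank_K r hr.ne_zero]; exact hr.pos)
  have hfin : finrank F (Fin (r * k) → F) =
      finrank F (Fin k → AdjoinRoot (X ^ r - C μ : F[X])) := by
    rw [Module.finrank_fin_fun, Module.finrank_pi_fintype]
    simp only [pr_finrank_K r hr.ne_zero, Finset.sum_const, Finset.card_univ, Fintype.card_fin,
      smul_eq_mul]
    ring
  let Ψ : (Fin (r * k) → F) ≃ₗ[F] (Fin k → AdjoinRoot (X ^ r - C μ : F[X])) :=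
    LinearEquiv.ofFinrankEq _ _ hfin
  let T : (Fin k → AdjoinRoot (X ^ r - C μ : F[X])) →ₗ[F]
      (Fin k → AdjoinRoot (X ^ r - C μ : F[X])) :=
    { toFun := fun x => AdjoinRoot.root (X ^ r - C μ : F[X]) • x
      map_add' := fun x y => smul_add _ x y
      map_smul' := fun a x => smul_comm _ a x }
  have hTk : ∀ (j : ℕ) (x : Fin k → AdjoinRoot (X ^ r - C μ : F[X])),
      (T ^ j) x = AdjoinRoot.root (X ^ r - C μ : F[X]) ^ j • x := by
    intro j
    induction j with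
    | zero => intro x; simp
    | succ j ih =>
      intro x
      rw [pow_succ, Module.End.mul_apply, ih, pow_succ, ← smul_smul]
      rfl
  have hS : ∀ j : ℕ, (LinearMap.toMatrix' (Ψ.symm.toLinearMap ∘ₗ T ∘ₗ Ψ.toLinearMap)) ^ j =
      LinearMap.toMatrix' (Ψ.symm.toLinearMap ∘ₗ (T ^ j) ∘ₗ Ψ.toLinearMap) := by
    intro j
    induction j with
    | zero =>
      rw [pow_zero, pow_zero]
      have : Ψ.symm.toLinearMap ∘ₗ (1 : Module.End F _) ∘ₗ Ψ.toLinearMap = LinearMap.id := by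
        apply LinearMap.ext
        intro v
        simp
      rw [this, LinearMap.toMatrix'_id]
    | succ j ih =>
      rw [pow_succ, ih, ← LinearMap.toMatrix'_comp]
      congr 1
      apply LinearMap.ext
      intro v
      simp only [LinearMap.comp_apply, LinearEquiv.coe_coe, LinearEquiv.apply_symm_apply]
      rw [pow_succ, Module.End.mul_apply]
  refine ⟨LinearMap.toMatrix' (Ψ.symm.toLinearMap ∘ₗ T ∘ₗ Ψ.toLinearMap), ?_⟩
  rw [hS]
  have : Ψ.symm.toLinearMap ∘ₗ (T ^ r) ∘ₗ Ψ.toLinearMap = μ • LinearMap.id := by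
    apply LinearMap.ext
    intro v
    simp only [LinearMap.comp_apply, LinearEquiv.coe_coe]
    rw [hTk, pr_root_pow, ← AdjoinRoot.algebraMap_eq, algebraMap_smul, map_smul]
    simp
  rw [this, map_smul, LinearMap.toMatrix'_id]

end Cfsg.Agent.Helper37
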