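import Mathlib

set_option autoImplicit false

namespace Cfsg.Agent.Helper37

section ff
variable {F : Type*} [Field F] [Fintype F]

/-- decomposition of nonzero field elements modulo `r`-th powers -/
theorem pr_gamma (r : ℕ) (hr : r.Prime) (hrq : r ∣ Fintype.card F - 1) :
    ∃ γ : Fˣ, (∀ μ : F, μ ≠ 0 → ∃ k < r, ∃ c : F, c ≠ 0 ∧ μ = (γ : F) ^ k * c ^ r) ∧
      (∀ k k' : ℕ, k < r → k' < r → ∀ c c' : F, c ≠ 0 → c' ≠ 0 →
        (γ : F) ^ k * c ^ r = (γ : F) ^ k' * c' ^ r → k = k') := by
  classical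
  obtain ⟨γ, hγ⟩ := IsCyclic.exists_generator (α := Fˣ)
  have hord : orderOf γ = Fintype.card F - 1 := by
    rw [orderOf_eq_card_of_forall_mem_zpowers hγ, Nat.card_eq_fintype_card, Fintype.card_units]
  have hr0 : (r : ℤ) ≠ 0 := by exact_mod_cast hr.ne_zero
  have hrpos : (0 : ℤ) < r := by exact_mod_cast hr.pos
  refine ⟨γ, ?_, ?_⟩
  · intro μ hμ
    obtain ⟨m, hm⟩ := Subgroup.mem_zpowers_iff.mp (hγ (Units.mk0 μ hμ))
    refine ⟨(m % r).toNat, ?_, ((γ ^ (m / r) : Fˣ) : F), Units.ne_zero _, ?_⟩
    · have := Int.emod_lt_of_pos m hrpos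
      have h0 := Int.emod_nonneg m hr0
      omega
    · have h0 := Int.emod_nonneg m hr0
      have h1 : (γ : Fˣ) ^ m = γ ^ ((m % r).toNat) * (γ ^ (m / r)) ^ r := by
        rw [← zpow_natCast γ ((m % r).toNat), Int.toNat_of_nonneg h0, ← zpow_natCast (γ ^ (m / r)) r,
          ← zpow_mul, ← zpow_add, Int.emod_add_ediv_mul]
      have h2 := congrArg (fun u : Fˣ => (u : F)) (hm.symm.trans h1)
      simpa using h2
  · intro k k' hk hk' c c' hc hc' h
    obtain ⟨a, ha⟩ := Subgroup.mem_zpowers_iff.mp (hγ (Units.mk0 c hc))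
    obtain ⟨b, hb⟩ := Subgroup.mem_zpowers_iff.mp (hγ (Units.mk0 c' hc'))
    have h1 : (γ : Fˣ) ^ ((k : ℤ) + a * r) = γ ^ ((k' : ℤ) + b * r) := by
      apply Units.ext
      rw [zpow_add, zpow_add, zpow_mul, zpow_mul, ha, hb, zpow_natCast, zpow_natCast,
        zpow_natCast, zpow_natCast]
      simpa using h
    rw [zpow_eq_zpow_iff_modEq, hord] at h1
    have h2 : ((k : ℤ) + a * r) ≡ ((k' : ℤ) + b * r) [ZMOD (r : ℤ)] := by
      apply Int.ModEq.of_dvd _ h1
      exact_mod_cast hrq
    have h3 : (k : ℤ) % r = (k' : ℤ) % r := by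
      have := h2
      unfold Int.ModEq at this
      rwa [Int.add_mul_emod_self_right, Int.add_mul_emod_self_right] at this
    rw [Int.emod_eq_of_lt (by positivity) (by exact_mod_cast hk),
      Int.emod_eq_of_lt (by positivity) (by exact_mod_cast hk')] at h3
    exact_mod_cast h3

/-- roots of unity data -/
theorem pr_roots (r : ℕ) (hr : r.Prime) (hrq : r ∣ Fintype.card F - 1) :
    ∃ u : Fˣ, orderOf u = r ∧
      (∀ c : F, c ^ r = 1 → ∃ x ∈ Subgroup.zpowers u, ((x : Fˣ) : F) = c) ∧ ((r : F) ≠ 0) := by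
  classical
  haveI : Fact r.Prime := ⟨hr⟩
  haveI : NeZero r := ⟨hr.ne_zero⟩
  have hcard : r ∣ Nat.card Fˣ := by
    rw [Nat.card_eq_fintype_card, Fintype.card_units]
    exact hrq
  obtain ⟨u, hu⟩ := exists_prime_orderOf_dvd_card' r hcard
  have hprim : IsPrimitiveRoot ((u : Fˣ) : F) r := by
    rw [IsPrimitiveRoot.coe_units_iff, ← hu]
    exact IsPrimitiveRoot.orderOf u
  refine ⟨u, hu, ?_, ?_⟩
  · intro c hc
    obtain ⟨i, -, hi⟩ := hprim.eq_pow_of_pow_eq_one hc
    exact ⟨u ^ i, Subgroup.pow_mem _ (Subgroup.mem_zpowers u) i, by rw [← hi]; simp⟩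
  · exact (hprim.neZero').out

end ff

end Cfsg.Agent.Helper37

namespace Cfsg.Agent.Helper37

section count
variable (ι : Type*) [Group ι] [Fintype ι] [DecidableEq ι] (n : ℕ)

/-- multiplicity vectors of non-scalar elements -/
def PrT : Type _ := {a : ι → ℕ // (∑ x, a x = n) ∧ ∀ x, a x < n}

instance : MulAction ι (PrT ι n) where
  smul c a := ⟨fun x => a.1 (c⁻¹ * x), by
    refine ⟨?_, fun x => a.2.2 _⟩
    exact (Equiv.sum_comp (Equiv.mulLeft c⁻¹) a.1).trans a.2.1⟩
  one_smul a := by
    apply Subtype.ext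
    funext x
    show a.1 (1⁻¹ * x) = a.1 x
    rw [inv_one, one_mul]
  mul_smul c d a := by
    apply Subtype.ext
    funext x
    show a.1 ((c * d)⁻¹ * x) = a.1 (d⁻¹ * (c⁻¹ * x))
    rw [mul_inv_rev, mul_assoc]

theorem PrT_smul_apply (c : ι) (a : PrT ι n) (x : ι) : (c • a).1 x = a.1 (c⁻¹ * x) := rfl

instance : Finite (PrT ι n) := by
  apply Finite.of_injective (fun a : PrT ι n => (fun x => (⟨a.1 x, a.2.2 x⟩ : Fin n)))
  intro a b hab
  apply Subtype.ext
  funext x
  have := congrFun hab x
  exact congrArg Fin.val this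

noncomputable instance : Fintype (PrT ι n) := Fintype.ofFinite _

theorem PrT_card (r : ℕ) (hr : 1 ≤ r) (hcard : Fintype.card ι = r) (hn : 1 ≤ n) :
    Fintype.card (PrT ι n) = (n + r - 1).choose (r - 1) - r := by
  classical
  letI : Fintype {P : ι → ℕ // ∑ x, P x = n} :=
    Fintype.ofEquiv (Sym ι n) (Sym.equivNatSumOfFintype ι n)
  have hall : Fintype.card {P : ι → ℕ // ∑ x, P x = n} = (n + r - 1).choose (r - 1) := by
    rw [← Fintype.card_congr (Sym.equivNatSumOfFintype ι n), Sym.card_sym_eq_choose, hcard]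
    have h1 : r + n - 1 = n + r - 1 := by omega
    rw [h1]
    exact Nat.choose_symm_of_eq_add (by omega)
  have hT : Fintype.card (PrT ι n) =
      Fintype.card {P : {P : ι → ℕ // ∑ x, P x = n} // ∀ x, P.1 x < n} :=
    Fintype.card_congr
      (Equiv.subtypeSubtypeEquivSubtypeInter (fun P : ι → ℕ => ∑ x, P x = n)
        (fun P => ∀ x, P x < n)).symm
  have hbad : Fintype.card {P : {P : ι → ℕ // ∑ x, P x = n} // ¬ ∀ x, P.1 x < n} = r := by
    rw [← hcard]
    symm
    apply Fintype.card_of_bijective (f := fun x : ι =>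
      (⟨⟨Pi.single x n, by simp⟩, by
        intro h
        have := h x
        simp at this⟩ : {P : {P : ι → ℕ // ∑ x, P x = n} // ¬ ∀ x, P.1 x < n}))
    constructor
    · intro x y hxy
      have h1 : (Pi.single x n : ι → ℕ) = Pi.single y n := congrArg (fun P => P.1.1) hxy
      by_contra hne
      have h2 := congrFun h1 x
      rw [Pi.single_eq_same, Pi.single_eq_of_ne hne] at h2
      omega
    · rintro ⟨⟨P, hP⟩, hbad⟩
      push Not at hbad
      obtain ⟨x, hx⟩ := hbad
      refine ⟨x, ?_⟩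
      apply Subtype.ext
      apply Subtype.ext
      show Pi.single x n = P
      have hsum := Finset.add_sum_erase Finset.univ P (Finset.mem_univ x)
      rw [hP] at hsum
      have hx' : P x = n := by
        have : P x ≤ n := by omega
        exact le_antisymm this hx
      have hrest : ∑ y ∈ Finset.univ.erase x, P y = 0 := by omega
      rw [Finset.sum_eq_zero_iff] at hrest
      funext y
      by_cases hy : y = x
      · subst hy
        rw [Pi.single_eq_same, hx']
      · rw [Pi.single_eq_of_ne hy]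
        exact (hrest y (Finset.mem_erase.mpr ⟨hy, Finset.mem_univ y⟩)).symm
  have hc := Fintype.card_subtype_compl (fun P : {P : ι → ℕ // ∑ x, P x = n} => ∀ x, P.1 x < n)
  have hle := Fintype.card_subtype_le (fun P : {P : ι → ℕ // ∑ x, P x = n} => ∀ x, P.1 x < n)
  rw [hbad] at hc
  rw [hT, ← hall]
  omega

theorem pr_burnside {X : Type*} [MulAction ι X] [Fintype X] (r : ℕ) [Fact r.Prime]
    (hcard : Fintype.card ι = r) (fix : ℕ)
    (hfix : Nat.card (MulAction.fixedPoints ι X) = fix) :
    Fintype.card X + (r - 1) * fix = Nat.card (MulAction.orbitRel.Quotient ι X) * r := by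
  classical
  letI : Fintype (MulAction.orbitRel.Quotient ι X) := Fintype.ofFinite _
  letI : ∀ g : ι, Fintype (MulAction.fixedBy X g) := fun g => Fintype.ofFinite _
  have hB := MulAction.sum_card_fixedBy_eq_card_orbits_mul_card_group ι X
  rw [hcard, ← Nat.card_eq_fintype_card (α := MulAction.orbitRel.Quotient ι X)] at hB
  rw [← hB, ← Finset.add_sum_erase Finset.univ _ (Finset.mem_univ (1 : ι))]
  have h1 : Fintype.card (MulAction.fixedBy X (1 : ι)) = Fintype.card X := by
    rw [← Nat.card_eq_fintype_card, ← Nat.card_eq_fintype_card]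
    apply Nat.card_congr
    exact (Equiv.subtypeUnivEquiv (fun x => by simp))
  have h2 : ∀ g ∈ Finset.univ.erase (1 : ι), Fintype.card (MulAction.fixedBy X g) = fix := by
    intro g hg
    have hg1 : g ≠ 1 := (Finset.mem_erase.mp hg).1
    rw [← hfix, ← Nat.card_eq_fintype_card]
    have hset : MulAction.fixedBy X g = MulAction.fixedPoints ι X := by
      ext a
      constructor
      · intro ha c
        have hstab : g ∈ MulAction.stabilizer ι a := ha
        have htop : Subgroup.zpowers g = ⊤ :=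
          zpowers_eq_top_of_prime_card (by rw [Nat.card_eq_fintype_card, hcard]) hg1
        have hle : Subgroup.zpowers g ≤ MulAction.stabilizer ι a :=
          Subgroup.zpowers_le.mpr hstab
        rw [htop] at hle
        exact hle (Subgroup.mem_top c)
      · intro ha
        exact ha g
    rw [hset]
  rw [h1, Finset.sum_congr rfl h2, Finset.sum_const, Finset.card_erase_of_mem (Finset.mem_univ _),
    Finset.card_univ, hcard, smul_eq_mul]

theorem PrT_fixed (r : ℕ) (hr : 2 ≤ r) (hcard : Fintype.card ι = r) (hn : 1 ≤ n) :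
    Nat.card (MulAction.fixedPoints ι (PrT ι n)) = if r ∣ n then 1 else 0 := by
  classical
  have hconst : ∀ a : PrT ι n, a ∈ MulAction.fixedPoints ι (PrT ι n) → ∀ x, a.1 x = a.1 1 := by
    intro a ha x
    have := congrArg (fun b : PrT ι n => b.1 x) (ha x)
    simp only [PrT_smul_apply, inv_mul_cancel] at this
    exact this.symm
  have hsum : ∀ a : PrT ι n, a ∈ MulAction.fixedPoints ι (PrT ι n) → r * a.1 1 = n := by
    intro a ha
    have h := a.2.1
    rw [Finset.sum_congr rfl (fun x _ => hconst a ha x), Finset.sum_const, Finset.card_univ,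
      hcard, smul_eq_mul] at h
    exact h
  split_ifs with hdvd
  · obtain ⟨k, hk⟩ := hdvd
    rw [Nat.card_eq_one_iff_unique]
    constructor
    · constructor
      rintro ⟨a, ha⟩ ⟨b, hb⟩
      apply Subtype.ext
      apply Subtype.ext
      funext x
      rw [hconst a ha x, hconst b hb x]
      have h1 := hsum a ha
      have h2 := hsum b hb
      have : r * a.1 1 = r * b.1 1 := by rw [h1, h2]
      exact Nat.eq_of_mul_eq_mul_left (by omega) this
    · have hk0 : 1 ≤ k := by
        rcases Nat.eq_zero_or_pos k with rfl | h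
        · omega
        · exact h
      have hkn : k < n := by
        rw [hk]
        nlinarith
      refine ⟨⟨⟨fun _ => k, by
        rw [Finset.sum_const, Finset.card_univ, hcard, smul_eq_mul, hk], fun _ => hkn⟩, ?_⟩⟩
      intro c
      rfl
  · rw [Nat.card_eq_zero]
    left
    constructor
    rintro ⟨a, ha⟩
    exact hdvd ⟨a.1 1, (hsum a ha).symm⟩

end count

end Cfsg.Agent.Helper37
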