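import Mathlib
import Cfsg.Agent.Helper37.Pgl3
import Cfsg.Agent.Helper37.Pr1
import Cfsg.Agent.Helper37.Pr2
import Cfsg.Agent.Helper37.Pr3

set_option autoImplicit false

namespace Cfsg.Agent.Helper37

open Matrix Module

variable {F : Type*} [Field F] {n : ℕ}

theorem prMult_scalar (c : F) :
    prMult (c • (1 : Matrix (Fin n) (Fin n) F)) c = n := by
  unfold prMult
  have : prE (c • (1 : Matrix (Fin n) (Fin n) F)) c = ⊤ := by
    rw [eq_top_iff]
    intro v _
    rw [pr_mem, Matrix.smul_mulVec, Matrix.one_mulVec]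
  rw [this]
  simp

theorem prMult_eq_card (A : Matrix (Fin n) (Fin n) F) (c : F) (h : prMult A c = n) :
    A = c • (1 : Matrix (Fin n) (Fin n) F) := by
  have htop : prE A c = ⊤ := by
    apply Submodule.eq_top_of_finrank_eq
    rw [show finrank F (prE A c) = n from h]
    simp
  apply pgl_eq_of_mulVec
  intro v
  have : v ∈ prE A c := by rw [htop]; exact Submodule.mem_top
  rw [pr_mem] at this
  rw [this, Matrix.smul_mulVec, Matrix.one_mulVec]

theorem pr_pow_conj (M M' : Matrix (Fin n) (Fin n) F) (h : GL (Fin n) F) (d : F)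
    (hc : M' * h.val = d • (h.val * M)) (k : ℕ) :
    M' ^ k * h.val = d ^ k • (h.val * M ^ k) := by
  induction k with
  | zero => simp
  | succ k ih =>
    calc M' ^ (k + 1) * h.val = M' ^ k * (M' * h.val) := by rw [pow_succ, mul_assoc]
      _ = d • ((M' ^ k * h.val) * M) := by rw [hc, Matrix.mul_smul, ← mul_assoc]
      _ = d ^ (k + 1) • (h.val * M ^ (k + 1)) := by
          rw [ih, Matrix.smul_mul, smul_smul, mul_assoc, ← pow_succ, ← pow_succ']

section data
variable {ι : Type*} [Group ι] [Fintype ι] [DecidableEq ι] (e : ι → F) (r : ℕ)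
  (hinj : Function.Injective e) (hcard : Fintype.card ι = r) (hrF : (r : F) ≠ 0)
  (hpow : ∀ x, e x ^ r = 1) (hmul : ∀ x y, e (x * y) = e x * e y)
  (hroot : ∀ c : F, c ^ r = 1 → ∃ x : ι, e x = c)
  (horth : ∀ i, 0 < i → i < r → ∑ x, (e x)⁻¹ ^ i = 0)

include hcard hrF hpow horth in
theorem pr_span' (A : Matrix (Fin n) (Fin n) F) (hA : A ^ r = 1) : ⨆ x, prE A (e x) = ⊤ :=
  pr_span e r hrF hcard hpow horth A hA

include hinj hcard hrF hpow horth in
theorem pr_M1 (A : Matrix (Fin n) (Fin n) F) (hA : A ^ r = 1)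
    (hns : ¬ ∃ a : F, A = a • (1 : Matrix (Fin n) (Fin n) F)) :
    (∑ x, prMult A (e x) = n) ∧ ∀ x, prMult A (e x) < n := by
  have hs := pr_span' e r hcard hrF hpow horth A hA
  have hsum := pr_sum e hinj A hs
  refine ⟨hsum, fun x => ?_⟩
  have hle : prMult A (e x) ≤ n := by
    have := Finset.single_le_sum (f := fun x => prMult A (e x)) (fun _ _ => Nat.zero_le _)
      (Finset.mem_univ x)
    exact this.trans hsum.le
  rcases Nat.lt_or_ge (prMult A (e x)) n with h | h
  · exact h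
  · exact absurd ⟨e x, prMult_eq_card A (e x) (le_antisymm hle h)⟩ hns

include hpow in
theorem pr_e_ne_zero (hr0 : r ≠ 0) (x : ι) : e x ≠ 0 := by
  intro h
  have := hpow x
  rw [h, zero_pow hr0] at this
  exact zero_ne_one this

include hpow hmul in
theorem pr_e_inv (hr0 : r ≠ 0) (c x : ι) : (e c)⁻¹ * e x = e (c⁻¹ * x) := by
  have h0 := pr_e_ne_zero e r hpow hr0 c
  have : e c * e (c⁻¹ * x) = e x := by rw [← hmul, mul_inv_cancel_left]
  rw [← this, inv_mul_cancel_left₀ h0]

include hinj hcard hrF hpow hmul horth in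
theorem pr_M2 (A M : Matrix (Fin n) (Fin n) F) (hA : A ^ r = 1) (hM : M ^ r = 1) (c : ι)
    (h : ∀ x, prMult A (e x) = prMult M (e (c⁻¹ * x))) :
    ∃ P : GL (Fin n) F, P.val * (e c • M) = A * P.val := by
  have hr0 : r ≠ 0 := by
    rintro rfl
    exact hrF (by simp)
  have hcM : (e c • M) ^ r = 1 := by rw [smul_pow, hpow, hM, one_smul]
  apply pr_conj e hinj (e c • M) A (pr_span' e r hcard hrF hpow horth _ hcM)
    (pr_span' e r hcard hrF hpow horth _ hA)
  intro x
  rw [prMult_smul M (e c) (e x) (pr_e_ne_zero e r hpow hr0 c), pr_e_inv e r hpow hmul hr0, h]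

include hpow hmul hroot hrF in
theorem pr_M3 (hn : 0 < n) (M M' : Matrix (Fin n) (Fin n) F) (hM : M ^ r = 1) (hM' : M' ^ r = 1)
    (h : GL (Fin n) F) (d : F) (hc : M' * h.val = d • (h.val * M)) :
    ∃ c : ι, ∀ x, prMult M' (e x) = prMult M (e (c⁻¹ * x)) := by
  have hr0 : r ≠ 0 := by
    rintro rfl
    exact hrF (by simp)
  have hk := pr_pow_conj M M' h d hc r
  rw [hM, hM', one_mul, mul_one] at hk
  have hd : d ^ r = 1 := by
    have := pgl_smul_cancel hn h 1 (d ^ r) (by rw [one_smul]; exact hk)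
    exact this.symm
  obtain ⟨c, rfl⟩ := hroot d hd
  refine ⟨c, fun x => ?_⟩
  have hconj : h.val * (e c • M) = M' * h.val := by rw [hc, Matrix.mul_smul]
  rw [← prMult_conj (e c • M) M' h hconj (e x),
    prMult_smul M (e c) (e x) (pr_e_ne_zero e r hpow hr0 c), pr_e_inv e r hpow hmul hr0]

end data

end Cfsg.Agent.Helper37
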