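import Mathlib
import Cfsg.Agent.Helper37.Pr4

set_option autoImplicit false

namespace Cfsg.Agent.Helper37

open Matrix

variable {F : Type*} [Field F] {n : ℕ}

theorem pgl_order_r (r : ℕ) [Fact r.Prime] (g : GL (Fin n) F) :
    orderOf (QuotientGroup.mk g : GL (Fin n) F ⧸ Subgroup.center (GL (Fin n) F)) = r ↔
      (∃ μ : F, g.val ^ r = μ • (1 : Matrix (Fin n) (Fin n) F)) ∧
        ¬ ∃ a : F, g.val = a • (1 : Matrix (Fin n) (Fin n) F) := by
  rw [orderOf_eq_prime_iff, ← QuotientGroup.mk_pow, QuotientGroup.eq_one_iff, pgl_scalar_iff, Ne,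
    QuotientGroup.eq_one_iff, pgl_scalar_iff, Units.val_pow_eq_pow_val]

theorem pgl_count' {H : Type*} [Group H] (r : ℕ) {I : Type*} [Fintype I] (reps : I → H)
    (h1 : ∀ i, orderOf (reps i) = r) (h2 : ∀ i j, IsConj (reps i) (reps j) → i = j)
    (h3 : ∀ x : H, orderOf x = r → ∃ i, IsConj (reps i) x) :
    Nat.card {C : ConjClasses H // ∃ g : H, ConjClasses.mk g = C ∧ orderOf g = r} =
      Fintype.card I := by
  let f : I → {C : ConjClasses H // ∃ g : H, ConjClasses.mk g = C ∧ orderOf g = r} :=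
    fun i => ⟨ConjClasses.mk (reps i), reps i, rfl, h1 i⟩
  have hf : Function.Bijective f := by
    constructor
    · intro i j hij
      have := congrArg Subtype.val hij
      exact h2 i j (ConjClasses.mk_eq_mk_iff_isConj.mp this)
    · rintro ⟨C, g, rfl, hg⟩
      obtain ⟨i, hi⟩ := h3 g hg
      exact ⟨i, Subtype.ext (ConjClasses.mk_eq_mk_iff_isConj.mpr hi)⟩
  rw [← Nat.card_congr (Equiv.ofBijective f hf), Nat.card_eq_fintype_card]

theorem pr_smul_one_pow (a : F) (k : ℕ) :
    (a • (1 : Matrix (Fin n) (Fin n) F)) ^ k = a ^ k • (1 : Matrix (Fin n) (Fin n) F) := by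
  rw [smul_pow, one_pow]

theorem pr_scalar_cancel (hn : 0 < n) (a b : F)
    (h : a • (1 : Matrix (Fin n) (Fin n) F) = b • (1 : Matrix (Fin n) (Fin n) F)) : a = b :=
  pgl_smul_cancel hn (1 : GL (Fin n) F) a b h

end Cfsg.Agent.Helper37

namespace Cfsg.Agent.Helper37

open Matrix

variable {F : Type*} [Field F] {n : ℕ}

section main
variable {ι : Type*} [Group ι] [Fintype ι] [DecidableEq ι] (e : ι → F) (r : ℕ)

theorem pr_main_abs (hr : r.Prime) (hinj : Function.Injective e) (hcard : Fintype.card ι = r)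
    (hrF : (r : F) ≠ 0) (hpow : ∀ x, e x ^ r = 1) (hmul : ∀ x y, e (x * y) = e x * e y)
    (hroot : ∀ c : F, c ^ r = 1 → ∃ x : ι, e x = c)
    (horth : ∀ i, 0 < i → i < r → ∑ x, (e x)⁻¹ ^ i = 0)
    (γ : F) (hγ0 : γ ≠ 0)
    (hγ1 : ∀ μ : F, μ ≠ 0 → ∃ k < r, ∃ c : F, c ≠ 0 ∧ μ = γ ^ k * c ^ r)
    (hγ2 : ∀ k k' : ℕ, k < r → k' < r → ∀ c c' : F, c ≠ 0 → c' ≠ 0 →
      γ ^ k * c ^ r = γ ^ k' * c' ^ r → k = k')
    (hn : 2 ≤ n) :
    Nat.card {C : ConjClasses (GL (Fin n) F ⧸ Subgroup.center (GL (Fin n) F)) //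
      ∃ g : GL (Fin n) F ⧸ Subgroup.center (GL (Fin n) F),
        ConjClasses.mk g = C ∧ orderOf g = r} =
      ((n + r - 1).choose (r - 1) - r - (if r ∣ n then 1 else 0)) / r +
        r * (if r ∣ n then 1 else 0) := by
  classical
  haveI : Fact r.Prime := ⟨hr⟩
  have hr0 : r ≠ 0 := hr.ne_zero
  have hr2 : 2 ≤ r := hr.two_le
  have hn0 : 0 < n := by omega
  -- type I representatives
  have hlab : ∀ b : PrT ι n, ∃ f : Fin n → ι, ∀ x, Fintype.card {i // f i = x} = b.1 x :=
    fun b => pr_exists_label b.1 b.2.1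
  let M : PrT ι n → Matrix (Fin n) (Fin n) F := fun b => prD e (Classical.choose (hlab b))
  have hMpow : ∀ b, M b ^ r = 1 := by
    intro b
    show prD e _ ^ r = 1
    rw [prD_pow]
    simp only [hpow]
    exact Matrix.diagonal_one
  have hMmult : ∀ b x, prMult (M b) (e x) = b.1 x := by
    intro b x
    show prMult (prD e _) (e x) = b.1 x
    rw [prMult_D e hinj]
    exact Classical.choose_spec (hlab b) x
  let DU : PrT ι n → GL (Fin n) F := fun b => ⟨M b, M b ^ (r - 1),
    by rw [← pow_succ', Nat.sub_add_cancel hr.pos, hMpow],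
    by rw [← pow_succ, Nat.sub_add_cancel hr.pos, hMpow]⟩
  have hDUord : ∀ b, orderOf (QuotientGroup.mk (DU b) :
      GL (Fin n) F ⧸ Subgroup.center (GL (Fin n) F)) = r := by
    intro b
    rw [pgl_order_r]
    refine ⟨⟨1, by rw [one_smul]; exact hMpow b⟩, ?_⟩
    rintro ⟨a, ha⟩
    have ha' : M b = a • (1 : Matrix (Fin n) (Fin n) F) := ha
    have hpa : a ^ r = 1 := by
      have := hMpow b
      rw [ha', pr_smul_one_pow] at this
      exact pr_scalar_cancel hn0 _ _ (by rw [this, one_smul])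
    obtain ⟨x, rfl⟩ := hroot a hpa
    have h1 := hMmult b x
    rw [ha', prMult_scalar] at h1
    have h2 := b.2.2 x
    omega
  have hDUconj : ∀ b b' : PrT ι n, IsConj (QuotientGroup.mk (DU b) :
      GL (Fin n) F ⧸ Subgroup.center (GL (Fin n) F)) (QuotientGroup.mk (DU b')) →
      ∃ c : ι, b' = c • b := by
    intro b b' hconj
    rw [pgl_isConj] at hconj
    obtain ⟨h, d, hd⟩ := hconj
    obtain ⟨c, hc⟩ := pr_M3 e r hrF hpow hmul hroot hn0 (M b) (M b') (hMpow b) (hMpow b') h d hd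
    refine ⟨c, ?_⟩
    apply Subtype.ext
    funext x
    rw [PrT_smul_apply, ← hMmult b' x, hc x, hMmult]
  have hDUcov : ∀ (g : GL (Fin n) F) (c : F), c ≠ 0 →
      g.val ^ r = c ^ r • (1 : Matrix (Fin n) (Fin n) F) →
      (¬ ∃ a : F, g.val = a • (1 : Matrix (Fin n) (Fin n) F)) →
      ∃ b : PrT ι n, ∀ b' : PrT ι n, b' ∈ MulAction.orbit ι b →
        IsConj (QuotientGroup.mk (DU b') : GL (Fin n) F ⧸ Subgroup.center (GL (Fin n) F))
          (QuotientGroup.mk g) := by
    intro g c hc hg hns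
    have hA : (c⁻¹ • g.val) ^ r = 1 := by
      rw [smul_pow, hg, smul_smul, inv_pow, inv_mul_cancel₀ (pow_ne_zero r hc), one_smul]
    have hAns : ¬ ∃ a : F, c⁻¹ • g.val = a • (1 : Matrix (Fin n) (Fin n) F) := by
      rintro ⟨a, ha⟩
      apply hns
      refine ⟨c * a, ?_⟩
      rw [← smul_smul, ← ha, smul_smul, mul_inv_cancel₀ hc, one_smul]
    have hT := pr_M1 e r hinj hcard hrF hpow horth (c⁻¹ • g.val) hA hAns
    let a : PrT ι n := ⟨fun x => prMult (c⁻¹ • g.val) (e x), hT⟩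
    refine ⟨a, ?_⟩
    intro b' hb'
    obtain ⟨c₁, hc₁⟩ := hb'
    have hc₁' : c₁ • a = b' := hc₁
    subst hc₁'
    have hx : ∀ x, prMult (c⁻¹ • g.val) (e x) = prMult (M (c₁ • a)) (e ((c₁⁻¹)⁻¹ * x)) := by
      intro x
      rw [hMmult, PrT_smul_apply, inv_inv, inv_mul_cancel_left]
    obtain ⟨P, hP⟩ := pr_M2 e r hinj hcard hrF hpow hmul horth (c⁻¹ • g.val) _ hA (hMpow _)
      c₁⁻¹ hx
    rw [pgl_isConj]
    refine ⟨P, c * e c₁⁻¹, ?_⟩
    have hg' : g.val = c • (c⁻¹ • g.val) := by rw [smul_smul, mul_inv_cancel₀ hc, one_smul]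
    have hDUv : (DU (c₁ • a)).val = M (c₁ • a) := rfl
    rw [hDUv]
    nth_rewrite 1 [hg']
    rw [Matrix.smul_mul, ← hP, Matrix.mul_smul, smul_smul]
  have hnp : ∀ s, 0 < s → s < r → ∀ b : F, b ^ r ≠ γ ^ s := by
    intro s hs0 hsr b hb
    have hb0 : b ≠ 0 := by
      rintro rfl
      rw [zero_pow hr0] at hb
      exact pow_ne_zero s hγ0 hb.symm
    have := hγ2 0 s hr.pos hsr b 1 hb0 one_ne_zero
      (by rw [pow_zero, one_mul, one_pow, mul_one]; exact hb)
    omega
  have hμ0 : ∀ (g : GL (Fin n) F) (μ : F),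
      g.val ^ r = μ • (1 : Matrix (Fin n) (Fin n) F) → μ ≠ 0 := by
    rintro g μ hg rfl
    rw [zero_smul, ← Units.val_pow_eq_pow_val] at hg
    exact pgl_unit_ne_zero hn0 (g ^ r) hg
  have hnpμ : ∀ (k : ℕ) (c : F), 0 < k → k < r → c ≠ 0 → ∀ b : F, b ^ r ≠ γ ^ k * c ^ r := by
    intro k c hk0 hkr hc b hb
    have hb0 : b ≠ 0 := by
      rintro rfl
      rw [zero_pow hr0] at hb
      exact mul_ne_zero (pow_ne_zero k hγ0) (pow_ne_zero r hc) hb.symm
    have := hγ2 0 k hr.pos hkr b c hb0 hc (by rw [pow_zero, one_mul]; exact hb)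
    omega
  letI : Fintype (MulAction.orbitRel.Quotient ι (PrT ι n)) := Fintype.ofFinite _
  have hout : ∀ b : PrT ι n, Quotient.out (Quotient.mk'' b : MulAction.orbitRel.Quotient ι (PrT ι n))
      ∈ MulAction.orbit ι b := by
    intro b
    have := Quotient.exact' (Quotient.out_eq' (Quotient.mk'' b : MulAction.orbitRel.Quotient ι (PrT ι n)))
    exact this
  have hII : ∀ ω ω' : MulAction.orbitRel.Quotient ι (PrT ι n),
      IsConj (QuotientGroup.mk (DU (Quotient.out ω)) :
        GL (Fin n) F ⧸ Subgroup.center (GL (Fin n) F)) (QuotientGroup.mk (DU (Quotient.out ω'))) →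
      ω = ω' := by
    intro ω ω' hconj
    obtain ⟨c, hc⟩ := hDUconj _ _ hconj
    rw [← Quotient.out_eq' ω, ← Quotient.out_eq' ω']
    apply Quotient.sound'
    show Quotient.out ω ∈ MulAction.orbit ι (Quotient.out ω')
    rw [hc]
    exact ⟨c⁻¹, by simp⟩
  have hburn := pr_burnside ι (X := PrT ι n) r hcard (if r ∣ n then 1 else 0)
    (PrT_fixed ι n r hr2 hcard (by omega))
  rw [PrT_card ι n r hr.pos hcard (by omega), Nat.card_eq_fintype_card] at hburn
  by_cases hdvd : r ∣ n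
  · rw [if_pos hdvd] at hburn ⊢
    have hBex : ∀ s : Fin (r - 1), ∃ B : Matrix (Fin n) (Fin n) F,
        B ^ r = γ ^ (s.val + 1) • (1 : Matrix (Fin n) (Fin n) F) :=
      fun s => pr_nonpow_exists r hr (γ ^ (s.val + 1)) (hnp _ (by omega) (by omega)) hdvd
    let B : Fin (r - 1) → Matrix (Fin n) (Fin n) F := fun s => Classical.choose (hBex s)
    have hB : ∀ s, B s ^ r = γ ^ (s.val + 1) • (1 : Matrix (Fin n) (Fin n) F) :=
      fun s => Classical.choose_spec (hBex s)
    let BU : Fin (r - 1) → GL (Fin n) F := fun s => ⟨B s, (γ ^ (s.val + 1))⁻¹ • B s ^ (r - 1),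
      by rw [Matrix.mul_smul, ← pow_succ', Nat.sub_add_cancel hr.pos, hB, smul_smul,
        inv_mul_cancel₀ (pow_ne_zero _ hγ0), one_smul],
      by rw [Matrix.smul_mul, ← pow_succ, Nat.sub_add_cancel hr.pos, hB, smul_smul,
        inv_mul_cancel₀ (pow_ne_zero _ hγ0), one_smul]⟩
    have hBUval : ∀ s, (BU s).val = B s := fun s => rfl
    rw [pgl_count' r (I := MulAction.orbitRel.Quotient ι (PrT ι n) ⊕ Fin (r - 1))
      (Sum.elim (fun ω => (QuotientGroup.mk (DU (Quotient.out ω)) :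
          GL (Fin n) F ⧸ Subgroup.center (GL (Fin n) F)))
        (fun s => QuotientGroup.mk (BU s)))]
    · rw [Fintype.card_sum, Fintype.card_fin]
      obtain ⟨N', hN'⟩ : ∃ N', Fintype.card (MulAction.orbitRel.Quotient ι (PrT ι n)) = N' + 1 := by
        rcases Nat.eq_zero_or_pos (Fintype.card (MulAction.orbitRel.Quotient ι (PrT ι n)))
          with h | h
        · rw [h] at hburn
          omega
        · exact ⟨Fintype.card (MulAction.orbitRel.Quotient ι (PrT ι n)) - 1, by omega⟩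
      rw [hN'] at hburn ⊢
      have h1 : (N' + 1) * r = N' * r + r := by ring
      rw [h1] at hburn
      have h2 : (n + r - 1).choose (r - 1) - r - 1 = N' * r := by omega
      rw [h2, Nat.mul_div_cancel _ hr.pos]
      omega
    · rintro (ω | s)
      · exact hDUord _
      · show orderOf (QuotientGroup.mk (BU s) :
          GL (Fin n) F ⧸ Subgroup.center (GL (Fin n) F)) = r
        rw [pgl_order_r]
        refine ⟨⟨_, hB s⟩, ?_⟩
        rintro ⟨a, ha⟩
        have ha' : B s = a • (1 : Matrix (Fin n) (Fin n) F) := ha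
        have := hB s
        rw [ha', pr_smul_one_pow] at this
        exact hnp (s.val + 1) (by omega) (by omega) a (pr_scalar_cancel hn0 _ _ this)
    · rintro (ω | s) (ω' | s') hij
      · rw [hII ω ω' hij]
      · exfalso
        have hij' : IsConj (QuotientGroup.mk (DU (Quotient.out ω)) :
            GL (Fin n) F ⧸ Subgroup.center (GL (Fin n) F)) (QuotientGroup.mk (BU s')) := hij
        rw [pgl_isConj] at hij'
        obtain ⟨h, d, hd⟩ := hij'
        have hk := pr_pow_conj (M (Quotient.out ω)) (B s') h d hd r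
        rw [hMpow, hB, mul_one, Matrix.smul_mul, one_mul] at hk
        exact hnp (s'.val + 1) (by omega) (by omega) d (pgl_smul_cancel hn0 h _ _ hk).symm
      · exfalso
        have hij' : IsConj (QuotientGroup.mk (DU (Quotient.out ω')) :
            GL (Fin n) F ⧸ Subgroup.center (GL (Fin n) F)) (QuotientGroup.mk (BU s)) := hij.symm
        rw [pgl_isConj] at hij'
        obtain ⟨h, d, hd⟩ := hij'
        have hk := pr_pow_conj (M (Quotient.out ω')) (B s) h d hd r
        rw [hMpow, hB, mul_one, Matrix.smul_mul, one_mul] at hk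
        exact hnp (s.val + 1) (by omega) (by omega) d (pgl_smul_cancel hn0 h _ _ hk).symm
      · have hij' : IsConj (QuotientGroup.mk (BU s) :
            GL (Fin n) F ⧸ Subgroup.center (GL (Fin n) F)) (QuotientGroup.mk (BU s')) := hij
        rw [pgl_isConj] at hij'
        obtain ⟨h, d, hd⟩ := hij'
        have hk := pr_pow_conj (B s) (B s') h d hd r
        rw [hB, hB, Matrix.smul_mul, one_mul, Matrix.mul_smul, mul_one, smul_smul] at hk
        have hk' := pgl_smul_cancel hn0 h _ _ hk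
        have hd0 : d ≠ 0 := by
          rintro rfl
          rw [zero_pow hr0, zero_mul] at hk'
          exact pow_ne_zero _ hγ0 hk'
        have := hγ2 (s'.val + 1) (s.val + 1) (by omega) (by omega) 1 d one_ne_zero hd0
          (by rw [one_pow, mul_one, hk', mul_comm])
        congr 1
        exact Fin.ext (by omega)
    · intro x hx
      obtain ⟨g, rfl⟩ := QuotientGroup.mk_surjective x
      rw [pgl_order_r] at hx
      obtain ⟨⟨μ, hg⟩, hns⟩ := hx
      obtain ⟨k, hk, c, hc, rfl⟩ := hγ1 μ (hμ0 g μ hg)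
      rcases Nat.eq_zero_or_pos k with rfl | hkpos
      · rw [pow_zero, one_mul] at hg
        obtain ⟨b, hb⟩ := hDUcov g c hc hg hns
        exact ⟨Sum.inl (Quotient.mk'' b), hb _ (hout b)⟩
      · have hk1 : k - 1 < r - 1 := by omega
        refine ⟨Sum.inr ⟨k - 1, hk1⟩, ?_⟩
        show IsConj (QuotientGroup.mk (BU ⟨k - 1, hk1⟩) :
          GL (Fin n) F ⧸ Subgroup.center (GL (Fin n) F)) (QuotientGroup.mk g)
        rw [pgl_isConj]
        have hcB : (c • B ⟨k - 1, hk1⟩) ^ r =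
            (γ ^ k * c ^ r) • (1 : Matrix (Fin n) (Fin n) F) := by
          rw [smul_pow, hB, smul_smul]
          have : (⟨k - 1, hk1⟩ : Fin (r - 1)).val + 1 = k := by
            show k - 1 + 1 = k
            omega
          rw [this, mul_comm]
        obtain ⟨P, hP⟩ := pr_nonpow_conj r hr _ (hnpμ k c hkpos hk hc) (c • B ⟨k - 1, hk1⟩)
          g.val hcB hg
        exact ⟨P, c, by rw [hBUval, ← hP, Matrix.mul_smul]⟩
  · rw [if_neg hdvd] at hburn ⊢
    rw [pgl_count' r (I := MulAction.orbitRel.Quotient ι (PrT ι n))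
      (fun ω => (QuotientGroup.mk (DU (Quotient.out ω)) :
        GL (Fin n) F ⧸ Subgroup.center (GL (Fin n) F)))]
    · rw [Nat.sub_zero, mul_zero, add_zero]
      rw [mul_zero, add_zero] at hburn
      rw [hburn, Nat.mul_div_cancel _ hr.pos]
    · exact fun ω => hDUord _
    · exact hII
    · intro x hx
      obtain ⟨g, rfl⟩ := QuotientGroup.mk_surjective x
      rw [pgl_order_r] at hx
      obtain ⟨⟨μ, hg⟩, hns⟩ := hx
      obtain ⟨k, hk, c, hc, rfl⟩ := hγ1 μ (hμ0 g μ hg)
      rcases Nat.eq_zero_or_pos k with rfl | hkpos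
      · rw [pow_zero, one_mul] at hg
        obtain ⟨b, hb⟩ := hDUcov g c hc hg hns
        exact ⟨Quotient.mk'' b, hb _ (hout b)⟩
      · exfalso
        exact hdvd (pr_nonpow_dvd r hr _ (hnpμ k c hkpos hk hc) g.val hg)

end main

end Cfsg.Agent.Helper37

namespace Cfsg.Agent.Helper37

open Matrix

theorem pr_main {F : Type*} [Field F] [Fintype F] {n r : ℕ} (hr : r.Prime)
    (hrq : r ∣ Fintype.card F - 1) (hn : 2 ≤ n) :
    Nat.card {C : ConjClasses (GL (Fin n) F ⧸ Subgroup.center (GL (Fin n) F)) //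
      ∃ g : GL (Fin n) F ⧸ Subgroup.center (GL (Fin n) F),
        ConjClasses.mk g = C ∧ orderOf g = r} =
      ((n + r - 1).choose (r - 1) - r - (if r ∣ n then 1 else 0)) / r +
        r * (if r ∣ n then 1 else 0) := by
  classical
  obtain ⟨u, hu, hroot0, hrF⟩ := pr_roots (F := F) r hr hrq
  obtain ⟨γ, hγ1, hγ2⟩ := pr_gamma (F := F) r hr hrq
  have hcard : Fintype.card ↥(Subgroup.zpowers u) = r := by
    rw [← Nat.card_eq_fintype_card, Nat.card_zpowers, hu]
  have hr1 : 1 < r := hr.one_lt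
  have hpowu : ∀ x : ↥(Subgroup.zpowers u), ((x : Fˣ) : F) ^ r = 1 := by
    intro x
    have h1 : x ^ r = 1 := by
      rw [← hcard]
      exact pow_card_eq_one
    have h2 := congrArg (fun y : ↥(Subgroup.zpowers u) => ((y : Fˣ) : F)) h1
    simpa using h2
  refine pr_main_abs (ι := ↥(Subgroup.zpowers u)) (fun x => ((x : Fˣ) : F)) r hr ?_ hcard hrF
    hpowu ?_ ?_ ?_ (γ : F) (Units.ne_zero γ) hγ1 hγ2 hn
  · intro x y hxy
    exact Subtype.ext (Units.ext hxy)
  · intro x y
    simp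
  · intro c hc
    obtain ⟨x, hx, hxc⟩ := hroot0 c hc
    exact ⟨⟨x, hx⟩, hxc⟩
  · intro i hi0 hir
    set S : F := ∑ x : ↥(Subgroup.zpowers u), (((x : Fˣ) : F))⁻¹ ^ i with hS
    have hu1 : ((u : F))⁻¹ ^ i ≠ 1 := by
      intro h
      have h2 : (u⁻¹ : Fˣ) ^ i = 1 := by
        apply Units.ext
        simpa using h
      have h3 : orderOf (u⁻¹ : Fˣ) = r := by rw [orderOf_inv, hu]
      exact pow_ne_one_of_lt_orderOf (by omega) (by rw [h3]; exact hir) h2
    have hshift : S = ((u : F))⁻¹ ^ i * S := by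
      rw [hS, Finset.mul_sum]
      rw [← Equiv.sum_comp (Equiv.mulLeft (⟨u, Subgroup.mem_zpowers u⟩ : ↥(Subgroup.zpowers u)))]
      apply Finset.sum_congr rfl
      intro x _
      simp [mul_pow, mul_comm]
    have h4 : (1 - ((u : F))⁻¹ ^ i) * S = 0 := by
      rw [sub_mul, one_mul, ← hshift, sub_self]
    rcases mul_eq_zero.mp h4 with h | h
    · exact absurd (sub_eq_zero.mp h).symm hu1
    · exact h

end Cfsg.Agent.Helper37
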