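import Mathlib
import Cfsg.Agent.S2587
import Cfsg.Agent.S0783
import Cfsg.Agent.Helper5.UnitSU
import Cfsg.Agent.Helper37.Pr5

set_option autoImplicit false

namespace Cfsg.Agent.Helper37

open Matrix

section pu
variable {K : Type*} [Field K] [Fintype K] {q n : ℕ}

omit [Fintype K] in
theorem pu_ne_zero_of_norm (c : K) (hc : c ^ (q + 1) = 1) : c ≠ 0 := by
  rintro rfl
  rw [zero_pow (by omega)] at hc
  exact zero_ne_one hc

/-- scalar element of `GU` -/
noncomputable def puS (n : ℕ) (c : K) (hc : c ^ (q + 1) = 1) : ↥(Cfsg.GU n K q) :=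
  ⟨Cfsg.Agent.S0783.scalarGL n c (pu_ne_zero_of_norm c hc),
    Cfsg.Agent.S0783.scalarGL_mem n c (pu_ne_zero_of_norm c hc) hc⟩

theorem puS_val (c : K) (hc : c ^ (q + 1) = 1) :
    (puS n c hc : ↥(Cfsg.GU n K q)).val.val = c • (1 : Matrix (Fin n) (Fin n) K) := by
  show Matrix.diagonal (fun _ => c) = c • (1 : Matrix (Fin n) (Fin n) K)
  rw [Matrix.smul_one_eq_diagonal]

theorem pu_scalar_iff (hK : Fintype.card K = q ^ 2) (hn : 1 ≤ n) (g : ↥(Cfsg.GU n K q)) :
    g ∈ Subgroup.center ↥(Cfsg.GU n K q) ↔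
      ∃ a : K, g.val.val = a • (1 : Matrix (Fin n) (Fin n) K) := by
  constructor
  · intro hg
    rw [Subgroup.mem_center_iff] at hg
    obtain ⟨c, -, hc⟩ := Cfsg.Agent.S0783.center_GU_scalar hK hn g.val g.2 (fun h hh => by
      have := congrArg Subtype.val (hg ⟨h, hh⟩)
      exact this.symm)
    exact ⟨c, by rw [hc, Matrix.smul_one_eq_diagonal]⟩
  · rintro ⟨a, ha⟩
    rw [Subgroup.mem_center_iff]
    intro h
    apply Subtype.ext
    apply Units.ext
    show h.val.val * g.val.val = g.val.val * h.val.val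
    rw [ha, Matrix.mul_smul, Matrix.smul_mul, Matrix.mul_one, Matrix.one_mul]

theorem pu_order_r (hK : Fintype.card K = q ^ 2) (hn : 1 ≤ n) (r : ℕ) [Fact r.Prime]
    (g : ↥(Cfsg.GU n K q)) :
    orderOf (QuotientGroup.mk g : ↥(Cfsg.GU n K q) ⧸ Subgroup.center ↥(Cfsg.GU n K q)) = r ↔
      (∃ μ : K, g.val.val ^ r = μ • (1 : Matrix (Fin n) (Fin n) K)) ∧
        ¬ ∃ a : K, g.val.val = a • (1 : Matrix (Fin n) (Fin n) K) := by
  rw [orderOf_eq_prime_iff, ← QuotientGroup.mk_pow, QuotientGroup.eq_one_iff,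
    pu_scalar_iff hK hn, Ne, QuotientGroup.eq_one_iff, pu_scalar_iff hK hn]
  rfl

theorem pu_isConj (hK : Fintype.card K = q ^ 2) (hn : 1 ≤ n) (g g' : ↥(Cfsg.GU n K q)) :
    IsConj (QuotientGroup.mk g : ↥(Cfsg.GU n K q) ⧸ Subgroup.center ↥(Cfsg.GU n K q))
      (QuotientGroup.mk g') →
      ∃ (h : GL (Fin n) K) (c : K), g'.val.val * h.val = c • (h.val * g.val.val) := by
  rw [isConj_iff]
  rintro ⟨x, hx⟩
  obtain ⟨h, rfl⟩ := QuotientGroup.mk_surjective x
  rw [← QuotientGroup.mk_inv, ← QuotientGroup.mk_mul, ← QuotientGroup.mk_mul, QuotientGroup.eq] at hx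
  have hcen := hx
  rw [pu_scalar_iff hK hn] at hx
  obtain ⟨c, hc⟩ := hx
  refine ⟨h.val, c, ?_⟩
  have h1 : g' * h = (h * g) * ((h * g * h⁻¹)⁻¹ * g') := by
    rw [Subgroup.mem_center_iff] at hcen
    have := hcen h
    calc g' * h = (h * g * h⁻¹) * ((h * g * h⁻¹)⁻¹ * g') * h := by group
      _ = (h * g * h⁻¹) * (((h * g * h⁻¹)⁻¹ * g') * h) := by group
      _ = (h * g * h⁻¹) * (h * ((h * g * h⁻¹)⁻¹ * g')) := by rw [this]
      _ = (h * g) * ((h * g * h⁻¹)⁻¹ * g') := by group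
  have hv := congrArg (fun y : ↥(Cfsg.GU n K q) => y.val.val) h1
  simp only [Subgroup.coe_mul, Units.val_mul] at hv
  rw [hv]
  have hc' : ((h * g * h⁻¹)⁻¹ * g').val.val = c • (1 : Matrix (Fin n) (Fin n) K) := hc
  simp only [Subgroup.coe_mul, Units.val_mul] at hc'
  rw [mul_assoc, hc', Matrix.mul_smul, Matrix.mul_one, Matrix.mul_smul]

theorem pu_conj_of_gl (hK : Fintype.card K = q ^ 2) (hn : 1 ≤ n) (x y : ↥(Cfsg.GU n K q))
    (d : K) (hd : d ^ (q + 1) = 1) (P : GL (Fin n) K)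
    (hP : P.val * (d • x.val.val) = y.val.val * P.val) :
    IsConj (QuotientGroup.mk x : ↥(Cfsg.GU n K q) ⧸ Subgroup.center ↥(Cfsg.GU n K q))
      (QuotientGroup.mk y) := by
  have hXv : (puS n d hd * x).val.val = d • x.val.val := by
    show (puS n d hd).val.val * x.val.val = d • x.val.val
    rw [puS_val, Matrix.smul_mul, Matrix.one_mul]
  have hgl : IsConj ((puS n d hd * x : ↥(Cfsg.GU n K q)) : GL (Fin n) K) (y : GL (Fin n) K) := by
    rw [isConj_iff]
    refine ⟨P, ?_⟩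
    rw [mul_inv_eq_iff_eq_mul]
    apply Units.ext
    rw [Units.val_mul, Units.val_mul]
    rw [hXv]
    exact hP
  have hgu := (Cfsg.Agent.S2587.result hK (puS n d hd * x) y).mpr hgl
  have hq := (QuotientGroup.mk' (Subgroup.center ↥(Cfsg.GU n K q))).map_isConj hgu
  have hmk : (QuotientGroup.mk' (Subgroup.center ↥(Cfsg.GU n K q))) (puS n d hd * x) =
      QuotientGroup.mk x := by
    rw [map_mul]
    have : (QuotientGroup.mk' (Subgroup.center ↥(Cfsg.GU n K q))) (puS n d hd) = 1 := by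
      rw [QuotientGroup.mk'_apply, QuotientGroup.eq_one_iff, pu_scalar_iff hK hn]
      exact ⟨d, puS_val d hd⟩
    rw [this, one_mul]
    rfl
  rw [hmk] at hq
  exact hq

theorem pu_scalar_norm (hn : 1 ≤ n) (x : ↥(Cfsg.GU n K q)) (μ : K)
    (hx : x.val.val = μ • (1 : Matrix (Fin n) (Fin n) K)) : μ ^ (q + 1) = 1 := by
  have h := x.2
  rw [Cfsg.Agent.Helper5.mem_GU_iff] at h
  have h1 := h (Pi.single ⟨0, hn⟩ 1) (Pi.single ⟨0, hn⟩ 1)
  rw [hx, Matrix.smul_mulVec, Matrix.one_mulVec] at h1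
  unfold Cfsg.hermForm at h1
  rw [Finset.sum_eq_single (⟨0, hn⟩ : Fin n), Finset.sum_eq_single (⟨0, hn⟩ : Fin n)] at h1
  · simp only [Pi.smul_apply, Pi.single_eq_same, smul_eq_mul, mul_one, one_pow] at h1
    rw [pow_succ']
    exact h1
  · intro b _ hb
    simp [Pi.single_eq_of_ne hb]
  · intro h; exact absurd (Finset.mem_univ _) h
  · intro b _ hb
    simp [Pi.single_eq_of_ne hb]
  · intro h; exact absurd (Finset.mem_univ _) h

end pu

end Cfsg.Agent.Helper37
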