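import Mathlib
import Cfsg.Agent.Helper37.Pu1

set_option autoImplicit false

namespace Cfsg.Agent.Helper37

open Matrix

section mon
variable {K : Type*} [Field K] {n : ℕ}

/-- monomial matrix: `(puMon ρ c *ᵥ v) i = c i * v (ρ i)` -/
def puMon (ρ : Equiv.Perm (Fin n)) (c : Fin n → K) : Matrix (Fin n) (Fin n) K :=
  Matrix.of (fun i j => if j = ρ i then c i else 0)

theorem puMon_mulVec (ρ : Equiv.Perm (Fin n)) (c : Fin n → K) (v : Fin n → K) (i : Fin n) :
    (puMon ρ c *ᵥ v) i = c i * v (ρ i) := by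
  unfold puMon
  simp [Matrix.mulVec, dotProduct]

theorem puMon_pow_mulVec (ρ : Equiv.Perm (Fin n)) (c : Fin n → K) (t : ℕ) (v : Fin n → K)
    (i : Fin n) :
    ((puMon ρ c) ^ t *ᵥ v) i = (∏ l ∈ Finset.range t, c ((ρ ^ l) i)) * v ((ρ ^ t) i) := by
  induction t generalizing v with
  | zero => simp
  | succ t ih =>
    rw [pow_succ, ← Matrix.mulVec_mulVec, ih, puMon_mulVec, Finset.prod_range_succ, pow_succ',
      Equiv.Perm.mul_apply]
    ring

theorem puMon_herm (q : ℕ) (ρ : Equiv.Perm (Fin n)) (c : Fin n → K)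
    (hc : ∀ i, c i ^ (q + 1) = 1) (u v : Fin n → K) :
    Cfsg.hermForm n K q (puMon ρ c *ᵥ u) (puMon ρ c *ᵥ v) = Cfsg.hermForm n K q u v := by
  unfold Cfsg.hermForm
  simp only [puMon_mulVec]
  rw [← Equiv.sum_comp ρ (fun j => u j * v j ^ q)]
  apply Finset.sum_congr rfl
  intro i _
  have := hc i
  rw [mul_pow]
  calc c i * u (ρ i) * (c i ^ q * v (ρ i) ^ q) = c i ^ (q + 1) * (u (ρ i) * v (ρ i) ^ q) := by ring
    _ = u (ρ i) * v (ρ i) ^ q := by rw [this, one_mul]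

theorem puMon_scalar (ρ : Equiv.Perm (Fin n)) (c : Fin n → K) (r : ℕ) (μ : K) (hρ : ρ ^ r = 1)
    (hprod : ∀ i, ∏ l ∈ Finset.range r, c ((ρ ^ l) i) = μ) :
    puMon ρ c ^ r = μ • (1 : Matrix (Fin n) (Fin n) K) := by
  apply pgl_eq_of_mulVec
  intro v
  funext i
  rw [puMon_pow_mulVec, hρ, hprod, Matrix.smul_mulVec, Matrix.one_mulVec]
  rfl

theorem pu_mon_exists (r : ℕ) (hr : r.Prime) (μ : K) {m : ℕ} :
    ∃ (ρ : Equiv.Perm (Fin (r * m))) (c : Fin (r * m) → K), (∀ i, c i = μ ∨ c i = 1) ∧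
      puMon ρ c ^ r = μ • (1 : Matrix (Fin (r * m)) (Fin (r * m)) K) := by
  haveI : NeZero r := ⟨hr.ne_zero⟩
  have hcard : Fintype.card (Fin (r * m)) = Fintype.card (Fin m × ZMod r) := by
    rw [Fintype.card_fin, Fintype.card_prod, Fintype.card_fin, ZMod.card, mul_comm]
  let ε : Fin (r * m) ≃ Fin m × ZMod r := Fintype.equivOfCardEq hcard
  let ρ : Equiv.Perm (Fin (r * m)) :=
    ε.trans ((Equiv.prodCongr (Equiv.refl (Fin m)) (Equiv.subRight (1 : ZMod r))).trans ε.symm)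
  have hρ : ∀ i, ρ i = ε.symm ((ε i).1, (ε i).2 - 1) := fun i => rfl
  let c : Fin (r * m) → K := fun i => if (ε i).2 = 0 then μ else 1
  have hpow : ∀ (l : ℕ) (i : Fin (r * m)), (ρ ^ l) i = ε.symm ((ε i).1, (ε i).2 - (l : ZMod r)) := by
    intro l
    induction l with
    | zero => intro i; simp
    | succ l ih =>
      intro i
      rw [pow_succ', Equiv.Perm.mul_apply, hρ, ih, Equiv.apply_symm_apply]
      congr 2
      push_cast
      ring
  refine ⟨ρ, c, ?_, ?_⟩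
  · intro i
    show (if (ε i).2 = 0 then μ else 1) = μ ∨ (if (ε i).2 = 0 then μ else 1) = 1
    split_ifs
    · exact Or.inl rfl
    · exact Or.inr rfl
  · apply puMon_scalar
    · ext i
      rw [hpow, ZMod.natCast_self, sub_zero]
      simp
    · intro i
      have hterm : ∀ l : ℕ, c ((ρ ^ l) i) = if (ε i).2 - (l : ZMod r) = 0 then μ else 1 := by
        intro l
        show (if (ε ((ρ ^ l) i)).2 = 0 then μ else 1) = _
        rw [hpow, Equiv.apply_symm_apply]
      simp only [hterm]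
      rw [Finset.prod_eq_single (ZMod.val (ε i).2)]
      · rw [if_pos]
        rw [ZMod.natCast_zmod_val, sub_self]
      · intro l hl hne
        rw [if_neg]
        intro h0
        apply hne
        have h1 : (ε i).2 = (l : ZMod r) := sub_eq_zero.mp h0
        rw [h1, ZMod.val_natCast, Nat.mod_eq_of_lt (Finset.mem_range.mp hl)]
      · intro h
        exact absurd (Finset.mem_range.mpr (ZMod.val_lt _)) h

end mon

section gu
variable {K : Type*} [Field K] [Fintype K] {q n : ℕ}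

theorem pu_nonpow_exists (r : ℕ) (hr : r.Prime) (μ : K) (hμ : μ ^ (q + 1) = 1) (hn : r ∣ n) :
    ∃ B : ↥(Cfsg.GU n K q), B.val.val ^ r = μ • (1 : Matrix (Fin n) (Fin n) K) := by
  obtain ⟨m, rfl⟩ := hn
  obtain ⟨ρ, c, hc, hpow⟩ := pu_mon_exists r hr μ (m := m)
  have hμ0 : μ ≠ 0 := pu_ne_zero_of_norm μ hμ
  let g : GL (Fin (r * m)) K := ⟨puMon ρ c, μ⁻¹ • puMon ρ c ^ (r - 1),
    by rw [Matrix.mul_smul, ← pow_succ', Nat.sub_add_cancel hr.pos, hpow, smul_smul,
      inv_mul_cancel₀ hμ0, one_smul],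
    by rw [Matrix.smul_mul, ← pow_succ, Nat.sub_add_cancel hr.pos, hpow, smul_smul,
      inv_mul_cancel₀ hμ0, one_smul]⟩
  have hg : g ∈ Cfsg.GU (r * m) K q := by
    rw [Cfsg.Agent.Helper5.mem_GU_iff]
    intro u v
    apply puMon_herm q ρ c
    intro i
    rcases hc i with h | h
    · rw [h, hμ]
    · rw [h, one_pow]
  exact ⟨⟨g, hg⟩, hpow⟩

end gu

end Cfsg.Agent.Helper37
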