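import Mathlib
import Cfsg.Agent.Helper37.Pu2

set_option autoImplicit false

namespace Cfsg.Agent.Helper37

open Matrix

section gam
variable {K : Type*} [Field K] [Fintype K] {q : ℕ}

theorem pu_gamma (hK : Fintype.card K = q ^ 2) (r : ℕ) (hr : r.Prime) (hr2 : r ≠ 2)
    (hrq : r ∣ q + 1) :
    ∃ γ : K, γ ≠ 0 ∧ γ ^ (q + 1) = 1 ∧
      (∀ μ : K, μ ^ (q + 1) = 1 → ∃ k < r, ∃ c : K, c ^ (q + 1) = 1 ∧ μ = γ ^ k * c ^ r) ∧
      (∀ k k' : ℕ, k < r → k' < r → ∀ c c' : K, c ≠ 0 → c' ≠ 0 →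
        γ ^ k * c ^ r = γ ^ k' * c' ^ r → k = k') := by
  classical
  haveI : Fact r.Prime := ⟨hr⟩
  have hq2 : 2 ≤ q := Cfsg.Agent.Helper5.herm_two_le hK
  obtain ⟨g0, hg0⟩ := IsCyclic.exists_generator (α := Kˣ)
  have hord : orderOf g0 = (q - 1) * (q + 1) := by
    rw [orderOf_eq_card_of_forall_mem_zpowers hg0, Nat.card_eq_fintype_card, Fintype.card_units, hK]
    obtain ⟨s, rfl⟩ : ∃ s, q = s + 2 := ⟨q - 2, by omega⟩
    have h1 : (s + 2) ^ 2 = (s + 2 - 1) * (s + 2 + 1) + 1 := by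
      have : s + 2 - 1 = s + 1 := by omega
      rw [this]
      ring
    rw [h1]
    simp
  have hpowers : ∀ x : Kˣ, ∃ a : ℕ, g0 ^ a = x := by
    intro x
    have hx := hg0 x
    rw [← mem_powers_iff_mem_zpowers] at hx
    exact hx
  have hgamma : ((g0 ^ (q - 1) : Kˣ) : K) ^ (q + 1) = 1 := by
    rw [← Units.val_pow_eq_pow_val, ← pow_mul, ← hord, pow_orderOf_eq_one, Units.val_one]
  have hrq1 : ¬ r ∣ q - 1 := by
    intro h
    have h2 : r ∣ (q + 1) - (q - 1) := Nat.dvd_sub hrq h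
    have h3 : (q + 1) - (q - 1) = 2 := by omega
    rw [h3] at h2
    exact hr2 ((Nat.prime_dvd_prime_iff_eq hr Nat.prime_two).mp h2)
  have hrord : r ∣ orderOf g0 := by
    rw [hord]
    exact Dvd.dvd.mul_left hrq _
  refine ⟨((g0 ^ (q - 1) : Kˣ) : K), Units.ne_zero _, hgamma, ?_, ?_⟩
  · intro μ hμ
    have hμ0 : μ ≠ 0 := pu_ne_zero_of_norm μ hμ
    obtain ⟨a, ha⟩ := hpowers (Units.mk0 μ hμ0)
    have h1 : g0 ^ (a * (q + 1)) = 1 := by
      rw [pow_mul, ha]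
      apply Units.ext
      rw [Units.val_pow_eq_pow_val, Units.val_mk0, hμ, Units.val_one]
    have h2 : (q - 1) * (q + 1) ∣ a * (q + 1) := by
      rw [← hord]
      exact orderOf_dvd_of_pow_eq_one h1
    have h3 : q - 1 ∣ a := Nat.dvd_of_mul_dvd_mul_right (by omega) h2
    obtain ⟨j, rfl⟩ := h3
    refine ⟨j % r, Nat.mod_lt _ hr.pos, (((g0 ^ (q - 1)) ^ (j / r) : Kˣ) : K), ?_, ?_⟩
    · rw [Units.val_pow_eq_pow_val, ← pow_mul, mul_comm, pow_mul, hgamma, one_pow]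
    · have h4 : (g0 ^ ((q - 1) * j) : Kˣ) = (g0 ^ (q - 1)) ^ (j % r) * ((g0 ^ (q - 1)) ^ (j / r)) ^ r := by
        rw [← pow_mul ((g0 ^ (q - 1))) (j / r) r, ← pow_add, ← pow_mul]
        congr 2
        have := Nat.mod_add_div j r
        rw [mul_comm (j / r) r]
        exact this.symm
      have h5 := congrArg (fun u : Kˣ => (u : K)) (ha.symm.trans h4)
      simpa using h5
  · intro k k' hk hk' c c' hc hc' h
    obtain ⟨a, ha⟩ := hpowers (Units.mk0 c hc)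
    obtain ⟨b, hb⟩ := hpowers (Units.mk0 c' hc')
    have h1 : g0 ^ ((q - 1) * k + a * r) = g0 ^ ((q - 1) * k' + b * r) := by
      apply Units.ext
      rw [pow_add, pow_add, pow_mul, pow_mul, pow_mul, pow_mul, ha, hb]
      simpa using h
    rw [pow_eq_pow_iff_modEq] at h1
    have h2 : (q - 1) * k + a * r ≡ (q - 1) * k' + b * r [MOD r] := Nat.ModEq.of_dvd hrord h1
    have h3 := (ZMod.natCast_eq_natCast_iff _ _ _).mpr h2
    push_cast at h3
    rw [ZMod.natCast_self, mul_zero, mul_zero, add_zero, add_zero] at h3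
    have h4 : ((q - 1 : ℕ) : ZMod r) ≠ 0 := by
      rw [Ne, ZMod.natCast_eq_zero_iff]
      exact hrq1
    have h5 : (k : ZMod r) = (k' : ZMod r) := mul_left_cancel₀ h4 h3
    have h6 := (ZMod.natCast_eq_natCast_iff _ _ _).mp h5
    have h7 : k % r = k' % r := h6
    rwa [Nat.mod_eq_of_lt hk, Nat.mod_eq_of_lt hk'] at h7

end gam

end Cfsg.Agent.Helper37
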