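import Mathlib
import Cfsg.Agent.Helper37.Pu3

set_option autoImplicit false

namespace Cfsg.Agent.Helper37

open Matrix

section main
variable {K : Type*} [Field K] [Fintype K] {q n : ℕ}
variable {ι : Type*} [Group ι] [Fintype ι] [DecidableEq ι] (e : ι → K) (r : ℕ)

theorem pu_main_abs (hK : Fintype.card K = q ^ 2) (hr : r.Prime) (hinj : Function.Injective e)
    (hcard : Fintype.card ι = r)
    (hrF : (r : K) ≠ 0) (hpow : ∀ x, e x ^ r = 1) (hmul : ∀ x y, e (x * y) = e x * e y)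
    (hroot : ∀ c : K, c ^ r = 1 → ∃ x : ι, e x = c)
    (horth : ∀ i, 0 < i → i < r → ∑ x, (e x)⁻¹ ^ i = 0)
    (henorm : ∀ x, e x ^ (q + 1) = 1)
    (γ : K) (hγ0 : γ ≠ 0) (hγN : γ ^ (q + 1) = 1)
    (hγ1 : ∀ μ : K, μ ^ (q + 1) = 1 → ∃ k < r, ∃ c : K, c ^ (q + 1) = 1 ∧ μ = γ ^ k * c ^ r)
    (hγ2 : ∀ k k' : ℕ, k < r → k' < r → ∀ c c' : K, c ≠ 0 → c' ≠ 0 →
      γ ^ k * c ^ r = γ ^ k' * c' ^ r → k = k')
    (hn : 2 ≤ n) :
    Nat.card {C : ConjClasses (↥(Cfsg.GU n K q) ⧸ Subgroup.center ↥(Cfsg.GU n K q)) //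
      ∃ g : ↥(Cfsg.GU n K q) ⧸ Subgroup.center ↥(Cfsg.GU n K q),
        ConjClasses.mk g = C ∧ orderOf g = r} =
      ((n + r - 1).choose (r - 1) - r - (if r ∣ n then 1 else 0)) / r +
        r * (if r ∣ n then 1 else 0) := by
  classical
  haveI : Fact r.Prime := ⟨hr⟩
  have hr0 : r ≠ 0 := hr.ne_zero
  have hr2 : 2 ≤ r := hr.two_le
  have hn0 : 0 < n := by omega
  have hn1 : 1 ≤ n := by omega
  -- type I representatives
  have hlab : ∀ b : PrT ι n, ∃ f : Fin n → ι, ∀ x, Fintype.card {i // f i = x} = b.1 x :=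
    fun b => pr_exists_label b.1 b.2.1
  let M : PrT ι n → Matrix (Fin n) (Fin n) K := fun b => prD e (Classical.choose (hlab b))
  have hMpow : ∀ b, M b ^ r = 1 := by
    intro b
    show prD e _ ^ r = 1
    rw [prD_pow]
    simp only [hpow]
    exact Matrix.diagonal_one
  have hMmult : ∀ b x, prMult (M b) (e x) = b.1 x := by
    intro b x
    show prMult (prD e _) (e x) = b.1 x
    rw [prMult_D e hinj]
    exact Classical.choose_spec (hlab b) x
  let DG : PrT ι n → GL (Fin n) K := fun b => ⟨M b, M b ^ (r - 1),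
    by rw [← pow_succ', Nat.sub_add_cancel hr.pos, hMpow],
    by rw [← pow_succ, Nat.sub_add_cancel hr.pos, hMpow]⟩
  have hDGmem : ∀ b, DG b ∈ Cfsg.GU n K q := by
    intro b
    exact Cfsg.Agent.Helper5.diagonal_mem_GU (fun i => e (Classical.choose (hlab b) i))
      (fun i => henorm _) _ rfl
  let DU : PrT ι n → ↥(Cfsg.GU n K q) := fun b => ⟨DG b, hDGmem b⟩
  have hDUv : ∀ b, (DU b).val.val = M b := fun b => rfl
  have hDUord : ∀ b, orderOf (QuotientGroup.mk (DU b) :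
      ↥(Cfsg.GU n K q) ⧸ Subgroup.center ↥(Cfsg.GU n K q)) = r := by
    intro b
    rw [pu_order_r hK hn1, hDUv]
    refine ⟨⟨1, by rw [one_smul]; exact hMpow b⟩, ?_⟩
    rintro ⟨a, ha⟩
    have hpa : a ^ r = 1 := by
      have := hMpow b
      rw [ha, pr_smul_one_pow] at this
      exact pr_scalar_cancel hn0 _ _ (by rw [this, one_smul])
    obtain ⟨x, rfl⟩ := hroot a hpa
    have h1 := hMmult b x
    rw [ha, prMult_scalar] at h1
    have h2 := b.2.2 x
    omega
  have hDUconj : ∀ b b' : PrT ι n, IsConj (QuotientGroup.mk (DU b) :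
      ↥(Cfsg.GU n K q) ⧸ Subgroup.center ↥(Cfsg.GU n K q)) (QuotientGroup.mk (DU b')) →
      ∃ c : ι, b' = c • b := by
    intro b b' hconj
    obtain ⟨h, d, hd⟩ := pu_isConj hK hn1 _ _ hconj
    rw [hDUv, hDUv] at hd
    obtain ⟨c, hc⟩ := pr_M3 e r hrF hpow hmul hroot hn0 (M b) (M b') (hMpow b) (hMpow b') h d hd
    refine ⟨c, ?_⟩
    apply Subtype.ext
    funext x
    rw [PrT_smul_apply, ← hMmult b' x, hc x, hMmult]
  have hDUcov : ∀ (g : ↥(Cfsg.GU n K q)) (c : K), c ^ (q + 1) = 1 →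
      g.val.val ^ r = c ^ r • (1 : Matrix (Fin n) (Fin n) K) →
      (¬ ∃ a : K, g.val.val = a • (1 : Matrix (Fin n) (Fin n) K)) →
      ∃ b : PrT ι n, ∀ b' : PrT ι n, b' ∈ MulAction.orbit ι b →
        IsConj (QuotientGroup.mk (DU b') : ↥(Cfsg.GU n K q) ⧸ Subgroup.center ↥(Cfsg.GU n K q))
          (QuotientGroup.mk g) := by
    intro g c hcN hg hns
    have hc : c ≠ 0 := pu_ne_zero_of_norm c hcN
    have hA : (c⁻¹ • g.val.val) ^ r = 1 := by
      rw [smul_pow, hg, smul_smul, inv_pow, inv_mul_cancel₀ (pow_ne_zero r hc), one_smul]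
    have hAns : ¬ ∃ a : K, c⁻¹ • g.val.val = a • (1 : Matrix (Fin n) (Fin n) K) := by
      rintro ⟨a, ha⟩
      apply hns
      refine ⟨c * a, ?_⟩
      rw [← smul_smul, ← ha, smul_smul, mul_inv_cancel₀ hc, one_smul]
    have hT := pr_M1 e r hinj hcard hrF hpow horth (c⁻¹ • g.val.val) hA hAns
    let a : PrT ι n := ⟨fun x => prMult (c⁻¹ • g.val.val) (e x), hT⟩
    refine ⟨a, ?_⟩
    intro b' hb'
    obtain ⟨c₁, hc₁⟩ := hb'
    have hc₁' : c₁ • a = b' := hc₁
    subst hc₁'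
    have hx : ∀ x, prMult (c⁻¹ • g.val.val) (e x) = prMult (M (c₁ • a)) (e ((c₁⁻¹)⁻¹ * x)) := by
      intro x
      rw [hMmult, PrT_smul_apply, inv_inv, inv_mul_cancel_left]
    obtain ⟨P, hP⟩ := pr_M2 e r hinj hcard hrF hpow hmul horth (c⁻¹ • g.val.val) _ hA (hMpow _)
      c₁⁻¹ hx
    apply pu_conj_of_gl hK hn1 (DU (c₁ • a)) g (c * e c₁⁻¹)
      (by rw [mul_pow, hcN, henorm, one_mul]) P
    rw [hDUv, ← smul_smul, Matrix.mul_smul, hP, Matrix.smul_mul, smul_smul, mul_inv_cancel₀ hc,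
      one_smul]
  have hnp : ∀ s, 0 < s → s < r → ∀ b : K, b ^ r ≠ γ ^ s := by
    intro s hs0 hsr b hb
    have hb0 : b ≠ 0 := by
      rintro rfl
      rw [zero_pow hr0] at hb
      exact pow_ne_zero s hγ0 hb.symm
    have := hγ2 0 s hr.pos hsr b 1 hb0 one_ne_zero
      (by rw [pow_zero, one_mul, one_pow, mul_one]; exact hb)
    omega
  have hnpμ : ∀ (k : ℕ) (c : K), 0 < k → k < r → c ≠ 0 → ∀ b : K, b ^ r ≠ γ ^ k * c ^ r := by
    intro k c hk0 hkr hc b hb
    have hb0 : b ≠ 0 := by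
      rintro rfl
      rw [zero_pow hr0] at hb
      exact mul_ne_zero (pow_ne_zero k hγ0) (pow_ne_zero r hc) hb.symm
    have := hγ2 0 k hr.pos hkr b c hb0 hc (by rw [pow_zero, one_mul]; exact hb)
    omega
  have hμN : ∀ (g : ↥(Cfsg.GU n K q)) (μ : K),
      g.val.val ^ r = μ • (1 : Matrix (Fin n) (Fin n) K) → μ ^ (q + 1) = 1 := by
    intro g μ hg
    exact pu_scalar_norm hn1 (g ^ r) μ hg
  letI : Fintype (MulAction.orbitRel.Quotient ι (PrT ι n)) := Fintype.ofFinite _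
  have hout : ∀ b : PrT ι n, Quotient.out (Quotient.mk'' b : MulAction.orbitRel.Quotient ι (PrT ι n))
      ∈ MulAction.orbit ι b := by
    intro b
    have := Quotient.exact' (Quotient.out_eq' (Quotient.mk'' b : MulAction.orbitRel.Quotient ι (PrT ι n)))
    exact this
  have hII : ∀ ω ω' : MulAction.orbitRel.Quotient ι (PrT ι n),
      IsConj (QuotientGroup.mk (DU (Quotient.out ω)) :
        ↥(Cfsg.GU n K q) ⧸ Subgroup.center ↥(Cfsg.GU n K q)) (QuotientGroup.mk (DU (Quotient.out ω'))) →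
      ω = ω' := by
    intro ω ω' hconj
    obtain ⟨c, hc⟩ := hDUconj _ _ hconj
    rw [← Quotient.out_eq' ω, ← Quotient.out_eq' ω']
    apply Quotient.sound'
    show Quotient.out ω ∈ MulAction.orbit ι (Quotient.out ω')
    rw [hc]
    exact ⟨c⁻¹, by simp⟩
  have hburn := pr_burnside ι (X := PrT ι n) r hcard (if r ∣ n then 1 else 0)
    (PrT_fixed ι n r hr2 hcard (by omega))
  rw [PrT_card ι n r hr.pos hcard (by omega), Nat.card_eq_fintype_card] at hburn
  by_cases hdvd : r ∣ n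
  · rw [if_pos hdvd] at hburn ⊢
    have hBex : ∀ s : Fin (r - 1), ∃ B : ↥(Cfsg.GU n K q),
        B.val.val ^ r = γ ^ (s.val + 1) • (1 : Matrix (Fin n) (Fin n) K) :=
      fun s => pu_nonpow_exists r hr (γ ^ (s.val + 1))
        (by rw [← pow_mul, mul_comm, pow_mul, hγN, one_pow]) hdvd
    let BU : Fin (r - 1) → ↥(Cfsg.GU n K q) := fun s => Classical.choose (hBex s)
    have hB : ∀ s, (BU s).val.val ^ r = γ ^ (s.val + 1) • (1 : Matrix (Fin n) (Fin n) K) :=
      fun s => Classical.choose_spec (hBex s)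
    rw [pgl_count' r (I := MulAction.orbitRel.Quotient ι (PrT ι n) ⊕ Fin (r - 1))
      (Sum.elim (fun ω => (QuotientGroup.mk (DU (Quotient.out ω)) :
          ↥(Cfsg.GU n K q) ⧸ Subgroup.center ↥(Cfsg.GU n K q)))
        (fun s => QuotientGroup.mk (BU s)))]
    · rw [Fintype.card_sum, Fintype.card_fin]
      obtain ⟨N', hN'⟩ : ∃ N', Fintype.card (MulAction.orbitRel.Quotient ι (PrT ι n)) = N' + 1 := by
        rcases Nat.eq_zero_or_pos (Fintype.card (MulAction.orbitRel.Quotient ι (PrT ι n)))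
          with h | h
        · rw [h] at hburn
          omega
        · exact ⟨Fintype.card (MulAction.orbitRel.Quotient ι (PrT ι n)) - 1, by omega⟩
      rw [hN'] at hburn ⊢
      have h1 : (N' + 1) * r = N' * r + r := by ring
      rw [h1] at hburn
      have h2 : (n + r - 1).choose (r - 1) - r - 1 = N' * r := by omega
      rw [h2, Nat.mul_div_cancel _ hr.pos]
      omega
    · rintro (ω | s)
      · exact hDUord _
      · show orderOf (QuotientGroup.mk (BU s) :
          ↥(Cfsg.GU n K q) ⧸ Subgroup.center ↥(Cfsg.GU n K q)) = r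
        rw [pu_order_r hK hn1]
        refine ⟨⟨_, hB s⟩, ?_⟩
        rintro ⟨a, ha⟩
        have := hB s
        rw [ha, pr_smul_one_pow] at this
        exact hnp (s.val + 1) (by omega) (by omega) a (pr_scalar_cancel hn0 _ _ this)
    · rintro (ω | s) (ω' | s') hij
      · rw [hII ω ω' hij]
      · exfalso
        have hij' : IsConj (QuotientGroup.mk (DU (Quotient.out ω)) :
            ↥(Cfsg.GU n K q) ⧸ Subgroup.center ↥(Cfsg.GU n K q)) (QuotientGroup.mk (BU s')) := hij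
        obtain ⟨h, d, hd⟩ := pu_isConj hK hn1 _ _ hij'
        rw [hDUv] at hd
        have hk := pr_pow_conj (M (Quotient.out ω)) (BU s').val.val h d hd r
        rw [hMpow, hB, mul_one, Matrix.smul_mul, one_mul] at hk
        exact hnp (s'.val + 1) (by omega) (by omega) d (pgl_smul_cancel hn0 h _ _ hk).symm
      · exfalso
        have hij' : IsConj (QuotientGroup.mk (DU (Quotient.out ω')) :
            ↥(Cfsg.GU n K q) ⧸ Subgroup.center ↥(Cfsg.GU n K q)) (QuotientGroup.mk (BU s)) := hij.symm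
        obtain ⟨h, d, hd⟩ := pu_isConj hK hn1 _ _ hij'
        rw [hDUv] at hd
        have hk := pr_pow_conj (M (Quotient.out ω')) (BU s).val.val h d hd r
        rw [hMpow, hB, mul_one, Matrix.smul_mul, one_mul] at hk
        exact hnp (s.val + 1) (by omega) (by omega) d (pgl_smul_cancel hn0 h _ _ hk).symm
      · have hij' : IsConj (QuotientGroup.mk (BU s) :
            ↥(Cfsg.GU n K q) ⧸ Subgroup.center ↥(Cfsg.GU n K q)) (QuotientGroup.mk (BU s')) := hij
        obtain ⟨h, d, hd⟩ := pu_isConj hK hn1 _ _ hij'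
        have hk := pr_pow_conj (BU s).val.val (BU s').val.val h d hd r
        rw [hB, hB, Matrix.smul_mul, one_mul, Matrix.mul_smul, mul_one, smul_smul] at hk
        have hk' := pgl_smul_cancel hn0 h _ _ hk
        have hd0 : d ≠ 0 := by
          rintro rfl
          rw [zero_pow hr0, zero_mul] at hk'
          exact pow_ne_zero _ hγ0 hk'
        have := hγ2 (s'.val + 1) (s.val + 1) (by omega) (by omega) 1 d one_ne_zero hd0
          (by rw [one_pow, mul_one, hk', mul_comm])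
        congr 1
        exact Fin.ext (by omega)
    · intro x hx
      obtain ⟨g, rfl⟩ := QuotientGroup.mk_surjective x
      rw [pu_order_r hK hn1] at hx
      obtain ⟨⟨μ, hg⟩, hns⟩ := hx
      obtain ⟨k, hk, c, hcN, rfl⟩ := hγ1 μ (hμN g μ hg)
      have hc : c ≠ 0 := pu_ne_zero_of_norm c hcN
      rcases Nat.eq_zero_or_pos k with rfl | hkpos
      · rw [pow_zero, one_mul] at hg
        obtain ⟨b, hb⟩ := hDUcov g c hcN hg hns
        exact ⟨Sum.inl (Quotient.mk'' b), hb _ (hout b)⟩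
      · have hk1 : k - 1 < r - 1 := by omega
        refine ⟨Sum.inr ⟨k - 1, hk1⟩, ?_⟩
        show IsConj (QuotientGroup.mk (BU ⟨k - 1, hk1⟩) :
          ↥(Cfsg.GU n K q) ⧸ Subgroup.center ↥(Cfsg.GU n K q)) (QuotientGroup.mk g)
        have hcB : (c • (BU ⟨k - 1, hk1⟩).val.val) ^ r =
            (γ ^ k * c ^ r) • (1 : Matrix (Fin n) (Fin n) K) := by
          rw [smul_pow, hB, smul_smul]
          have : (⟨k - 1, hk1⟩ : Fin (r - 1)).val + 1 = k := by
            show k - 1 + 1 = k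
            omega
          rw [this, mul_comm]
        obtain ⟨P, hP⟩ := pr_nonpow_conj r hr _ (hnpμ k c hkpos hk hc)
          (c • (BU ⟨k - 1, hk1⟩).val.val) g.val.val hcB hg
        exact pu_conj_of_gl hK hn1 (BU ⟨k - 1, hk1⟩) g c hcN P hP
  · rw [if_neg hdvd] at hburn ⊢
    rw [pgl_count' r (I := MulAction.orbitRel.Quotient ι (PrT ι n))
      (fun ω => (QuotientGroup.mk (DU (Quotient.out ω)) :
        ↥(Cfsg.GU n K q) ⧸ Subgroup.center ↥(Cfsg.GU n K q)))]
    · rw [Nat.sub_zero, mul_zero, add_zero]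
      rw [mul_zero, add_zero] at hburn
      rw [hburn, Nat.mul_div_cancel _ hr.pos]
    · exact fun ω => hDUord _
    · exact hII
    · intro x hx
      obtain ⟨g, rfl⟩ := QuotientGroup.mk_surjective x
      rw [pu_order_r hK hn1] at hx
      obtain ⟨⟨μ, hg⟩, hns⟩ := hx
      obtain ⟨k, hk, c, hcN, rfl⟩ := hγ1 μ (hμN g μ hg)
      have hc : c ≠ 0 := pu_ne_zero_of_norm c hcN
      rcases Nat.eq_zero_or_pos k with rfl | hkpos
      · rw [pow_zero, one_mul] at hg
        obtain ⟨b, hb⟩ := hDUcov g c hcN hg hns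
        exact ⟨Quotient.mk'' b, hb _ (hout b)⟩
      · exfalso
        exact hdvd (pr_nonpow_dvd r hr _ (hnpμ k c hkpos hk hc) g.val.val hg)

end main

end Cfsg.Agent.Helper37

namespace Cfsg.Agent.Helper37

open Matrix

theorem pu_main {K : Type*} [Field K] [Fintype K] {q n r : ℕ} (hK : Fintype.card K = q ^ 2)
    (hn : 3 ≤ n) (hr : r.Prime) (hr2 : r ≠ 2) (hrq : r ∣ q + 1) :
    Nat.card {C : ConjClasses (↥(Cfsg.GU n K q) ⧸ Subgroup.center ↥(Cfsg.GU n K q)) //
      ∃ g : ↥(Cfsg.GU n K q) ⧸ Subgroup.center ↥(Cfsg.GU n K q),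
        ConjClasses.mk g = C ∧ orderOf g = r} =
      ((n + r - 1).choose (r - 1) - r - (if r ∣ n then 1 else 0)) / r +
        r * (if r ∣ n then 1 else 0) := by
  classical
  have hq2 : 2 ≤ q := Cfsg.Agent.Helper5.herm_two_le hK
  have hrK : r ∣ Fintype.card K - 1 := by
    rw [hK]
    obtain ⟨s, rfl⟩ : ∃ s, q = s + 2 := ⟨q - 2, by omega⟩
    have h1 : (s + 2) ^ 2 - 1 = (s + 2 - 1) * (s + 2 + 1) := by
      have : s + 2 - 1 = s + 1 := by omega
      rw [this]
      have h2 : (s + 2) ^ 2 = (s + 1) * (s + 2 + 1) + 1 := by ring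
      rw [h2]
      simp
    rw [h1]
    exact Dvd.dvd.mul_left hrq _
  obtain ⟨u, hu, hroot0, hrF⟩ := pr_roots (F := K) r hr hrK
  obtain ⟨γ, hγ0, hγN, hγ1, hγ2⟩ := pu_gamma hK r hr hr2 hrq
  have hcard : Fintype.card ↥(Subgroup.zpowers u) = r := by
    rw [← Nat.card_eq_fintype_card, Nat.card_zpowers, hu]
  have hr1 : 1 < r := hr.one_lt
  have hpowu : ∀ x : ↥(Subgroup.zpowers u), ((x : Kˣ) : K) ^ r = 1 := by
    intro x
    have h1 : x ^ r = 1 := by
      rw [← hcard]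
      exact pow_card_eq_one
    have h2 := congrArg (fun y : ↥(Subgroup.zpowers u) => ((y : Kˣ) : K)) h1
    simpa using h2
  refine pu_main_abs (ι := ↥(Subgroup.zpowers u)) (fun x => ((x : Kˣ) : K)) r hK hr ?_ hcard hrF
    hpowu ?_ ?_ ?_ ?_ γ hγ0 hγN hγ1 hγ2 (by omega)
  · intro x y hxy
    exact Subtype.ext (Units.ext hxy)
  · intro x y
    simp
  · intro c hc
    obtain ⟨x, hx, hxc⟩ := hroot0 c hc
    exact ⟨⟨x, hx⟩, hxc⟩
  · intro i hi0 hir
    set S : K := ∑ x : ↥(Subgroup.zpowers u), (((x : Kˣ) : K))⁻¹ ^ i with hS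
    have hu1 : ((u : K))⁻¹ ^ i ≠ 1 := by
      intro h
      have h2 : (u⁻¹ : Kˣ) ^ i = 1 := by
        apply Units.ext
        simpa using h
      have h3 : orderOf (u⁻¹ : Kˣ) = r := by rw [orderOf_inv, hu]
      exact pow_ne_one_of_lt_orderOf (by omega) (by rw [h3]; exact hir) h2
    have hshift : S = ((u : K))⁻¹ ^ i * S := by
      rw [hS, Finset.mul_sum]
      rw [← Equiv.sum_comp (Equiv.mulLeft (⟨u, Subgroup.mem_zpowers u⟩ : ↥(Subgroup.zpowers u)))]
      apply Finset.sum_congr rfl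
      intro x _
      simp [mul_pow, mul_comm]
    have h4 : (1 - ((u : K))⁻¹ ^ i) * S = 0 := by
      rw [sub_mul, one_mul, ← hshift, sub_self]
    rcases mul_eq_zero.mp h4 with h | h
    · exact absurd (sub_eq_zero.mp h).symm hu1
    · exact h
  · intro x
    obtain ⟨t, ht⟩ := hrq
    show ((x : Kˣ) : K) ^ (q + 1) = 1
    rw [ht, pow_mul, hpowu, one_pow]

end Cfsg.Agent.Helper37
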