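-- helper37 library: piece C2 of helper65's CALL S2113.
import Mathlib
import Cfsg.Agent.Helper65.R3Defs
import Cfsg.Agent.Helper80.R3F

set_option autoImplicit false

namespace Cfsg.Agent.Helper37

open scoped commutatorElement
open Cfsg.Agent.Helper65

section
variable {K : Type*} [Field K] [Fintype K] [CharP K 3] {G : Type*} [Group G] {Γ : Type*} [Group Γ]

/-- PIECE C2 (uses A3, B1, F): the section of `U₂` is normalised by the lifts of `U`, with the
action of `U` on `U₂`. -/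
theorem r3_C2 (S : R3 K G Γ) (hq : 9 < Fintype.card K)
    (hA3 : ∀ x y : Γ, (∃ t u v, S.σ x = S.X t u v) → (∃ v, S.σ y = S.X 0 0 v) → x * y = y * x)
    (hB1 : ∀ x y : Γ, (∃ u v, S.σ x = S.X 0 u v) → (∃ u v, S.σ y = S.X 0 u v) → x * y = y * x)
    (Bc : K → K → Γ) (hBσ : ∀ u v, S.σ (Bc u v) = S.X 0 u v)
    (hBadd : ∀ u v u' v', Bc (u + u') (v + v') = Bc u v * Bc u' v')
    (hBeq : ∀ z : K, z ≠ 0 → ∀ τ : Γ, S.σ τ = S.η z →
      ∀ u v, τ * Bc u v * τ⁻¹ = Bc (S.L z * z⁻¹ * u) (z * v)) :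
    ∀ (a : Γ) (t u₁ v₁ : K), S.σ a = S.X t u₁ v₁ →
      ∀ u v, a * Bc u v * a⁻¹ = Bc u (v + t * u) := by
  classical
  -- chosen lifts of `X t 0 0`
  choose a ha using fun t : K => S.hsec t 0 0
  -- Step 1: conjugation of `Bc u v` by a lift of `X t u₁ v₁` only depends on `t`
  have step1 : ∀ (g : Γ) (t u₁ v₁ : K), S.σ g = S.X t u₁ v₁ →
      ∀ u v, g * Bc u v * g⁻¹ = a t * Bc u v * (a t)⁻¹ := by
    intro g t u₁ v₁ hg u v
    have h1 : S.σ g = S.σ (a t * Bc u₁ v₁) := by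
      rw [hg, map_mul, ha, hBσ, ← S.X_split]
    rw [S.conj_congr h1]
    have h2 : Bc u₁ v₁ * Bc u v = Bc u v * Bc u₁ v₁ :=
      hB1 _ _ ⟨_, _, hBσ _ _⟩ ⟨_, _, hBσ _ _⟩
    calc a t * Bc u₁ v₁ * Bc u v * (a t * Bc u₁ v₁)⁻¹
        = a t * (Bc u₁ v₁ * Bc u v) * (Bc u₁ v₁)⁻¹ * (a t)⁻¹ := by group
      _ = a t * (Bc u v * Bc u₁ v₁) * (Bc u₁ v₁)⁻¹ * (a t)⁻¹ := by rw [h2]
      _ = a t * Bc u v * (a t)⁻¹ := by group
  -- `Bc 0 v` is centralised by the lifts of `U`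
  have hcen3 : ∀ (g : Γ) (t u₁ v₁ : K), S.σ g = S.X t u₁ v₁ →
      ∀ v, g * Bc 0 v * g⁻¹ = Bc 0 v := by
    intro g t u₁ v₁ hg v
    have h1 := hA3 g (Bc 0 v) ⟨t, u₁, v₁, hg⟩ ⟨v, hBσ 0 v⟩
    rw [h1]
    group
  -- the defect `ζ`
  obtain ⟨ζ, hζ⟩ : ∃ ζ : K → K → Γ,
      ζ = fun t u => a t * Bc u 0 * (a t)⁻¹ * (Bc u (t * u))⁻¹ := ⟨_, rfl⟩
  have hζker : ∀ t u, ζ t u ∈ S.σ.ker := by
    intro t u
    rw [MonoidHom.mem_ker, hζ]
    simp only [map_mul, map_inv, ha, hBσ]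
    rw [S.conj_X0, zero_add, mul_inv_cancel]
  have hζc : ∀ t u (g : Γ), g * ζ t u = ζ t u * g := fun t u g => S.ker_comm (hζker t u) g
  have hconj0 : ∀ t u, a t * Bc u 0 * (a t)⁻¹ = ζ t u * Bc u (t * u) := by
    intro t u
    rw [hζ]
    group
  have hsplit : ∀ u v, Bc u v = Bc u 0 * Bc 0 v := by
    intro u v
    rw [← hBadd, add_zero, zero_add]
  have hconj : ∀ t u v, a t * Bc u v * (a t)⁻¹ = ζ t u * Bc u (v + t * u) := by
    intro t u v
    have e2 : a t * (Bc u 0 * Bc 0 v) * (a t)⁻¹ =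
        (a t * Bc u 0 * (a t)⁻¹) * (a t * Bc 0 v * (a t)⁻¹) := by group
    rw [hsplit u v, e2, hconj0, hcen3 (a t) t 0 0 (ha t), mul_assoc, ← hBadd, add_zero,
      add_comm (t * u) v]
  -- additivity in `t`
  have hl : ∀ t t' u, ζ (t + t') u = ζ t u * ζ t' u := by
    intro t t' u
    have hσ : S.σ (a t * a t') = S.X (t + t') (0 + 0 - t * S.L t')
        (0 + 0 - t' * 0 + t * t' * S.L t' - t ^ 2 * S.L t') := by
      rw [map_mul, ha, ha, S.hX]
    have h1 := step1 (a t * a t') _ _ _ hσ u 0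
    rw [hconj0] at h1
    have h2 : a t * a t' * Bc u 0 * (a t * a t')⁻¹ =
        a t * (a t' * Bc u 0 * (a t')⁻¹) * (a t)⁻¹ := by group
    rw [h2, hconj0] at h1
    have h3 : a t * (ζ t' u * Bc u (t' * u)) * (a t)⁻¹ =
        ζ t' u * (a t * Bc u (t' * u) * (a t)⁻¹) := by
      rw [← mul_assoc, hζc t' u (a t)]
      group
    rw [h3, hconj] at h1
    have h4 : t' * u + t * u = (t + t') * u := by ring
    rw [h4, ← mul_assoc] at h1
    have h5 := mul_right_cancel h1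
    rw [← h5, hζc t u (ζ t' u)]
  -- additivity in `u`
  have hr : ∀ t u u', ζ t (u + u') = ζ t u * ζ t u' := by
    intro t u u'
    have h1 := hconj0 t (u + u')
    have e1 : Bc (u + u') 0 = Bc u 0 * Bc u' 0 := by
      rw [← hBadd, add_zero]
    have e2 : a t * (Bc u 0 * Bc u' 0) * (a t)⁻¹ =
        (a t * Bc u 0 * (a t)⁻¹) * (a t * Bc u' 0 * (a t)⁻¹) := by group
    rw [e1, e2, hconj0, hconj0] at h1
    have e3 : ζ t u * Bc u (t * u) * (ζ t u' * Bc u' (t * u')) =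
        ζ t u * ζ t u' * (Bc u (t * u) * Bc u' (t * u')) := by
      rw [mul_assoc, ← mul_assoc (Bc u (t * u)), hζc t u' (Bc u (t * u))]
      group
    rw [e3, ← hBadd] at h1
    have e4 : t * u + t * u' = t * (u + u') := by ring
    rw [e4] at h1
    exact (mul_right_cancel h1).symm
  -- torus invariance
  have hinv : ∀ z : K, z ≠ 0 → ∀ t u,
      ζ ((S.L z)⁻¹ * z ^ 2 * t) (S.L z * z⁻¹ * u) = ζ t u := by
    intro z hz t u
    obtain ⟨τ, hτ⟩ := S.htor z hz
    have hLz : S.L z ≠ 0 := (map_ne_zero S.L).mpr hz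
    have h1 : τ * ζ t u * τ⁻¹ = ζ t u := by
      rw [hζc t u τ]
      group
    have hg : S.σ (τ * a t * τ⁻¹) = S.X ((S.L z)⁻¹ * z ^ 2 * t) (S.L z * z⁻¹ * 0) (z * 0) := by
      rw [map_mul, map_mul, map_inv, hτ, ha, S.hη z hz]
    have h2 : τ * ζ t u * τ⁻¹ =
        (τ * a t * τ⁻¹) * (τ * Bc u 0 * τ⁻¹) * (τ * a t * τ⁻¹)⁻¹ *
          (τ * Bc u (t * u) * τ⁻¹)⁻¹ := by
      rw [hζ]
      group
    rw [h2, hBeq z hz τ hτ, hBeq z hz τ hτ, mul_zero, step1 _ _ _ _ hg, hconj0] at h1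
    have e1 : (S.L z)⁻¹ * z ^ 2 * t * (S.L z * z⁻¹ * u) = z * (t * u) := by
      field_simp
    rw [e1, mul_assoc, mul_inv_cancel, mul_one] at h1
    exact h1
  -- the pairing vanishes
  have hζ1 : ∀ t u, ζ t u = 1 := by
    open scoped IsMulCommutative in
    have key := Cfsg.Agent.Helper80.r3_pair (K := K) (A := Subgroup.center Γ)
      (fun t u => ⟨ζ t u, S.hcen (hζker t u)⟩) (fun t => (t * S.L t)⁻¹)
      (fun t t' u => Subtype.ext (by
        show ζ (t + t') u = ζ t u * ζ t' u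
        exact hl t t' u))
      (fun t u u' => Subtype.ext (by
        show ζ t (u + u') = ζ t u * ζ t u'
        exact hr t u u'))
      (by
        intro t ht b
        apply Subtype.ext
        show ζ t b = ζ 1 ((t * S.L t)⁻¹ * b)
        have hLt : S.L t ≠ 0 := (map_ne_zero S.L).mpr ht
        have hz : S.L t * t ^ 2 ≠ 0 := mul_ne_zero hLt (pow_ne_zero 2 ht)
        have h1 := hinv (S.L t * t ^ 2) hz 1 ((t * S.L t)⁻¹ * b)
        have hLz : S.L (S.L t * t ^ 2) = t ^ 3 * S.L t ^ 2 := by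
          rw [map_mul, map_pow, S.hLL]
        rw [hLz] at h1
        have e1 : (t ^ 3 * S.L t ^ 2)⁻¹ * (S.L t * t ^ 2) ^ 2 * 1 = t := by
          field_simp
        have e2 : t ^ 3 * S.L t ^ 2 * (S.L t * t ^ 2)⁻¹ * ((t * S.L t)⁻¹ * b) = b := by
          field_simp
        rw [e1, e2] at h1
        exact h1)
      (by
        have h3 : (3 : K) = 0 := by
          have := CharP.cast_eq_zero K 3
          exact_mod_cast this
        have h2 : (1 : K) + 1 = -1 := by linear_combination h3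
        refine ⟨1, 1, one_ne_zero, one_ne_zero, ?_, ?_⟩
        · rw [h2]
          exact neg_ne_zero.mpr one_ne_zero
        · simp only [map_add, map_one, one_mul, inv_one]
          rw [h2]
          intro h
          have h4 : ((-1 : K) * -1)⁻¹ = 1 := by norm_num
          rw [h4] at h
          exact one_ne_zero (α := K) (by linear_combination h3 - h))
    intro t u
    exact congrArg Subtype.val (key t u)
  -- conclusion
  intro g t u₁ v₁ hg u v
  rw [step1 g t u₁ v₁ hg, hconj, hζ1, one_mul]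

end

end Cfsg.Agent.Helper37
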