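import Mathlib
import Cfsg.Agent.Helper77.D1Defs2
import Cfsg.Agent.Helper37.S4504SLem

universe u
set_option autoImplicit false
open Cfsg Cfsg.Agent.Helper77
open scoped ComplexConjugate

namespace Cfsg.Agent.Helper37

variable {G : Type u} [Group G] [Finite G]

/-- the centralizer of `x` has order `p |K|`. -/
theorem s4504sn_cent (p : ℕ) [Fact p.Prime] (x : G) (K : Subgroup G) (h : D1Hyp p x K) :
    Nat.card {g : G // g * x = x * g} = p * Nat.card K := by
  have hp : p.Prime := Fact.out
  have hKx : ∀ k ∈ K, k * x = x * k := by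
    intro k hk
    exact (h.hC k).mpr ⟨0, k, hk, by rw [pow_zero, one_mul]⟩
  have hZx : ∀ a ∈ Subgroup.zpowers x, a * x = x * a := by
    intro a ha
    obtain ⟨j, rfl⟩ := Subgroup.mem_zpowers_iff.mp ha
    exact ((Commute.refl x).zpow_left j).eq
  have hbot : Subgroup.zpowers x ⊓ K = ⊥ := by
    apply Subgroup.inf_eq_bot_of_coprime
    rw [Nat.card_zpowers, h.hx]
    exact (Nat.Prime.coprime_iff_not_dvd hp).mpr h.hK
  let Φ : ↥(Subgroup.zpowers x) × ↥K → {g : G // g * x = x * g} := fun ak =>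
    ⟨(ak.1 : G) * (ak.2 : G), by
      rw [mul_assoc, hKx _ ak.2.2, ← mul_assoc, hZx _ ak.1.2, mul_assoc]⟩
  have hΦ : Function.Bijective Φ := by
    constructor
    · rintro ⟨a, k⟩ ⟨a', k'⟩ hak
      have h1 : (a : G) * (k : G) = (a' : G) * (k' : G) := congrArg Subtype.val hak
      have h2 : (a' : G)⁻¹ * (a : G) = (k' : G) * (k : G)⁻¹ := by
        calc (a' : G)⁻¹ * (a : G) = (a' : G)⁻¹ * ((a : G) * (k : G)) * (k : G)⁻¹ := by group
          _ = (k' : G) * (k : G)⁻¹ := by rw [h1]; group
      have h3 : (a' : G)⁻¹ * (a : G) ∈ Subgroup.zpowers x ⊓ K :=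
        ⟨Subgroup.mul_mem _ (Subgroup.inv_mem _ a'.2) a.2,
          by rw [h2]; exact K.mul_mem k'.2 (K.inv_mem k.2)⟩
      rw [hbot, Subgroup.mem_bot] at h3
      have ha : (a : G) = (a' : G) := (inv_mul_eq_one.mp h3).symm
      have hk : (k : G) = (k' : G) := by
        rw [ha] at h1
        exact mul_left_cancel h1
      exact Prod.ext (Subtype.ext ha) (Subtype.ext hk)
    · rintro ⟨g, hg⟩
      obtain ⟨i, k, hk, hgk⟩ := (h.hC g).mp hg
      exact ⟨(⟨x ^ i, Subgroup.pow_mem _ (Subgroup.mem_zpowers x) i⟩, ⟨k, hk⟩),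
        Subtype.ext hgk.symm⟩
  rw [← Nat.card_congr (Equiv.ofBijective Φ hΦ), Nat.card_prod, Nat.card_zpowers, h.hx]

/-- NORMCARD: the order of the normalizer of `⟨x⟩`. -/
theorem s4504s_normcard (p : ℕ) [Fact p.Prime] (x : G) (K : Subgroup G) (h : D1Hyp p x K)
    (F : Subgroup (ZMod p)ˣ) (hF : (F : Set (ZMod p)ˣ) = normUnits p x) :
    Nat.card (Subgroup.normalizer ((Subgroup.zpowers x : Subgroup G) : Set G))
      = p * Nat.card F * Nat.card K := by
  classical
  have hp : p.Prime := Fact.out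
  have hx := h.hx
  have hx1 : x ≠ 1 := by
    intro h1
    rw [h1, orderOf_one] at hx
    exact hp.one_lt.ne hx
  -- the action of the normalizer by conjugation
  letI act : MulAction ↥(Subgroup.normalizer ((Subgroup.zpowers x : Subgroup G) : Set G)) G :=
    MulAction.compHom G ((MulAut.conj : G →* MulAut G).comp
      (Subgroup.normalizer ((Subgroup.zpowers x : Subgroup G) : Set G)).subtype)
  have hsmul : ∀ (n : ↥(Subgroup.normalizer ((Subgroup.zpowers x : Subgroup G) : Set G))) (g : G),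
      n • g = (n : G) * g * (n : G)⁻¹ := fun n g => rfl
  have hos := Nat.card_congr (MulAction.orbitProdStabilizerEquivGroup
    ↥(Subgroup.normalizer ((Subgroup.zpowers x : Subgroup G) : Set G)) x)
  rw [Nat.card_prod] at hos
  -- the orbit
  have horb : MulAction.orbit ↥(Subgroup.normalizer ((Subgroup.zpowers x : Subgroup G) : Set G)) x
      = (fun u : (ZMod p)ˣ => x ^ (u : ZMod p).val) '' (F : Set (ZMod p)ˣ) := by
    ext y
    constructor
    · rintro ⟨n, rfl⟩
      change (n • x) ∈ _
      rw [hsmul]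
      have hmem : (n : G) * x * (n : G)⁻¹ ∈ Subgroup.zpowers x :=
        (Subgroup.mem_normalizer_iff.mp n.2 x).mp (Subgroup.mem_zpowers x)
      obtain ⟨j, hj⟩ := (mem_powers_iff_mem_zpowers.mpr hmem)
      have hj' : x ^ j = (n : G) * x * (n : G)⁻¹ := hj
      have hpj : ¬ p ∣ j := by
        intro hd
        rw [← hx] at hd
        have h1 : x ^ j = 1 := orderOf_dvd_iff_pow_eq_one.mp hd
        rw [hj'] at h1
        apply hx1
        have : x = (n : G)⁻¹ * ((n : G) * x * (n : G)⁻¹) * (n : G) := by group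
        rw [this, h1]; group
      have hj0 : (j : ZMod p) ≠ 0 := fun h0 => hpj ((ZMod.natCast_eq_zero_iff j p).mp h0)
      refine ⟨Units.mk0 (j : ZMod p) hj0, ?_, ?_⟩
      · change Units.mk0 (j : ZMod p) hj0 ∈ (F : Set (ZMod p)ˣ)
        rw [hF]
        refine ⟨(n : G), ?_⟩
        rw [Units.val_mk0, s4504sl_pow_val p x hx, hj']
      · change x ^ ((Units.mk0 (j : ZMod p) hj0 : (ZMod p)ˣ) : ZMod p).val = _
        rw [Units.val_mk0, s4504sl_pow_val p x hx, hj']
    · rintro ⟨u, hu, rfl⟩
      obtain ⟨n, hn⟩ := s4504sl_in p x F hF u hu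
      -- the inverse unit
      have hinv : n * x ^ ((u⁻¹ : (ZMod p)ˣ) : ZMod p).val * n⁻¹ = x := by
        rw [← conj_pow, hn, ← pow_mul, s4504sl_pow_mul p x hx, mul_inv_cancel]
        have : ((1 : (ZMod p)ˣ) : ZMod p).val = 1 := by
          rw [Units.val_one]
          exact ZMod.val_one p
        rw [this, pow_one]
      have hinv' : n⁻¹ * x * n = x ^ ((u⁻¹ : (ZMod p)ˣ) : ZMod p).val := by
        calc n⁻¹ * x * n
            = n⁻¹ * (n * x ^ ((u⁻¹ : (ZMod p)ˣ) : ZMod p).val * n⁻¹) * n := by rw [hinv]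
          _ = x ^ ((u⁻¹ : (ZMod p)ˣ) : ZMod p).val := by group
      have hnN : n ∈ Subgroup.normalizer ((Subgroup.zpowers x : Subgroup G) : Set G) := by
        rw [Subgroup.mem_normalizer_iff]
        intro g
        constructor
        · intro hg
          obtain ⟨k, rfl⟩ := Subgroup.mem_zpowers_iff.mp hg
          rw [← conj_zpow, hn]
          exact Subgroup.zpow_mem _ (Subgroup.pow_mem _ (Subgroup.mem_zpowers x) _) k
        · intro hg
          obtain ⟨k, hk⟩ := Subgroup.mem_zpowers_iff.mp hg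
          have hg2 : g = (n⁻¹ * x * n) ^ k := by
            have e1 : (n⁻¹ * x * n) ^ k = n⁻¹ * x ^ k * n := by
              have := conj_zpow (a := n⁻¹) (b := x) (i := k)
              rw [inv_inv] at this
              exact this
            rw [e1, hk]; group
          rw [hg2, hinv']
          exact Subgroup.zpow_mem _ (Subgroup.pow_mem _ (Subgroup.mem_zpowers x) _) k
      exact ⟨⟨n, hnN⟩, hn⟩
  have hinj : Set.InjOn (fun u : (ZMod p)ˣ => x ^ (u : ZMod p).val) (F : Set (ZMod p)ˣ) := by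
    intro u _ u' _ huu
    apply Units.ext
    apply ZMod.val_injective p
    apply pow_injOn_Iio_orderOf (x := x)
    · rw [Set.mem_Iio, hx]; exact ZMod.val_lt _
    · rw [Set.mem_Iio, hx]; exact ZMod.val_lt _
    · exact huu
  have hcorb : Nat.card ↥(MulAction.orbit
      ↥(Subgroup.normalizer ((Subgroup.zpowers x : Subgroup G) : Set G)) x) = Nat.card F := by
    rw [horb, Nat.card_image_of_injOn hinj]
    rfl
  -- the stabilizer
  have hcst : Nat.card ↥(MulAction.stabilizer
      ↥(Subgroup.normalizer ((Subgroup.zpowers x : Subgroup G) : Set G)) x) = p * Nat.card K := by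
    rw [← s4504sn_cent p x K h]
    refine Nat.card_congr
      { toFun := fun n => ⟨(n.1 : G), ?_⟩
        invFun := fun g => ⟨⟨g.1, ?_⟩, ?_⟩
        left_inv := fun n => rfl
        right_inv := fun g => rfl }
    · have h1 : n.1 • x = x := n.2
      rw [hsmul] at h1
      calc (n.1 : G) * x = (n.1 : G) * x * (n.1 : G)⁻¹ * (n.1 : G) := by group
        _ = x * (n.1 : G) := by rw [h1]
    · rw [Subgroup.mem_normalizer_iff]
      intro y
      have hyc : ∀ y ∈ Subgroup.zpowers x, g.1 * y * g.1⁻¹ = y := by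
        intro y hy
        obtain ⟨k, rfl⟩ := Subgroup.mem_zpowers_iff.mp hy
        have hc : Commute g.1 x := g.2
        rw [(hc.zpow_right k).eq, mul_inv_cancel_right]
      constructor
      · intro hy
        rw [hyc y hy]; exact hy
      · intro hy
        have h2 := hyc _ hy
        have h3 : g.1 * y * g.1⁻¹ = y := by
          have e : g.1⁻¹ * (g.1 * (g.1 * y * g.1⁻¹) * g.1⁻¹) * g.1
              = g.1⁻¹ * (g.1 * y * g.1⁻¹) * g.1 := by rw [h2]
          have l : g.1⁻¹ * (g.1 * (g.1 * y * g.1⁻¹) * g.1⁻¹) * g.1 = g.1 * y * g.1⁻¹ := by group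
          have r : g.1⁻¹ * (g.1 * y * g.1⁻¹) * g.1 = y := by group
          rw [l, r] at e
          exact e
        rw [← h3]; exact hy
    · change (⟨g.1, _⟩ : ↥(Subgroup.normalizer ((Subgroup.zpowers x : Subgroup G) : Set G))) • x = x
      rw [hsmul]
      change g.1 * x * g.1⁻¹ = x
      rw [g.2, mul_inv_cancel_right]
  rw [← hos, hcorb, hcst]
  ring

end Cfsg.Agent.Helper37
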