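import Mathlib
import Cfsg.Agent.Helper44.SPUDefs
import Cfsg.Agent.Helper80.SPUHYP

set_option autoImplicit false
open Classical

namespace Cfsg.Agent.Helper37.SPULEMA

open Matrix Cfsg.Agent.Helper44.SPU

variable {F : Type*} [Field F] [Fintype F] {m : ℕ}

omit [Fintype F] in
theorem spulema_wt_succ (q j : ℕ) : wt q (j + 1) = -((q : ℤ) ^ j * wt q j) := by
  unfold wt
  have h : (j + 1).choose 2 = j.choose 2 + j := by
    rw [Nat.choose_succ_succ, Nat.choose_one_right, add_comm]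
  rw [h, pow_add, pow_succ]
  ring

/-- LEMA: the weighted sum over the totally isotropic subspaces of a subspace `K` with a non-zero
radical vector vanishes. -/
theorem spu_lemA (K : Submodule F (Fin m ⊕ Fin m → F)) (r : Fin m ⊕ Fin m → F) (hr0 : r ≠ 0)
    (hrK : r ∈ K) (hrad : ∀ y ∈ K, Cfsg.sympForm m F r y = 0) :
    ∑ W : Submodule F (Fin m ⊕ Fin m → F),
      (if W ≤ K ∧ Iso m F W then wt (Fintype.card F) (Module.finrank F W) else 0) = 0 := by
  obtain ⟨q, hq⟩ : ∃ q, q = Fintype.card F := ⟨_, rfl⟩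
  rw [← hq]
  obtain ⟨L, hL⟩ : ∃ L : Submodule F (Fin m ⊕ Fin m → F), L = Submodule.span F {r} := ⟨_, rfl⟩
  have hLK : L ≤ K := by rw [hL, Submodule.span_singleton_le_iff_mem]; exact hrK
  have hrL : r ∈ L := by rw [hL]; exact Submodule.mem_span_singleton_self r
  have hrr : Cfsg.sympForm m F r r = 0 := hrad r hrK
  have hrad' : ∀ y ∈ K, Cfsg.sympForm m F y r = 0 := by
    intro y hy
    rw [Cfsg.Agent.Helper13.sympForm_swap, hrad y hy, neg_zero]
  have hiso_sup : ∀ W : Submodule F (Fin m ⊕ Fin m → F), W ≤ K → Iso m F W → Iso m F (W ⊔ L) := by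
    intro W hWK hW u hu v hv
    obtain ⟨u₁, hu₁, u₂, hu₂, rfl⟩ := Submodule.mem_sup.1 hu
    obtain ⟨v₁, hv₁, v₂, hv₂, rfl⟩ := Submodule.mem_sup.1 hv
    rw [hL] at hu₂ hv₂
    obtain ⟨a, rfl⟩ := Submodule.mem_span_singleton.1 hu₂
    obtain ⟨b, rfl⟩ := Submodule.mem_span_singleton.1 hv₂
    rw [Cfsg.Agent.Helper13.sympForm_add_left, Cfsg.Agent.Helper13.sympForm_add_right,
      Cfsg.Agent.Helper13.sympForm_add_right, Cfsg.Agent.Helper13.sympForm_smul_left,
      Cfsg.Agent.Helper13.sympForm_smul_left, Cfsg.Agent.Helper13.sympForm_smul_right,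
      Cfsg.Agent.Helper13.sympForm_smul_right, hW u₁ hu₁ v₁ hv₁, hrad' u₁ (hWK hu₁),
      hrad v₁ (hWK hv₁), hrr]
    ring
  have hfin : ∀ W : Submodule F (Fin m ⊕ Fin m → F), r ∉ W →
      Module.finrank F ↥(W ⊔ L) = Module.finrank F W + 1 := by
    intro W hrW
    have h1 := Submodule.finrank_sup_add_finrank_inf_eq W L
    have h2 : W ⊓ L = ⊥ := by
      rw [eq_bot_iff]
      intro x hx
      obtain ⟨hxW, hxL⟩ := Submodule.mem_inf.1 hx
      rw [hL] at hxL
      obtain ⟨a, rfl⟩ := Submodule.mem_span_singleton.1 hxL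
      by_cases ha : a = 0
      · rw [ha, zero_smul]; exact Submodule.zero_mem _
      · exfalso
        apply hrW
        have := W.smul_mem a⁻¹ hxW
        rwa [smul_smul, inv_mul_cancel₀ ha, one_smul] at this
    have h3 : Module.finrank F L = 1 := by rw [hL]; exact finrank_span_singleton hr0
    rw [h2, finrank_bot, h3] at h1
    omega
  -- the sum over the filter
  rw [← Finset.sum_filter]
  rw [← Finset.sum_filter_add_sum_filter_not _ (fun W : Submodule F (Fin m ⊕ Fin m → F) => r ∈ W)]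
  rw [Finset.filter_filter, Finset.filter_filter]
  have hmaps : ∀ W ∈ Finset.univ.filter (fun W : Submodule F (Fin m ⊕ Fin m → F) =>
      (W ≤ K ∧ Iso m F W) ∧ r ∉ W), W ⊔ L ∈ Finset.univ.filter
        (fun W : Submodule F (Fin m ⊕ Fin m → F) => (W ≤ K ∧ Iso m F W) ∧ r ∈ W) := by
    intro W hW
    rw [Finset.mem_filter] at hW ⊢
    exact ⟨Finset.mem_univ _, ⟨sup_le hW.2.1.1 hLK, hiso_sup W hW.2.1.1 hW.2.1.2⟩,
      (le_sup_right : L ≤ W ⊔ L) hrL⟩
  rw [← Finset.sum_fiberwise_of_maps_to hmaps, ← Finset.sum_add_distrib]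
  refine Finset.sum_eq_zero fun W' hW' => ?_
  rw [Finset.mem_filter] at hW'
  obtain ⟨-, ⟨hW'K, hW'iso⟩, hrW'⟩ := hW'
  -- the fibre
  have hfib : (Finset.univ.filter (fun W : Submodule F (Fin m ⊕ Fin m → F) =>
      (W ≤ K ∧ Iso m F W) ∧ r ∉ W)).filter (fun W => W ⊔ L = W') =
      Finset.univ.filter (fun W : Submodule F (Fin m ⊕ Fin m → F) =>
        r ∉ W ∧ W ⊔ Submodule.span F {r} = W') := by
    ext W
    simp only [Finset.mem_filter, Finset.mem_univ, true_and]
    rw [← hL]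
    constructor
    · rintro ⟨⟨-, h2⟩, h3⟩
      exact ⟨h2, h3⟩
    · rintro ⟨h2, h3⟩
      have hWW' : W ≤ W' := by rw [← h3]; exact le_sup_left
      exact ⟨⟨⟨hWW'.trans hW'K, fun u hu v hv => hW'iso u (hWW' hu) v (hWW' hv)⟩, h2⟩, h3⟩
  rw [hfib]
  have hd : 1 ≤ Module.finrank F W' := by
    rw [Nat.succ_le_iff, Module.finrank_pos_iff_exists_ne_zero]
    exact ⟨⟨r, hrW'⟩, fun h => hr0 (congrArg Subtype.val h)⟩
  have hconst : ∀ W ∈ Finset.univ.filter (fun W : Submodule F (Fin m ⊕ Fin m → F) =>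
      r ∉ W ∧ W ⊔ Submodule.span F {r} = W'),
      wt q (Module.finrank F W) = wt q (Module.finrank F W' - 1) := by
    intro W hW
    rw [Finset.mem_filter] at hW
    have h1 := hfin W hW.2.1
    rw [hL, hW.2.2] at h1
    rw [h1, Nat.add_sub_cancel]
  rw [Finset.sum_congr rfl hconst, Finset.sum_const]
  have hcard : (Finset.univ.filter (fun W : Submodule F (Fin m ⊕ Fin m → F) =>
      r ∉ W ∧ W ⊔ Submodule.span F {r} = W')).card = q ^ (Module.finrank F W' - 1) := by
    rw [hq, ← Cfsg.Agent.Helper80.SPUHYP.spu_hyp W' r hrW' hr0, Nat.card_eq_fintype_card, Fintype.card_subtype]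
  rw [hcard]
  obtain ⟨j, hj⟩ : ∃ j, Module.finrank F W' = j + 1 := ⟨Module.finrank F W' - 1, by omega⟩
  rw [hj, Nat.add_sub_cancel, spulema_wt_succ]
  simp only [nsmul_eq_mul, Nat.cast_pow]
  ring

end Cfsg.Agent.Helper37.SPULEMA
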