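import Mathlib
import Cfsg.Agent.Helper44.SPUDefs
import Cfsg.Agent.Helper5.SympCard

set_option autoImplicit false
open Classical

namespace Cfsg.Agent.Helper37.SPULEVIKER

open Matrix Cfsg.Agent.Helper44.SPU

variable {F : Type*} [Field F] [Fintype F] {m : ℕ}

/-- LEVIKER: the kernel of a surjection of `Qs hk F 0` onto `Sp_2(m-k)` has order
`q^(k(k+1)/2 + 2k(m-k))`. -/
theorem spu_leviker {k : ℕ} (hk : k ≤ m)
    (π : ↥(Cfsg.Agent.Helper13.Qs hk F 0) →* Matrix.symplecticGroup (Fin (m - k)) F)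
    (hπ : Function.Surjective π) :
    Nat.card π.ker = Fintype.card F ^ (k * (k + 1) / 2 + 2 * k * (m - k)) := by
  have h1 : Nat.card ↥(Cfsg.Agent.Helper13.Qs hk F 0) =
      Nat.card (Matrix.symplecticGroup (Fin (m - k)) F) * Nat.card π.ker := by
    rw [Subgroup.card_eq_card_quotient_mul_card_subgroup π.ker,
      Nat.card_congr (QuotientGroup.quotientKerEquivOfSurjective π hπ).toEquiv]
  have h2 := Cfsg.Agent.Helper13.card_Qs_chain (F := F) hk k le_rfl
  rw [Cfsg.Agent.Helper13.sum_exponent hk, Cfsg.Agent.Helper13.card_Qs_top hk,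
    ← Cfsg.Agent.Helper5.card_sp (F := F) (m := m - k)] at h2
  rw [h1] at h2
  have hpos : 0 < Nat.card (Matrix.symplecticGroup (Fin (m - k)) F) := Nat.card_pos
  exact Nat.eq_of_mul_eq_mul_left hpos (by rw [h2, mul_comm])

end Cfsg.Agent.Helper37.SPULEVIKER
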