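import Mathlib
import Cfsg.Agent.Helper37.Sf1
import Cfsg.Agent.Helper5.SLCard

set_option autoImplicit false

namespace Cfsg.Agent.Helper37

open Matrix Module Cfsg.Agent.Helper42 Cfsg.Geo

universe u

variable {F : Type u} [Field F]

theorem sf_reindex_mul {ι : Type} [Fintype ι] [DecidableEq ι] {n : ℕ} (e : ι ≃ Fin n)
    (M M' : Matrix ι ι F) :
    Matrix.reindex e e M * Matrix.reindex e e M' = Matrix.reindex e e (M * M') := by
  rw [Matrix.reindex_apply, Matrix.reindex_apply, Matrix.reindex_apply, Matrix.submatrix_mul_equiv]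

/-- characteristic two: conjugate into any subfield subgroup -/
theorem sf_caseC [Fintype F] {n : ℕ} (hn : 1 ≤ n) (h2 : (2 : F) = 0) (F₀ : Subfield F)
    (x : Matrix.SpecialLinearGroup (Fin n) F) (c : F) (hc : c ≠ 0)
    (hx : x.val * x.val = (c * c) • (1 : Matrix (Fin n) (Fin n) F)) :
    ∃ Q : Matrix.SpecialLinearGroup (Fin n) F, Q⁻¹ * x * Q ∈
      (subfieldSubgroup F₀ (1 : GL (Fin n) F)).comap (Matrix.SpecialLinearGroup.toGL :
        Matrix.SpecialLinearGroup (Fin n) F →* GL (Fin n) F) := by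
  classical
  have hch2 : ∀ (ι : Type) (M : Matrix ι ι F), M + M = 0 := by
    intro ι M
    rw [← two_smul F M, h2, zero_smul]
  obtain ⟨N, hNdef⟩ : ∃ N : Matrix (Fin n) (Fin n) F, N = c⁻¹ • x.val + 1 := ⟨_, rfl⟩
  have hN : N * N = 0 := by
    rw [hNdef, add_mul, mul_add, mul_add, Matrix.smul_mul, Matrix.mul_smul, hx, smul_smul,
      smul_smul, Matrix.mul_one, Matrix.one_mul, Matrix.one_mul]
    have h1 : c⁻¹ * c⁻¹ * (c * c) = 1 := by field_simp
    rw [h1, one_smul]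
    have h3 : (1 : Matrix (Fin n) (Fin n) F) + c⁻¹ • x.val + (c⁻¹ • x.val + 1) =
        (1 + 1) + (c⁻¹ • x.val + c⁻¹ • x.val) := by abel
    rw [h3, hch2, hch2, add_zero]
  have hxN : x.val = c • N + c • 1 := by
    rw [hNdef, smul_add, smul_smul, mul_inv_cancel₀ hc, one_smul, add_assoc, ← smul_add, hch2,
      smul_zero, add_zero]
  obtain ⟨k, hk⟩ : ∃ k, k = N.rank := ⟨_, rfl⟩
  have hkn : 2 * k ≤ n := by
    have := sqz_rank_le N hN
    omega
  obtain ⟨l, hl⟩ : ∃ l, n = 2 * k + l := ⟨n - 2 * k, by omega⟩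
  have hcard : Fintype.card ((Fin k ⊕ Fin k) ⊕ Fin l) = n := by
    simp only [Fintype.card_sum, Fintype.card_fin]
    omega
  obtain ⟨e⟩ : Nonempty (((Fin k ⊕ Fin k) ⊕ Fin l) ≃ Fin n) := ⟨Fintype.equivFinOfCardEq hcard⟩
  obtain ⟨N₂, hN₂⟩ : ∃ N₂ : Matrix (Fin k ⊕ Fin k) (Fin k ⊕ Fin k) F,
      N₂ = Matrix.fromBlocks 0 1 0 0 := ⟨_, rfl⟩
  obtain ⟨Nι, hNι⟩ : ∃ Nι : Matrix ((Fin k ⊕ Fin k) ⊕ Fin l) ((Fin k ⊕ Fin k) ⊕ Fin l) F,
      Nι = Matrix.fromBlocks N₂ 0 0 0 := ⟨_, rfl⟩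
  have hN₂N₂ : N₂ * N₂ = 0 := by
    rw [hN₂, Matrix.fromBlocks_multiply]
    simp
  have hNN : Nι * Nι = 0 := by
    rw [hNι, Matrix.fromBlocks_multiply, hN₂N₂]
    simp
  have hrank : Nι.rank = k := by
    obtain ⟨S₂, hS₂⟩ : ∃ S₂ : Matrix (Fin k ⊕ Fin k) (Fin k ⊕ Fin k) F,
        S₂ = Matrix.fromBlocks 0 1 1 0 := ⟨_, rfl⟩
    obtain ⟨S, hS⟩ : ∃ S : Matrix ((Fin k ⊕ Fin k) ⊕ Fin l) ((Fin k ⊕ Fin k) ⊕ Fin l) F,
        S = Matrix.fromBlocks S₂ 0 0 1 := ⟨_, rfl⟩
    have hS₂S₂ : S₂ * S₂ = 1 := by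
      rw [hS₂, Matrix.fromBlocks_multiply, ← Matrix.fromBlocks_one]
      simp
    have h1 : Nι = Matrix.diagonal (Sum.elim (Sum.elim (fun _ : Fin k => (1 : F))
        (fun _ : Fin k => (0 : F))) (fun _ : Fin l => (0 : F))) * S := by
      rw [← Matrix.fromBlocks_diagonal, ← Matrix.fromBlocks_diagonal, hS, hNι, hN₂, hS₂,
        Matrix.fromBlocks_multiply, Matrix.fromBlocks_multiply]
      simp
    have h3 : IsUnit S.det := by
      have h4 : S * S = 1 := by
        rw [hS, Matrix.fromBlocks_multiply, hS₂S₂, ← Matrix.fromBlocks_one]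
        simp
      have h5 := congrArg Matrix.det h4
      rw [Matrix.det_mul, Matrix.det_one] at h5
      exact IsUnit.of_mul_eq_one _ h5
    rw [h1, Matrix.rank_mul_eq_left_of_isUnit_det _ _ h3, Matrix.rank_diagonal,
      Fintype.card_subtype, Finset.card_filter, Fintype.sum_sum_type, Fintype.sum_sum_type]
    simp
  obtain ⟨Ns, hNs⟩ : ∃ Ns : Matrix (Fin n) (Fin n) F, Ns = Matrix.reindex e e Nι := ⟨_, rfl⟩
  have hNsNs : Ns * Ns = 0 := by
    rw [hNs, sf_reindex_mul, hNN]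
    simp
  have hNsrank : Ns.rank = k := by
    rw [hNs, Matrix.rank_reindex, hrank]
  obtain ⟨P, hP⟩ := sqz_conj N Ns hN hNsNs (by rw [hNsrank, hk])
  have hent : ∀ a b, Nι a b ∈ F₀ := by
    intro a b
    rw [hNι, hN₂]
    rcases a with (a | a) | a <;> rcases b with (b | b) | b <;>
      simp only [Matrix.fromBlocks_apply₁₁, Matrix.fromBlocks_apply₁₂, Matrix.fromBlocks_apply₂₁,
        Matrix.fromBlocks_apply₂₂, Matrix.zero_apply, Matrix.one_apply] <;>
      first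
        | exact zero_mem _
        | (split_ifs
           · exact one_mem _
           · exact zero_mem _)
  refine sf_transfer F₀ x (c • Ns + c • 1) P ?_ c⁻¹ (inv_ne_zero hc) ?_ ?_
  · rw [hxN, mul_add, add_mul, Matrix.mul_smul, Matrix.mul_smul, hP, Matrix.smul_mul,
      Matrix.smul_mul, Matrix.mul_one, Matrix.one_mul]
  · rw [smul_add, smul_smul, smul_smul, inv_mul_cancel₀ hc, one_smul, one_smul]
    intro i j
    rw [Matrix.add_apply, hNs, Matrix.reindex_apply, Matrix.submatrix_apply, Matrix.one_apply]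
    apply add_mem (hent _ _)
    split_ifs
    · exact one_mem _
    · exact zero_mem _
  · intro δ hδ
    have hgen : ∀ Cι : Matrix ((Fin k ⊕ Fin k) ⊕ Fin l) ((Fin k ⊕ Fin k) ⊕ Fin l) F,
        Cι * Nι = Nι * Cι → Cι.det = δ →
        ∃ C : Matrix (Fin n) (Fin n) F, C * (c • Ns + c • 1) = (c • Ns + c • 1) * C ∧
          C.det = δ := by
      intro Cι hcomm hdet
      refine ⟨Matrix.reindex e e Cι, ?_, ?_⟩
      · have h1 : Matrix.reindex e e Cι * Ns = Ns * Matrix.reindex e e Cι := by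
          rw [hNs, sf_reindex_mul, sf_reindex_mul, hcomm]
        rw [mul_add, add_mul, Matrix.mul_smul, Matrix.smul_mul, Matrix.mul_smul, Matrix.smul_mul,
          h1, Matrix.mul_one, Matrix.one_mul]
      · rw [Matrix.det_reindex_self, hdet]
    by_cases hl0 : l = 0
    · have hch : ringChar F = 2 :=
        CharP.ringChar_of_prime_eq_zero Nat.prime_two (by exact_mod_cast h2)
      obtain ⟨ρ, hρ⟩ := FiniteField.isSquare_of_char_two hch δ
      obtain ⟨i₀⟩ : Nonempty (Fin k) := ⟨⟨0, by omega⟩⟩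
      obtain ⟨dρ, hdρ⟩ : ∃ dρ : Fin k → F, dρ = fun i => if i = i₀ then ρ else 1 := ⟨_, rfl⟩
      have hdet : (Matrix.diagonal dρ).det = ρ := by
        rw [Matrix.det_diagonal, hdρ, Finset.prod_ite_eq' Finset.univ i₀]
        simp
      apply hgen (Matrix.fromBlocks (Matrix.fromBlocks (Matrix.diagonal dρ) 0 0
        (Matrix.diagonal dρ)) 0 0 1)
      · rw [hNι, hN₂, Matrix.fromBlocks_multiply, Matrix.fromBlocks_multiply,
          Matrix.fromBlocks_multiply, Matrix.fromBlocks_multiply]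
        simp
      · rw [Matrix.det_fromBlocks_zero₁₂, Matrix.det_fromBlocks_zero₁₂, hdet, Matrix.det_one,
          mul_one, hρ]
    · obtain ⟨j₀⟩ : Nonempty (Fin l) := ⟨⟨0, by omega⟩⟩
      obtain ⟨dδ, hdδ⟩ : ∃ dδ : Fin l → F, dδ = fun i => if i = j₀ then δ else 1 := ⟨_, rfl⟩
      have hdet : (Matrix.diagonal dδ).det = δ := by
        rw [Matrix.det_diagonal, hdδ, Finset.prod_ite_eq' Finset.univ j₀]
        simp
      apply hgen (Matrix.fromBlocks 1 0 0 (Matrix.diagonal dδ))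
      · rw [hNι, Matrix.fromBlocks_multiply, Matrix.fromBlocks_multiply]
        simp
      · rw [Matrix.det_fromBlocks_zero₁₂, hdet, Matrix.det_one, one_mul]

theorem sf_card_facts [Fintype F] (h2 : (2 : F) ≠ 0) (q₀ : ℕ) (hq : Fintype.card F = q₀ ^ 2) :
    IsSquare (-1 : F) ∧ q₀ % 2 = 1 := by
  have hchar := sq_ringChar_ne h2
  have hodd : Fintype.card F % 2 = 1 := FiniteField.odd_card_of_char_ne_two hchar
  have hq₀ : q₀ % 2 = 1 := by
    rw [hq, Nat.pow_mod] at hodd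
    rcases Nat.mod_two_eq_zero_or_one q₀ with h | h
    · rw [h] at hodd
      norm_num at hodd
    · exact h
  have hq4 : Fintype.card F % 4 = 1 := by
    rw [hq]
    obtain ⟨a, ha⟩ : ∃ a, q₀ = 2 * a + 1 := ⟨q₀ / 2, by omega⟩
    rw [ha]
    have : (2 * a + 1) ^ 2 = 4 * (a * a + a) + 1 := by ring
    rw [this]
    omega
  exact ⟨FiniteField.isSquare_neg_one_iff.mpr (by omega), hq₀⟩

/-- elements of the subfield of index two are squares -/
theorem sf_sub_isSquare [Fintype F] (h2 : (2 : F) ≠ 0) (F₀ : Subfield F) (q₀ : ℕ)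
    (hF₀ : Nat.card F₀ = q₀) (hq : Fintype.card F = q₀ ^ 2) (a : F) (ha : a ∈ F₀) (ha0 : a ≠ 0) :
    IsSquare a := by
  classical
  have hchar := sq_ringChar_ne h2
  obtain ⟨-, hq₀⟩ := sf_card_facts h2 q₀ hq
  letI : Fintype ↥F₀ := Fintype.ofFinite _
  have hc0 : Fintype.card ↥F₀ = q₀ := by rw [← Nat.card_eq_fintype_card, hF₀]
  have h1 : (⟨a, ha⟩ : F₀) ^ (Fintype.card ↥F₀ - 1) = 1 :=
    FiniteField.pow_card_sub_one_eq_one _ (by
      intro h
      exact ha0 (congrArg Subtype.val h))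
  have h3 : a ^ (q₀ - 1) = 1 := by
    have h4 := congrArg Subtype.val h1
    rw [hc0] at h4
    exact h4
  rw [FiniteField.isSquare_iff hchar ha0, hq]
  obtain ⟨b, hb⟩ : ∃ b, q₀ = 2 * b + 1 := ⟨q₀ / 2, by omega⟩
  have h5 : q₀ ^ 2 / 2 = (q₀ - 1) * (b + 1) := by
    rw [hb]
    have : (2 * b + 1) ^ 2 = 2 * ((2 * b + 1 - 1) * (b + 1)) + 1 := by
      have h6 : 2 * b + 1 - 1 = 2 * b := by omega
      rw [h6]
      ring
    rw [this]
    omega
  rw [h5, pow_mul, h3, one_pow]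

/-- the involution with no conjugate in the subfield subgroup -/
theorem sf_bad [Fintype F] (h2 : (2 : F) ≠ 0) (F₀ : Subfield F) (q₀ : ℕ)
    (hF₀ : Nat.card F₀ = q₀) (hq : Fintype.card F = q₀ ^ 2) (m : ℕ) (hm : 1 ≤ m)
    (hv : padicValNat 2 (Fintype.card F - 1) < padicValNat 2 (2 * m)) :
    ∃ x : Matrix.SpecialLinearGroup (Fin (2 * m)) F,
      (∃ z : F, x.val * x.val = z • (1 : Matrix (Fin (2 * m)) (Fin (2 * m)) F)) ∧
      (∀ z : F, x.val ≠ z • (1 : Matrix (Fin (2 * m)) (Fin (2 * m)) F)) ∧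
      ∀ P : Matrix.SpecialLinearGroup (Fin (2 * m)) F, P⁻¹ * x * P ∉
        (subfieldSubgroup F₀ (1 : GL (Fin (2 * m)) F)).comap (Matrix.SpecialLinearGroup.toGL :
          Matrix.SpecialLinearGroup (Fin (2 * m)) F →* GL (Fin (2 * m)) F) := by
  classical
  have hchar := sq_ringChar_ne h2
  obtain ⟨hneg, hq₀⟩ := sf_card_facts h2 q₀ hq
  have hodd : Fintype.card F % 2 = 1 := FiniteField.odd_card_of_char_ne_two hchar
  have hq1 : Fintype.card F - 1 ≠ 0 := by
    have := Fintype.one_lt_card (α := F)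
    omega
  obtain ⟨t, w, hw, htw⟩ := Nat.exists_eq_two_pow_mul_odd hq1
  have ht : 2 ^ t ∣ m := by
    have h1 : t ≤ padicValNat 2 (Fintype.card F - 1) :=
      (padicValNat_dvd_iff_le hq1).mp ⟨w, htw⟩
    have h3 : 2 ^ (t + 1) ∣ 2 * m := (padicValNat_dvd_iff_le (by omega)).mpr (by omega)
    rw [pow_succ, mul_comm] at h3
    exact Nat.dvd_of_mul_dvd_mul_left (by norm_num) h3
  obtain ⟨m', hm'⟩ := ht
  obtain ⟨g, hg⟩ := IsCyclic.exists_ofOrder_eq_natCard (α := Fˣ)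
  have hcard : Nat.card Fˣ = Fintype.card F - 1 := by
    rw [Nat.card_eq_fintype_card, Fintype.card_units]
  obtain ⟨u, hu⟩ : ∃ u : Fˣ, u = g ^ w := ⟨_, rfl⟩
  have hum : u ^ m = 1 := by
    rw [hu, ← pow_mul]
    have : w * m = (Fintype.card F - 1) * m' := by rw [hm', htw]; ring
    rw [this, ← hcard, ← hg, pow_mul, pow_orderOf_eq_one, one_pow]
  have hunsq : ¬ IsSquare (u : F) := by
    intro hsq
    have h1 := (FiniteField.isSquare_iff hchar u.ne_zero).mp hsq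
    have h3 : u ^ (Fintype.card F / 2) = 1 := by
      apply Units.ext
      rw [Units.val_pow_eq_pow_val, h1, Units.val_one]
    rw [hu, ← pow_mul] at h3
    have h4 := orderOf_dvd_of_pow_eq_one h3
    rw [hg, hcard] at h4
    have h5 : Fintype.card F - 1 = 2 * (Fintype.card F / 2) := by omega
    rw [h5] at h4
    have h6 : 0 < Fintype.card F / 2 := by
      have := Fintype.one_lt_card (α := F)
      omega
    have h7 : 2 ∣ w := Nat.dvd_of_mul_dvd_mul_right h6 h4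
    rcases hw with ⟨r, hr⟩
    omega
  obtain ⟨z, hz⟩ : ∃ z : F, z = -(u : F) := ⟨_, rfl⟩
  have hzns : ¬ IsSquare z := by
    intro h
    apply hunsq
    have h3 := hneg.mul h
    rwa [hz, neg_one_mul, neg_neg] at h3
  have hzm : (-z) ^ m = 1 := by
    rw [hz, neg_neg, ← Units.val_pow_eq_pow_val, hum, Units.val_one]
  obtain ⟨Bι, hBι⟩ : ∃ Bι : Matrix (Fin m ⊕ Fin m) (Fin m ⊕ Fin m) F,
      Bι = Matrix.fromBlocks 0 (z • 1) 1 0 := ⟨_, rfl⟩
  have hBB : Bι * Bι = z • 1 := by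
    rw [hBι, Matrix.fromBlocks_multiply, ← Matrix.fromBlocks_one, Matrix.fromBlocks_smul]
    simp
  have hdet : (Matrix.reindex (sqPar m) (sqPar m) Bι).det = 1 := by
    rw [Matrix.det_reindex_self, hBι, sf_det_blk, hzm]
  have hxx : Matrix.reindex (sqPar m) (sqPar m) Bι * Matrix.reindex (sqPar m) (sqPar m) Bι =
      z • (1 : Matrix (Fin (2 * m)) (Fin (2 * m)) F) := by
    rw [sq_reindex_mul, hBB, sq_reindex_smul_one]
  obtain ⟨i₀⟩ : Nonempty (Fin (2 * m)) := ⟨⟨0, by omega⟩⟩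
  obtain ⟨x, hxv⟩ : ∃ x : Matrix.SpecialLinearGroup (Fin (2 * m)) F,
      x.val = Matrix.reindex (sqPar m) (sqPar m) Bι := ⟨⟨_, hdet⟩, rfl⟩
  have hxx' : x.val * x.val = z • (1 : Matrix (Fin (2 * m)) (Fin (2 * m)) F) := by
    rw [hxv]
    exact hxx
  refine ⟨x, ⟨z, hxx'⟩, ?_, ?_⟩
  · intro lam hlam
    apply hzns
    refine ⟨lam, ?_⟩
    have h1 := hxx'
    rw [hlam, Matrix.smul_mul, Matrix.mul_smul, Matrix.one_mul, smul_smul] at h1
    have h3 := congrFun (congrFun h1 i₀) i₀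
    simp only [Matrix.smul_apply, Matrix.one_apply_eq, smul_eq_mul, mul_one] at h3
    exact h3.symm
  · intro P hP
    rw [Subgroup.mem_comap, Cfsg.Agent.Helper97.SF.mem_subfieldSubgroup_one] at hP
    obtain ⟨c, hc0, hrat⟩ := hP
    simp only [SpecialLinearGroup.coe_GL_coe_matrix] at hrat
    have hsq := (Cfsg.Agent.Helper97.SF.ratMat F₀ (2 * m)).mul_mem hrat hrat
    have hPP : (P⁻¹ : Matrix.SpecialLinearGroup (Fin (2 * m)) F).val * P.val = 1 := by
      rw [← Matrix.SpecialLinearGroup.coe_mul, inv_mul_cancel, Matrix.SpecialLinearGroup.coe_one]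
    have hPP' : P.val * (P⁻¹ : Matrix.SpecialLinearGroup (Fin (2 * m)) F).val = 1 := by
      rw [← Matrix.SpecialLinearGroup.coe_mul, mul_inv_cancel, Matrix.SpecialLinearGroup.coe_one]
    have hval : ((P⁻¹ * x * P : Matrix.SpecialLinearGroup (Fin (2 * m)) F) :
        Matrix (Fin (2 * m)) (Fin (2 * m)) F) =
        (P⁻¹ : Matrix.SpecialLinearGroup (Fin (2 * m)) F).val * x.val * P.val := by
      rw [Matrix.SpecialLinearGroup.coe_mul, Matrix.SpecialLinearGroup.coe_mul]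
    rw [hval] at hsq
    have h1 : c • ((P⁻¹ : Matrix.SpecialLinearGroup (Fin (2 * m)) F).val * x.val * P.val) *
        c • ((P⁻¹ : Matrix.SpecialLinearGroup (Fin (2 * m)) F).val * x.val * P.val) =
        (c * c * z) • (1 : Matrix (Fin (2 * m)) (Fin (2 * m)) F) := by
      rw [Matrix.smul_mul, Matrix.mul_smul, smul_smul]
      have h3 : (P⁻¹ : Matrix.SpecialLinearGroup (Fin (2 * m)) F).val * x.val * P.val *
          ((P⁻¹ : Matrix.SpecialLinearGroup (Fin (2 * m)) F).val * x.val * P.val) =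
          (P⁻¹ : Matrix.SpecialLinearGroup (Fin (2 * m)) F).val *
          (x.val * (P.val * (P⁻¹ : Matrix.SpecialLinearGroup (Fin (2 * m)) F).val) * x.val) *
          P.val := by
        simp only [Matrix.mul_assoc]
      rw [h3, hPP', Matrix.mul_one, hxx', Matrix.mul_smul, Matrix.smul_mul, Matrix.mul_one, hPP,
        smul_smul]
    rw [h1] at hsq
    have h4 : c * c * z ∈ F₀ := by
      have h5 := hsq i₀ i₀
      simpa using h5
    have hz0 : z ≠ 0 := by
      rw [hz]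
      exact neg_ne_zero.mpr u.ne_zero
    obtain ⟨s, hs⟩ := sf_sub_isSquare h2 F₀ q₀ hF₀ hq _ h4
      (mul_ne_zero (mul_ne_zero hc0 hc0) hz0)
    apply hzns
    refine ⟨s / c, ?_⟩
    field_simp
    linear_combination hs

end Cfsg.Agent.Helper37
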