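import Mathlib
import Cfsg.Agent.Helper37.Sf3
import Cfsg.Agent.Helper38.JordanNil
import Cfsg.Agent.Helper81.RobinsonRank

set_option autoImplicit false

namespace Cfsg.Agent.Helper37

open Matrix Module Cfsg.Geo

universe u

variable {F : Type u} [Field F]

/-- kernel dimension of a power in terms of the rank -/
theorem sg_kdim_rank {n : ℕ} (N : Matrix (Fin n) (Fin n) F) (k : ℕ) :
    Cfsg.Agent.Helper38.kdim N k + (N ^ k).rank = n := by
  unfold Cfsg.Agent.Helper38.kdim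
  have h := LinearMap.finrank_range_add_finrank_ker (Matrix.toLin' (N ^ k))
  rw [finrank_fin_fun, Matrix.toLin'_pow] at h
  have h2 : (N ^ k).rank = finrank F (LinearMap.range ((Matrix.toLin' N) ^ k)) := by
    rw [← Matrix.toLin'_pow]
    rfl
  omega

/-- a nilpotent matrix is conjugate to a matrix with entries in any subfield -/
theorem sg_nil_conj_rat {n : ℕ} (F₀ : Subfield F) (N : Matrix (Fin n) (Fin n) F)
    (hN : IsNilpotent N) :
    ∃ (P : GL (Fin n) F) (M : Matrix (Fin n) (Fin n) F),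
      M ∈ Cfsg.Agent.Helper97.SF.ratMat F₀ n ∧ P.val * N = M * P.val := by
  obtain ⟨μ, hpos, hsum, hk⟩ := Cfsg.Agent.Helper38.exists_multiset_kdim N hN
  obtain ⟨M₀, hM₀, hk₀⟩ :=
    Cfsg.Agent.Helper38.exists_nilpotent_of_multiset (F := F₀) n μ hsum
  have hMnil : IsNilpotent (M₀.map F₀.subtype) := by
    obtain ⟨j, hj⟩ := hM₀
    refine ⟨j, ?_⟩
    rw [← RingHom.mapMatrix_apply, ← map_pow, hj, map_zero]
  have hkd : ∀ k, Cfsg.Agent.Helper38.kdim N k =
      Cfsg.Agent.Helper38.kdim (M₀.map F₀.subtype) k := by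
    intro k
    have h1 := sg_kdim_rank N k
    have h2 := sg_kdim_rank (M₀.map F₀.subtype) k
    have h3 := sg_kdim_rank M₀ k
    have h4 : ((M₀.map F₀.subtype) ^ k).rank = (M₀ ^ k).rank := by
      rw [← RingHom.mapMatrix_apply, ← map_pow, RingHom.mapMatrix_apply,
        Cfsg.Agent.Helper81.rob_rank_map]
    have h5 := hk k
    have h6 := hk₀ k
    omega
  obtain ⟨P, hP⟩ := Cfsg.Agent.Helper38.exists_conj_of_kdim N (M₀.map F₀.subtype) hN hMnil hkd
  refine ⟨P, M₀.map F₀.subtype, ?_, hP⟩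
  intro i j
  rw [Matrix.map_apply]
  exact (M₀ i j).2

/-- refined transfer for the subfield subgroup -/
theorem sg_transfer {n : ℕ} (hn : 1 ≤ n) (F₀ : Subfield F)
    (x : Matrix.SpecialLinearGroup (Fin n) F)
    (B : Matrix (Fin n) (Fin n) F) (c : F) (hc : c ≠ 0)
    (hB : c • B ∈ Cfsg.Agent.Helper97.SF.ratMat F₀ n)
    (R : Matrix (Fin n) (Fin n) F) (hR : R * x.val = B * R)
    (a : F) (haF : a ∈ F₀) (ha0 : a ≠ 0) (hdet : a * R.det = 1) :
    ∃ Q : Matrix.SpecialLinearGroup (Fin n) F, Q⁻¹ * x * Q ∈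
      (subfieldSubgroup F₀ (1 : GL (Fin n) F)).comap (Matrix.SpecialLinearGroup.toGL :
        Matrix.SpecialLinearGroup (Fin n) F →* GL (Fin n) F) := by
  classical
  obtain ⟨i₀⟩ : Nonempty (Fin n) := ⟨⟨0, by omega⟩⟩
  obtain ⟨A, hA⟩ : ∃ A : Matrix (Fin n) (Fin n) F,
      A = Matrix.diagonal (Function.update (fun _ => (1 : F)) i₀ a) := ⟨_, rfl⟩
  obtain ⟨A', hA'⟩ : ∃ A' : Matrix (Fin n) (Fin n) F,
      A' = Matrix.diagonal (Function.update (fun _ => (1 : F)) i₀ a⁻¹) := ⟨_, rfl⟩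
  have hA'A : A' * A = 1 := by
    rw [hA, hA', Matrix.diagonal_mul_diagonal, ← Matrix.diagonal_one]
    congr 1
    funext i
    by_cases h : i = i₀
    · subst h
      rw [Function.update_self, Function.update_self, inv_mul_cancel₀ ha0]
    · rw [Function.update_of_ne h, Function.update_of_ne h, one_mul]
  have hAdet : A.det = a := by
    rw [hA, Matrix.det_diagonal, Finset.prod_update_of_mem (Finset.mem_univ _),
      Finset.prod_const_one, mul_one]
  have hArat : A ∈ Cfsg.Agent.Helper97.SF.ratMat F₀ n := by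
    intro i j
    rw [hA, Matrix.diagonal_apply]
    split_ifs with h
    · by_cases h' : i = i₀
      · subst h'
        rw [Function.update_self]
        exact haF
      · rw [Function.update_of_ne h']
        exact one_mem _
    · exact zero_mem _
  have hA'rat : A' ∈ Cfsg.Agent.Helper97.SF.ratMat F₀ n := by
    intro i j
    rw [hA', Matrix.diagonal_apply]
    split_ifs with h
    · by_cases h' : i = i₀
      · subst h'
        rw [Function.update_self]
        exact inv_mem haF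
      · rw [Function.update_of_ne h']
        exact one_mem _
    · exact zero_mem _
  obtain ⟨Y, hY⟩ : ∃ Y : Matrix (Fin n) (Fin n) F, Y = A * R := ⟨_, rfl⟩
  have hYdet : Y.det = 1 := by
    rw [hY, Matrix.det_mul, hAdet, hdet]
  have hYx : Y * x.val = (A * B * A') * Y := by
    rw [hY]
    calc A * R * x.val = A * (R * x.val) := by rw [Matrix.mul_assoc]
      _ = A * B * ((A' * A) * R) := by rw [hR, hA'A, Matrix.one_mul, Matrix.mul_assoc]
      _ = A * B * A' * (A * R) := by simp only [Matrix.mul_assoc]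
  obtain ⟨Ys, hYs⟩ : ∃ Ys : Matrix.SpecialLinearGroup (Fin n) F, Ys.val = Y := ⟨⟨Y, hYdet⟩, rfl⟩
  refine ⟨Ys⁻¹, ?_⟩
  rw [Subgroup.mem_comap, Cfsg.Agent.Helper97.SF.mem_subfieldSubgroup_one]
  refine ⟨c, hc, ?_⟩
  simp only [SpecialLinearGroup.coe_GL_coe_matrix]
  have h2 : Y * (Ys⁻¹).val = 1 := by
    rw [← hYs, ← Matrix.SpecialLinearGroup.coe_mul, mul_inv_cancel,
      Matrix.SpecialLinearGroup.coe_one]
  have h1 : ((Ys⁻¹⁻¹ * x * Ys⁻¹ : Matrix.SpecialLinearGroup (Fin n) F) :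
      Matrix (Fin n) (Fin n) F) = A * B * A' := by
    rw [inv_inv, Matrix.SpecialLinearGroup.coe_mul, Matrix.SpecialLinearGroup.coe_mul, hYs, hYx,
      Matrix.mul_assoc, h2, Matrix.mul_one]
  rw [h1]
  have h3 : c • (A * B * A') = A * (c • B) * A' := by
    rw [Matrix.mul_smul, Matrix.smul_mul]
  rw [h3]
  exact (Cfsg.Agent.Helper97.SF.ratMat F₀ n).mul_mem
    ((Cfsg.Agent.Helper97.SF.ratMat F₀ n).mul_mem hArat hB) hA'rat

/-- centralising elements from an invariant decomposition -/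
theorem sg_decomp_cent {n : ℕ} (N : Matrix (Fin n) (Fin n) F) (X Y : Submodule F (Fin n → F))
    (hXY : IsCompl X Y) (hX : ∀ v ∈ X, N *ᵥ v ∈ X) (hY : ∀ v ∈ Y, N *ᵥ v ∈ Y) (δ : F) :
    ∃ C : Matrix (Fin n) (Fin n) F, C * N = N * C ∧ C.det = δ ^ (finrank F X) := by
  classical
  obtain ⟨e, he⟩ : ∃ e : (X × Y) ≃ₗ[F] (Fin n → F), e = Submodule.prodEquivOfIsCompl X Y hXY :=
    ⟨_, rfl⟩
  obtain ⟨g, hg⟩ : ∃ g : (X × Y) →ₗ[F] (X × Y),
      g = LinearMap.prodMap (δ • LinearMap.id) LinearMap.id := ⟨_, rfl⟩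
  obtain ⟨f, hf⟩ : ∃ f : (Fin n → F) →ₗ[F] (Fin n → F),
      f = e.toLinearMap ∘ₗ g ∘ₗ e.symm.toLinearMap := ⟨_, rfl⟩
  have hee : ∀ a b, e (a, b) = (a : Fin n → F) + (b : Fin n → F) := by
    intro a b
    rw [he]
    exact Submodule.coe_prodEquivOfIsCompl' X Y hXY (a, b)
  have hfe : ∀ a b, f (e (a, b)) = δ • (a : Fin n → F) + (b : Fin n → F) := by
    intro a b
    rw [hf, LinearMap.comp_apply, LinearMap.comp_apply, LinearEquiv.coe_coe, LinearEquiv.coe_coe,
      LinearEquiv.symm_apply_apply, hg, LinearMap.prodMap_apply, hee]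
    rfl
  refine ⟨LinearMap.toMatrix' f, ?_, ?_⟩
  · apply pgl_eq_of_mulVec
    intro v
    rw [← Matrix.mulVec_mulVec, ← Matrix.mulVec_mulVec, LinearMap.toMatrix'_mulVec,
      LinearMap.toMatrix'_mulVec]
    obtain ⟨⟨a, b⟩, rfl⟩ := e.surjective v
    have hN : N *ᵥ e (a, b) = e (⟨N *ᵥ (a : Fin n → F), hX a a.2⟩,
        ⟨N *ᵥ (b : Fin n → F), hY b b.2⟩) := by
      rw [hee, hee, Matrix.mulVec_add]
    rw [hN, hfe, hfe, Matrix.mulVec_add, Matrix.mulVec_smul]
  · rw [LinearMap.det_toMatrix', hf, LinearMap.det_conj, hg, LinearMap.det_prodMap,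
      LinearMap.det_smul, LinearMap.det_id, LinearMap.det_id, mul_one, mul_one]

end Cfsg.Agent.Helper37
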