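import Mathlib
import Cfsg.Agent.Helper37.Sg1

set_option autoImplicit false

namespace Cfsg.Agent.Helper37

open Matrix Module Cfsg.Geo

universe u

variable {F : Type u} [Field F]

/-- cube roots in characteristic three -/
theorem sg_cube [Fintype F] [CharP F 3] (z : F) : ∃ c : F, c ^ 3 = z := by
  haveI : Fact (Nat.Prime 3) := ⟨Nat.prime_three⟩
  have hinj : Function.Injective (frobenius F 3) := frobenius_inj F 3
  obtain ⟨c, hc⟩ := (Finite.surjective_of_injective hinj) z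
  exact ⟨c, hc⟩

/-- odd degree extensions: every nonzero element is a subfield element times a square -/
theorem sg_nonsq [Fintype F] (h2 : (2 : F) ≠ 0) (F₀ : Subfield F) (q₀ k : ℕ)
    (hF₀ : Nat.card F₀ = q₀) (hq : Fintype.card F = q₀ ^ k) (hk : Odd k) (δ : F) (hδ : δ ≠ 0) :
    ∃ a ∈ F₀, a ≠ 0 ∧ ∃ ρ : F, a * (ρ * ρ) = δ := by
  classical
  have hchar := sq_ringChar_ne h2
  by_cases hsq : IsSquare δ
  · obtain ⟨ρ, hρ⟩ := hsq
    exact ⟨1, one_mem _, one_ne_zero, ρ, by rw [one_mul, hρ]⟩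
  · letI : Fintype ↥F₀ := Fintype.ofFinite _
    have hc0 : Fintype.card ↥F₀ = q₀ := by rw [← Nat.card_eq_fintype_card, hF₀]
    have h20 : (2 : F₀) ≠ 0 := by
      intro h
      apply h2
      have h' : ((2 : F₀) : F) = ((0 : F₀) : F) := congrArg (Subtype.val) h
      push_cast at h'
      exact h'
    have hchar0 : ringChar F₀ ≠ 2 := sq_ringChar_ne h20
    obtain ⟨a₀, ha₀⟩ := FiniteField.exists_nonsquare hchar0
    have ha₀0 : a₀ ≠ 0 := by
      rintro rfl
      exact ha₀ ⟨0, by rw [mul_zero]⟩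
    have h1 : a₀ ^ (Fintype.card F₀ / 2) = -1 := by
      rcases FiniteField.pow_dichotomy hchar0 ha₀0 with h | h
      · exact absurd ((FiniteField.isSquare_iff hchar0 ha₀0).mpr h) ha₀
      · exact h
    have hodd0 : Fintype.card F₀ % 2 = 1 := FiniteField.odd_card_of_char_ne_two hchar0
    have hodd : Fintype.card F % 2 = 1 := FiniteField.odd_card_of_char_ne_two hchar
    rw [hc0] at hodd0
    obtain ⟨ρ, hρodd, hρ⟩ := sf_geom k q₀ 1 hk (by omega : 1 ≤ q₀) (Nat.odd_iff.mpr hodd0) odd_one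
    rw [one_pow] at hρ
    have h3 : Fintype.card F / 2 = (q₀ / 2) * ρ := by
      rw [hq]
      obtain ⟨b, hb⟩ : ∃ b, q₀ = 2 * b + 1 := ⟨q₀ / 2, by omega⟩
      have h4 : q₀ ^ k = 2 * (b * ρ) + 1 := by
        have h5 : 1 ≤ q₀ ^ k := Nat.one_le_pow _ _ (by omega)
        have h6 : q₀ - 1 = 2 * b := by omega
        rw [h6] at hρ
        have h7 : q₀ ^ k = 2 * b * ρ + 1 := by omega
        rw [h7]
        ring
      rw [h4, hb]
      have h8 : (2 * b + 1) / 2 = b := by omega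
      rw [h8]
      omega
    have h7 : (a₀ : F) ^ (Fintype.card F / 2) = -1 := by
      rw [h3, pow_mul]
      have h8 : (a₀ : F) ^ (q₀ / 2) = -1 := by
        have h9 := congrArg Subtype.val h1
        rw [hc0] at h9
        simpa using h9
      rw [h8, hρodd.neg_one_pow]
    have hδ1 : δ ^ (Fintype.card F / 2) = -1 := by
      rcases FiniteField.pow_dichotomy hchar hδ with h | h
      · exact absurd ((FiniteField.isSquare_iff hchar hδ).mpr h) hsq
      · exact h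
    have ha₀F : (a₀ : F) ≠ 0 := by
      intro h
      exact ha₀0 (Subtype.ext h)
    have h9 : IsSquare (δ * (a₀ : F)) := by
      rw [FiniteField.isSquare_iff hchar (mul_ne_zero hδ ha₀F), mul_pow, hδ1, h7]
      ring
    obtain ⟨ρ', hρ'⟩ := h9
    refine ⟨(a₀ : F)⁻¹, inv_mem a₀.2, inv_ne_zero ha₀F, ρ', ?_⟩
    rw [← hρ']
    field_simp

/-- `N² ≠ 0`, `N³ = 0` in characteristic three -/
theorem sg_caseA [Fintype F] [CharP F 3] {n : ℕ} (hn : 1 ≤ n) (F₀ : Subfield F)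
    (x : Matrix.SpecialLinearGroup (Fin n) F) (c : F) (hc : c ≠ 0)
    (N : Matrix (Fin n) (Fin n) F) (hxN : x.val = c • (1 + N)) (hN3 : N ^ 3 = 0)
    (hN2 : N ^ 2 ≠ 0) :
    ∃ Q : Matrix.SpecialLinearGroup (Fin n) F, Q⁻¹ * x * Q ∈
      (subfieldSubgroup F₀ (1 : GL (Fin n) F)).comap (Matrix.SpecialLinearGroup.toGL :
        Matrix.SpecialLinearGroup (Fin n) F →* GL (Fin n) F) := by
  classical
  obtain ⟨P, M, hM, hP⟩ := sg_nil_conj_rat F₀ N ⟨3, hN3⟩
  have hPdet := sq_gl_det_ne P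
  obtain ⟨T, hT⟩ : ∃ T : Module.End F (Fin n → F), T = Matrix.toLin' N := ⟨_, rfl⟩
  have hT3 : T ^ (2 + 1) = 0 := by
    rw [hT, ← Matrix.toLin'_pow, hN3, map_zero]
  have hTv : ∀ v, T v = N *ᵥ v := by
    intro v
    rw [hT, Matrix.toLin'_apply]
  obtain ⟨v, hv⟩ : ∃ v, (T ^ 2) v ≠ 0 := by
    by_contra hcon
    push Not at hcon
    apply hN2
    apply Matrix.toLin'.injective
    rw [Matrix.toLin'_pow, ← hT, map_zero]
    exact LinearMap.ext hcon
  obtain ⟨W, hcompl, hW⟩ := Cfsg.Agent.Helper38.exists_compl_cyclic T 2 hT3 v hv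
  have hXinv := Cfsg.Agent.Helper38.cyclic_span_invariant T 2 hT3 v
  have hfr : finrank F (Submodule.span F (Set.range (fun i : Fin (2 + 1) => (T ^ i.val) v))) = 3 := by
    rw [finrank_span_eq_card (Cfsg.Agent.Helper38.cyclic_linearIndependent T 2 hT3 v hv),
      Fintype.card_fin]
  obtain ⟨ρ, hρ⟩ := sg_cube ((P.val.det)⁻¹)
  obtain ⟨C, hCN, hCdet⟩ := sg_decomp_cent N _ W hcompl
    (fun w hw => by rw [← hTv]; exact hXinv w hw) (fun w hw => by rw [← hTv]; exact hW w hw) ρ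
  rw [hfr, hρ] at hCdet
  refine sg_transfer hn F₀ x (c • (1 + M)) c⁻¹ (inv_ne_zero hc) ?_ (P.val * C) ?_ 1 (one_mem _)
    one_ne_zero ?_
  · rw [smul_smul, inv_mul_cancel₀ hc, one_smul]
    exact (Cfsg.Agent.Helper97.SF.ratMat F₀ n).add_mem
      (Cfsg.Agent.Helper97.SF.ratMat F₀ n).one_mem hM
  · rw [hxN, Matrix.mul_smul, Matrix.smul_mul, mul_add, add_mul, Matrix.mul_one, Matrix.one_mul,
      Matrix.mul_assoc, hCN, ← Matrix.mul_assoc, hP, Matrix.mul_assoc]
  · rw [one_mul, Matrix.det_mul, hCdet, mul_inv_cancel₀ hPdet]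

end Cfsg.Agent.Helper37
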