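import Mathlib
import Cfsg.Agent.Helper37.Sg2
import Cfsg.Agent.Helper37.Sf2

set_option autoImplicit false

namespace Cfsg.Agent.Helper37

open Matrix Module Cfsg.Geo

universe u

variable {F : Type u} [Field F]

/-- `N² = 0` in odd characteristic -/
theorem sg_caseB [Fintype F] (h2 : (2 : F) ≠ 0) {n : ℕ} (hn : 1 ≤ n) (F₀ : Subfield F)
    (q₀ k : ℕ) (hF₀ : Nat.card F₀ = q₀) (hq : Fintype.card F = q₀ ^ k) (hcond : Odd n ∨ Odd k)
    (x : Matrix.SpecialLinearGroup (Fin n) F) (c : F) (hc : c ≠ 0)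
    (N : Matrix (Fin n) (Fin n) F) (hxN : x.val = c • (1 + N)) (hN : N * N = 0) :
    ∃ Q : Matrix.SpecialLinearGroup (Fin n) F, Q⁻¹ * x * Q ∈
      (subfieldSubgroup F₀ (1 : GL (Fin n) F)).comap (Matrix.SpecialLinearGroup.toGL :
        Matrix.SpecialLinearGroup (Fin n) F →* GL (Fin n) F) := by
  classical
  obtain ⟨r, hr⟩ : ∃ r, r = N.rank := ⟨_, rfl⟩
  have hrn : 2 * r ≤ n := by
    have := sqz_rank_le N hN
    omega
  obtain ⟨l, hl⟩ : ∃ l, n = 2 * r + l := ⟨n - 2 * r, by omega⟩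
  have hcard : Fintype.card ((Fin r ⊕ Fin r) ⊕ Fin l) = n := by
    simp only [Fintype.card_sum, Fintype.card_fin]
    omega
  obtain ⟨e⟩ : Nonempty (((Fin r ⊕ Fin r) ⊕ Fin l) ≃ Fin n) := ⟨Fintype.equivFinOfCardEq hcard⟩
  obtain ⟨N₂, hN₂⟩ : ∃ N₂ : Matrix (Fin r ⊕ Fin r) (Fin r ⊕ Fin r) F,
      N₂ = Matrix.fromBlocks 0 1 0 0 := ⟨_, rfl⟩
  obtain ⟨Nι, hNι⟩ : ∃ Nι : Matrix ((Fin r ⊕ Fin r) ⊕ Fin l) ((Fin r ⊕ Fin r) ⊕ Fin l) F,
      Nι = Matrix.fromBlocks N₂ 0 0 0 := ⟨_, rfl⟩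
  have hN₂N₂ : N₂ * N₂ = 0 := by
    rw [hN₂, Matrix.fromBlocks_multiply]
    simp
  have hNN : Nι * Nι = 0 := by
    rw [hNι, Matrix.fromBlocks_multiply, hN₂N₂]
    simp
  have hrank : Nι.rank = r := by
    obtain ⟨S₂, hS₂⟩ : ∃ S₂ : Matrix (Fin r ⊕ Fin r) (Fin r ⊕ Fin r) F,
        S₂ = Matrix.fromBlocks 0 1 1 0 := ⟨_, rfl⟩
    obtain ⟨S, hS⟩ : ∃ S : Matrix ((Fin r ⊕ Fin r) ⊕ Fin l) ((Fin r ⊕ Fin r) ⊕ Fin l) F,
        S = Matrix.fromBlocks S₂ 0 0 1 := ⟨_, rfl⟩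
    have hS₂S₂ : S₂ * S₂ = 1 := by
      rw [hS₂, Matrix.fromBlocks_multiply, ← Matrix.fromBlocks_one]
      simp
    have h1 : Nι = Matrix.diagonal (Sum.elim (Sum.elim (fun _ : Fin r => (1 : F))
        (fun _ : Fin r => (0 : F))) (fun _ : Fin l => (0 : F))) * S := by
      rw [← Matrix.fromBlocks_diagonal, ← Matrix.fromBlocks_diagonal, hS, hNι, hN₂, hS₂,
        Matrix.fromBlocks_multiply, Matrix.fromBlocks_multiply]
      simp
    have h3 : IsUnit S.det := by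
      have h4 : S * S = 1 := by
        rw [hS, Matrix.fromBlocks_multiply, hS₂S₂, ← Matrix.fromBlocks_one]
        simp
      have h5 := congrArg Matrix.det h4
      rw [Matrix.det_mul, Matrix.det_one] at h5
      exact IsUnit.of_mul_eq_one _ h5
    rw [h1, Matrix.rank_mul_eq_left_of_isUnit_det _ _ h3, Matrix.rank_diagonal,
      Fintype.card_subtype, Finset.card_filter, Fintype.sum_sum_type, Fintype.sum_sum_type]
    simp
  obtain ⟨Ns, hNs⟩ : ∃ Ns : Matrix (Fin n) (Fin n) F, Ns = Matrix.reindex e e Nι := ⟨_, rfl⟩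
  have hNsNs : Ns * Ns = 0 := by
    rw [hNs, sf_reindex_mul, hNN]
    simp
  have hNsrank : Ns.rank = r := by
    rw [hNs, Matrix.rank_reindex, hrank]
  obtain ⟨P, hP⟩ := sqz_conj N Ns hN hNsNs (by rw [hNsrank, hr])
  have hPdet := sq_gl_det_ne P
  have hent : ∀ a b, Nι a b ∈ F₀ := by
    intro a b
    rw [hNι, hN₂]
    rcases a with (a | a) | a <;> rcases b with (b | b) | b <;>
      simp only [Matrix.fromBlocks_apply₁₁, Matrix.fromBlocks_apply₁₂, Matrix.fromBlocks_apply₂₁,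
        Matrix.fromBlocks_apply₂₂, Matrix.zero_apply, Matrix.one_apply] <;>
      first
        | exact zero_mem _
        | (split_ifs
           · exact one_mem _
           · exact zero_mem _)
  have hBrat : c⁻¹ • (c • (1 + Ns)) ∈ Cfsg.Agent.Helper97.SF.ratMat F₀ n := by
    rw [smul_smul, inv_mul_cancel₀ hc, one_smul]
    intro i j
    rw [Matrix.add_apply, hNs, Matrix.reindex_apply, Matrix.submatrix_apply, Matrix.one_apply]
    refine add_mem ?_ (hent _ _)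
    split_ifs
    · exact one_mem _
    · exact zero_mem _
  have hgen : ∀ (Cι : Matrix ((Fin r ⊕ Fin r) ⊕ Fin l) ((Fin r ⊕ Fin r) ⊕ Fin l) F) (a : F),
      Cι * Nι = Nι * Cι → a ∈ F₀ → a ≠ 0 → a * Cι.det = (P.val.det)⁻¹ →
      ∃ Q : Matrix.SpecialLinearGroup (Fin n) F, Q⁻¹ * x * Q ∈
        (subfieldSubgroup F₀ (1 : GL (Fin n) F)).comap (Matrix.SpecialLinearGroup.toGL :
          Matrix.SpecialLinearGroup (Fin n) F →* GL (Fin n) F) := by
    intro Cι a hcomm haF ha0 hdet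
    have h1 : Matrix.reindex e e Cι * Ns = Ns * Matrix.reindex e e Cι := by
      rw [hNs, sf_reindex_mul, sf_reindex_mul, hcomm]
    refine sg_transfer hn F₀ x (c • (1 + Ns)) c⁻¹ (inv_ne_zero hc) hBrat
      (Matrix.reindex e e Cι * P.val) ?_ a haF ha0 ?_
    · rw [hxN, Matrix.mul_smul, Matrix.smul_mul, mul_add, add_mul, Matrix.mul_one, Matrix.one_mul,
        Matrix.mul_assoc, hP, ← Matrix.mul_assoc, h1, Matrix.mul_assoc]
    · rw [Matrix.det_mul, Matrix.det_reindex_self, ← mul_assoc, hdet, inv_mul_cancel₀ hPdet]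
  by_cases hl0 : l = 0
  · have hkodd : Odd k := by
      rcases hcond with h | h
      · exfalso
        rw [hl, hl0, add_zero] at h
        exact (Nat.not_odd_iff_even.mpr (even_two_mul r)) h
      · exact h
    obtain ⟨a, haF, ha0, ρ, hρ⟩ := sg_nonsq h2 F₀ q₀ k hF₀ hq hkodd (P.val.det)⁻¹
      (inv_ne_zero hPdet)
    obtain ⟨i₀⟩ : Nonempty (Fin r) := ⟨⟨0, by omega⟩⟩
    obtain ⟨dρ, hdρ⟩ : ∃ dρ : Fin r → F, dρ = fun i => if i = i₀ then ρ else 1 := ⟨_, rfl⟩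
    have hdet : (Matrix.diagonal dρ).det = ρ := by
      rw [Matrix.det_diagonal, hdρ, Finset.prod_ite_eq' Finset.univ i₀]
      simp
    apply hgen (Matrix.fromBlocks (Matrix.fromBlocks (Matrix.diagonal dρ) 0 0
      (Matrix.diagonal dρ)) 0 0 1) a ?_ haF ha0 ?_
    · rw [hNι, hN₂, Matrix.fromBlocks_multiply, Matrix.fromBlocks_multiply,
        Matrix.fromBlocks_multiply, Matrix.fromBlocks_multiply]
      simp
    · rw [Matrix.det_fromBlocks_zero₁₂, Matrix.det_fromBlocks_zero₁₂, hdet, Matrix.det_one,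
        mul_one, hρ]
  · obtain ⟨j₀⟩ : Nonempty (Fin l) := ⟨⟨0, by omega⟩⟩
    obtain ⟨dδ, hdδ⟩ : ∃ dδ : Fin l → F, dδ = fun i => if i = j₀ then (P.val.det)⁻¹ else 1 :=
      ⟨_, rfl⟩
    have hdet : (Matrix.diagonal dδ).det = (P.val.det)⁻¹ := by
      rw [Matrix.det_diagonal, hdδ, Finset.prod_ite_eq' Finset.univ j₀]
      simp
    apply hgen (Matrix.fromBlocks 1 0 0 (Matrix.diagonal dδ)) 1 ?_ (one_mem _) one_ne_zero ?_
    · rw [hNι, Matrix.fromBlocks_multiply, Matrix.fromBlocks_multiply]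
      simp
    · rw [Matrix.det_fromBlocks_zero₁₂, hdet, Matrix.det_one, one_mul, one_mul]

/-- characteristic three: elements with scalar cube are conjugate into the subfield subgroup -/
theorem sg_fwd [Fintype F] [CharP F 3] {n : ℕ} (hn : 1 ≤ n) (F₀ : Subfield F) (q₀ k : ℕ)
    (hF₀ : Nat.card F₀ = q₀) (hq : Fintype.card F = q₀ ^ k) (hcond : Odd n ∨ Odd k)
    (x : Matrix.SpecialLinearGroup (Fin n) F) (z : F)
    (hx : x.val ^ 3 = z • (1 : Matrix (Fin n) (Fin n) F)) :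
    ∃ Q : Matrix.SpecialLinearGroup (Fin n) F, Q⁻¹ * x * Q ∈
      (subfieldSubgroup F₀ (1 : GL (Fin n) F)).comap (Matrix.SpecialLinearGroup.toGL :
        Matrix.SpecialLinearGroup (Fin n) F →* GL (Fin n) F) := by
  classical
  haveI : Fact (Nat.Prime 3) := ⟨Nat.prime_three⟩
  have h3 : (3 : F) = 0 := by exact_mod_cast CharP.cast_eq_zero F 3
  have h2 : (2 : F) ≠ 0 := by
    intro h
    have h1 : (1 : F) = 0 := by linear_combination h3 - h
    exact one_ne_zero h1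
  obtain ⟨c, hc⟩ := sg_cube z
  have hc0 : c ≠ 0 := by
    rintro rfl
    have h1 := congrArg Matrix.det hx
    rw [Matrix.det_pow, x.2, one_pow, ← hc] at h1
    haveI : Nonempty (Fin n) := ⟨⟨0, by omega⟩⟩
    simp at h1
  obtain ⟨N, hNdef⟩ : ∃ N : Matrix (Fin n) (Fin n) F, N = c⁻¹ • x.val - 1 := ⟨_, rfl⟩
  have hN3 : N ^ 3 = 0 := by
    have h1 := Cfsg.Agent.Helper38.sub_one_pow_char_pow 3 (c⁻¹ • x.val) 1
    rw [pow_one] at h1
    rw [hNdef, h1, smul_pow, hx, smul_smul, ← hc, ← mul_pow, inv_mul_cancel₀ hc0, one_pow,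
      one_smul, sub_self]
  have hxN : x.val = c • (1 + N) := by
    rw [hNdef, add_sub_cancel, smul_smul, mul_inv_cancel₀ hc0, one_smul]
  by_cases hN2 : N ^ 2 = 0
  · exact sg_caseB h2 hn F₀ q₀ k hF₀ hq hcond x c hc0 N hxN (by rw [← pow_two]; exact hN2)
  · exact sg_caseA hn F₀ x c hc0 N hxN hN3 hN2

end Cfsg.Agent.Helper37
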