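import Mathlib
import Cfsg.Agent.Helper37.Sg3

set_option autoImplicit false

namespace Cfsg.Agent.Helper37

open Matrix Module Cfsg.Geo

universe u

variable {F : Type u} [Field F]

/-- the centraliser of the standard square-zero matrix has square determinants -/
theorem sg_cent_sq (m : ℕ) (C : Matrix (Fin m ⊕ Fin m) (Fin m ⊕ Fin m) F)
    (hC : C * Matrix.fromBlocks (0 : Matrix (Fin m) (Fin m) F) (1 : Matrix (Fin m) (Fin m) F)
        (0 : Matrix (Fin m) (Fin m) F) (0 : Matrix (Fin m) (Fin m) F) =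
      Matrix.fromBlocks (0 : Matrix (Fin m) (Fin m) F) (1 : Matrix (Fin m) (Fin m) F)
        (0 : Matrix (Fin m) (Fin m) F) (0 : Matrix (Fin m) (Fin m) F) * C) : IsSquare C.det := by
  rw [← Matrix.fromBlocks_toBlocks C] at hC ⊢
  rw [Matrix.fromBlocks_multiply, Matrix.fromBlocks_multiply] at hC
  simp only [Matrix.mul_zero, Matrix.mul_one, Matrix.zero_mul, Matrix.one_mul, add_zero,
    zero_add] at hC
  rw [Matrix.fromBlocks_inj] at hC
  obtain ⟨h1, h2, -, h4⟩ := hC
  rw [h4, Matrix.det_fromBlocks_zero₂₁, h2]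
  exact ⟨_, rfl⟩

/-- the element of order three with no conjugate in the subfield subgroup of index two -/
theorem sg_bad [Fintype F] [CharP F 3] (F₀ : Subfield F) (q₀ : ℕ) (hF₀ : Nat.card F₀ = q₀)
    (hq : Fintype.card F = q₀ ^ 2) (m : ℕ) (hm : 1 ≤ m) :
    ∃ x : Matrix.SpecialLinearGroup (Fin (2 * m)) F,
      x.val ^ 3 = 1 ∧
      (∀ z : F, x.val ≠ z • (1 : Matrix (Fin (2 * m)) (Fin (2 * m)) F)) ∧
      ∀ P : Matrix.SpecialLinearGroup (Fin (2 * m)) F, P⁻¹ * x * P ∉
        (subfieldSubgroup F₀ (1 : GL (Fin (2 * m)) F)).comap (Matrix.SpecialLinearGroup.toGL :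
          Matrix.SpecialLinearGroup (Fin (2 * m)) F →* GL (Fin (2 * m)) F) := by
  classical
  haveI : Fact (Nat.Prime 3) := ⟨Nat.prime_three⟩
  have h3 : (3 : F) = 0 := by exact_mod_cast CharP.cast_eq_zero F 3
  have h2 : (2 : F) ≠ 0 := by
    intro h
    have h1 : (1 : F) = 0 := by linear_combination h3 - h
    exact one_ne_zero h1
  have hchar := sq_ringChar_ne h2
  obtain ⟨ε, hε⟩ := FiniteField.exists_nonsquare (F := F) hchar
  have hε0 : ε ≠ 0 := by
    rintro rfl
    exact hε ⟨0, by rw [mul_zero]⟩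
  obtain ⟨N₀, hN₀⟩ : ∃ N₀ : Matrix (Fin (2 * m)) (Fin (2 * m)) F₀,
      N₀ = Matrix.reindex (sqPar m) (sqPar m)
        (Matrix.fromBlocks (0 : Matrix (Fin m) (Fin m) F₀) (1 : Matrix (Fin m) (Fin m) F₀)
          (0 : Matrix (Fin m) (Fin m) F₀) (0 : Matrix (Fin m) (Fin m) F₀)) := ⟨_, rfl⟩
  obtain ⟨Ns, hNs⟩ : ∃ Ns : Matrix (Fin (2 * m)) (Fin (2 * m)) F,
      Ns = Matrix.reindex (sqPar m) (sqPar m)
        (Matrix.fromBlocks (0 : Matrix (Fin m) (Fin m) F) (1 : Matrix (Fin m) (Fin m) F)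
          (0 : Matrix (Fin m) (Fin m) F) (0 : Matrix (Fin m) (Fin m) F)) := ⟨_, rfl⟩
  have hmap : N₀.map F₀.subtype = Ns := by
    rw [hN₀, hNs, Matrix.reindex_apply, Matrix.reindex_apply, ← Matrix.submatrix_map,
      Matrix.fromBlocks_map]
    simp
  have hNsNs : Ns * Ns = 0 := by
    rw [hNs, sq_reindex_mul, Matrix.fromBlocks_multiply]
    simp
  have hN₀N₀ : N₀ * N₀ = 0 := by
    rw [hN₀, sq_reindex_mul, Matrix.fromBlocks_multiply]
    simp
  obtain ⟨j₀⟩ : Nonempty (Fin m) := ⟨⟨0, by omega⟩⟩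
  obtain ⟨i₀⟩ : Nonempty (Fin (2 * m)) := ⟨⟨0, by omega⟩⟩
  have hNsent : Ns (sqPar m (Sum.inl j₀)) (sqPar m (Sum.inr j₀)) = 1 := by
    rw [hNs, Matrix.reindex_apply, Matrix.submatrix_apply, Equiv.symm_apply_apply,
      Equiv.symm_apply_apply, Matrix.fromBlocks_apply₁₂, Matrix.one_apply_eq]
  have hne : sqPar m (Sum.inl j₀) ≠ sqPar m (Sum.inr j₀) := by
    intro h
    have h1 := (sqPar m).injective h
    exact Sum.inl_ne_inr h1
  obtain ⟨g, hg⟩ : ∃ g : Matrix (Fin (2 * m)) (Fin (2 * m)) F,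
      g = Matrix.diagonal (Function.update (fun _ => (1 : F)) i₀ ε) := ⟨_, rfl⟩
  obtain ⟨g', hg'⟩ : ∃ g' : Matrix (Fin (2 * m)) (Fin (2 * m)) F,
      g' = Matrix.diagonal (Function.update (fun _ => (1 : F)) i₀ ε⁻¹) := ⟨_, rfl⟩
  have hg'g : g' * g = 1 := by
    rw [hg, hg', Matrix.diagonal_mul_diagonal, ← Matrix.diagonal_one]
    congr 1
    funext i
    by_cases h : i = i₀
    · subst h
      rw [Function.update_self, Function.update_self, inv_mul_cancel₀ hε0]
    · rw [Function.update_of_ne h, Function.update_of_ne h, one_mul]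
  have hgg' : g * g' = 1 := mul_eq_one_comm.mp hg'g
  have hgdet : g.det = ε := by
    rw [hg, Matrix.det_diagonal, Finset.prod_update_of_mem (Finset.mem_univ _),
      Finset.prod_const_one, mul_one]
  have hg'det : g'.det = ε⁻¹ := by
    rw [hg', Matrix.det_diagonal, Finset.prod_update_of_mem (Finset.mem_univ _),
      Finset.prod_const_one, mul_one]
  have hcube : (1 + Ns) ^ 3 = 1 := by
    have h1 := Cfsg.Agent.Helper38.sub_one_pow_char_pow 3 (1 + Ns) 1
    rw [pow_one, add_sub_cancel_left, pow_succ, pow_two, hNsNs, zero_mul] at h1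
    exact (sub_eq_zero.mp h1.symm)
  have hdet1 : (1 + Ns).det = 1 := by
    have hd := congrArg Matrix.det hcube
    rw [Matrix.det_pow, Matrix.det_one] at hd
    apply frobenius_inj F 3
    rw [frobenius_def, frobenius_def, hd, one_pow]
  have hxdet : (g * (1 + Ns) * g').det = 1 := by
    rw [Matrix.det_mul, Matrix.det_mul, hgdet, hg'det, hdet1, mul_one, mul_inv_cancel₀ hε0]
  obtain ⟨x, hxv⟩ : ∃ x : Matrix.SpecialLinearGroup (Fin (2 * m)) F,
      x.val = g * (1 + Ns) * g' := ⟨⟨_, hxdet⟩, rfl⟩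
  refine ⟨x, ?_, ?_, ?_⟩
  · rw [hxv, pow_succ, pow_two]
    have h1 : g * (1 + Ns) * g' * (g * (1 + Ns) * g') * (g * (1 + Ns) * g') =
        g * ((1 + Ns) * (g' * g) * (1 + Ns) * (g' * g) * (1 + Ns)) * g' := by
      simp only [Matrix.mul_assoc]
    rw [h1, hg'g, Matrix.mul_one, Matrix.mul_one, ← pow_two, ← pow_succ, hcube, Matrix.mul_one,
      hgg']
  · intro z hz
    rw [hxv] at hz
    have h1 : 1 + Ns = z • (1 : Matrix (Fin (2 * m)) (Fin (2 * m)) F) := by
      have h4 : g' * (g * (1 + Ns) * g') * g = g' * (z • (1 : Matrix (Fin (2 * m)) (Fin (2 * m)) F)) * g := by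
        rw [hz]
      have h5 : g' * (g * (1 + Ns) * g') * g = (g' * g) * (1 + Ns) * (g' * g) := by
        simp only [Matrix.mul_assoc]
      rw [h5, hg'g, Matrix.one_mul, Matrix.mul_one, Matrix.mul_smul, Matrix.smul_mul,
        Matrix.mul_one, hg'g] at h4
      exact h4
    have h4 := congrFun (congrFun h1 (sqPar m (Sum.inl j₀))) (sqPar m (Sum.inr j₀))
    rw [Matrix.add_apply, hNsent, Matrix.smul_apply, Matrix.one_apply_ne hne, zero_add,
      smul_zero] at h4
    exact one_ne_zero h4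
  · intro P hP
    rw [Subgroup.mem_comap, Cfsg.Agent.Helper97.SF.mem_subfieldSubgroup_one] at hP
    obtain ⟨lam, hlam0, hrat⟩ := hP
    simp only [SpecialLinearGroup.coe_GL_coe_matrix] at hrat
    have hPP : (P⁻¹ : Matrix.SpecialLinearGroup (Fin (2 * m)) F).val * P.val = 1 := by
      rw [← Matrix.SpecialLinearGroup.coe_mul, inv_mul_cancel, Matrix.SpecialLinearGroup.coe_one]
    have hPP' : P.val * (P⁻¹ : Matrix.SpecialLinearGroup (Fin (2 * m)) F).val = 1 := by
      rw [← Matrix.SpecialLinearGroup.coe_mul, mul_inv_cancel, Matrix.SpecialLinearGroup.coe_one]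
    obtain ⟨R, hR⟩ : ∃ R : Matrix (Fin (2 * m)) (Fin (2 * m)) F,
        R = (P⁻¹ : Matrix.SpecialLinearGroup (Fin (2 * m)) F).val * g := ⟨_, rfl⟩
    obtain ⟨R', hR'⟩ : ∃ R' : Matrix (Fin (2 * m)) (Fin (2 * m)) F, R' = g' * P.val := ⟨_, rfl⟩
    have hRR' : R * R' = 1 := by
      rw [hR, hR']
      have h1 : (P⁻¹ : Matrix.SpecialLinearGroup (Fin (2 * m)) F).val * g * (g' * P.val) =
          (P⁻¹ : Matrix.SpecialLinearGroup (Fin (2 * m)) F).val * (g * g') * P.val := by
        simp only [Matrix.mul_assoc]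
      rw [h1, hgg', Matrix.mul_one, hPP]
    have hR'R : R' * R = 1 := mul_eq_one_comm.mp hRR'
    have hRdet : R.det = ε := by
      rw [hR, Matrix.det_mul, (P⁻¹ : Matrix.SpecialLinearGroup (Fin (2 * m)) F).2, one_mul, hgdet]
    obtain ⟨y, hy⟩ : ∃ y : Matrix (Fin (2 * m)) (Fin (2 * m)) F,
        y = ((P⁻¹ * x * P : Matrix.SpecialLinearGroup (Fin (2 * m)) F) :
          Matrix (Fin (2 * m)) (Fin (2 * m)) F) := ⟨_, rfl⟩
    rw [← hy] at hrat
    have hyR : y = R * (1 + Ns) * R' := by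
      rw [hy, Matrix.SpecialLinearGroup.coe_mul, Matrix.SpecialLinearGroup.coe_mul, hxv, hR, hR']
      simp only [Matrix.mul_assoc]
    obtain ⟨N', hN'⟩ : ∃ N' : Matrix (Fin (2 * m)) (Fin (2 * m)) F, N' = R * Ns * R' := ⟨_, rfl⟩
    have hyN : y = 1 + N' := by
      rw [hyR, hN', mul_add, add_mul, Matrix.mul_one, hRR']
    have hN'N' : N' * N' = 0 := by
      rw [hN']
      have h1 : R * Ns * R' * (R * Ns * R') = R * (Ns * (R' * R) * Ns) * R' := by
        simp only [Matrix.mul_assoc]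
      rw [h1, hR'R, Matrix.mul_one, hNsNs, Matrix.mul_zero, Matrix.zero_mul]
    have hN'R : N' * R = R * Ns := by
      rw [hN', Matrix.mul_assoc, hR'R, Matrix.mul_one]
    obtain ⟨h, hh⟩ : ∃ h : Matrix (Fin (2 * m)) (Fin (2 * m)) F, h = lam • y := ⟨_, rfl⟩
    rw [← hh] at hrat
    have hquad : (h - lam • 1) * (h - lam • 1) = 0 := by
      have h1 : h - lam • (1 : Matrix (Fin (2 * m)) (Fin (2 * m)) F) = lam • N' := by
        rw [hh, hyN, smul_add, add_sub_cancel_left]
      rw [h1, Matrix.smul_mul, Matrix.mul_smul, hN'N', smul_zero, smul_zero]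
    have hlamF : lam ∈ F₀ := by
      by_cases hoff : ∃ i j, i ≠ j ∧ h i j ≠ 0
      · obtain ⟨i, j, hij, hhij⟩ := hoff
        have h1 : (h - lam • 1) * (h - lam • 1) =
            h * h - (2 * lam) • h + (lam * lam) • (1 : Matrix (Fin (2 * m)) (Fin (2 * m)) F) := by
          rw [sub_mul, mul_sub, mul_sub, Matrix.smul_mul, Matrix.mul_smul, Matrix.smul_mul,
            Matrix.mul_smul, Matrix.one_mul, Matrix.mul_one, Matrix.mul_one, smul_smul, two_mul lam,
            add_smul]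
          abel
        rw [h1] at hquad
        have h4 := congrFun (congrFun hquad i) j
        rw [Matrix.add_apply, Matrix.sub_apply, Matrix.smul_apply, Matrix.smul_apply,
          Matrix.one_apply_ne hij, smul_zero, add_zero, Matrix.zero_apply, smul_eq_mul] at h4
        have h5 : lam = (h * h) i j / (2 * h i j) := by
          field_simp
          linear_combination -h4
        rw [h5]
        have h6 := (Cfsg.Agent.Helper97.SF.ratMat F₀ (2 * m)).mul_mem hrat hrat
        exact div_mem (h6 i j) (mul_mem (by exact_mod_cast (2 : F₀).2) (hrat i j))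
      · push Not at hoff
        have h4 := congrFun (congrFun hquad i₀) i₀
        rw [Matrix.mul_apply, Finset.sum_eq_single i₀] at h4
        · rw [Matrix.sub_apply, Matrix.smul_apply, Matrix.one_apply_eq, smul_eq_mul, mul_one,
            Matrix.zero_apply] at h4
          have h5 : h i₀ i₀ - lam = 0 := by
            rcases mul_eq_zero.mp h4 with h6 | h6 <;> exact h6
          have h6 : lam = h i₀ i₀ := (sub_eq_zero.mp h5).symm
          rw [h6]
          exact hrat i₀ i₀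
        · intro b _ hb
          rw [Matrix.sub_apply, Matrix.smul_apply, Matrix.one_apply_ne hb.symm, smul_zero,
            sub_zero, hoff i₀ b hb.symm, zero_mul]
        · intro hcon
          exact absurd (Finset.mem_univ _) hcon
    have hyrat : y ∈ Cfsg.Agent.Helper97.SF.ratMat F₀ (2 * m) := by
      have h1 : y = lam⁻¹ • h := by
        rw [hh, smul_smul, inv_mul_cancel₀ hlam0, one_smul]
      rw [h1]
      exact Cfsg.Agent.Helper97.SF.smul_mem_ratMat hrat (inv_mem hlamF)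
    have hN'rat : N' ∈ Cfsg.Agent.Helper97.SF.ratMat F₀ (2 * m) := by
      have h1 : N' = y - 1 := by rw [hyN, add_sub_cancel_left]
      rw [h1]
      exact (Cfsg.Agent.Helper97.SF.ratMat F₀ (2 * m)).sub_mem hyrat
        (Cfsg.Agent.Helper97.SF.ratMat F₀ (2 * m)).one_mem
    obtain ⟨N₀', hN₀'⟩ : ∃ N₀' : Matrix (Fin (2 * m)) (Fin (2 * m)) F₀,
        N₀' = fun i j => ⟨N' i j, hN'rat i j⟩ := ⟨_, rfl⟩
    have hmap' : N₀'.map F₀.subtype = N' := by
      rw [hN₀']
      ext i j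
      rfl
    have hN₀'sq : N₀' * N₀' = 0 := by
      apply Matrix.map_injective F₀.subtype_injective
      show (N₀' * N₀').map F₀.subtype = (0 : Matrix (Fin (2 * m)) (Fin (2 * m)) F₀).map F₀.subtype
      rw [Matrix.map_mul, hmap', hN'N']
      simp
    have hRu : IsUnit R.det := by
      rw [hRdet]
      exact isUnit_iff_ne_zero.mpr hε0
    have hrank : N₀'.rank = N₀.rank := by
      rw [← Cfsg.Agent.Helper81.rob_rank_map F₀.subtype N₀',
        ← Cfsg.Agent.Helper81.rob_rank_map F₀.subtype N₀, hmap', hmap,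
        ← Matrix.rank_mul_eq_left_of_isUnit_det R N' hRu, hN'R,
        Matrix.rank_mul_eq_right_of_isUnit_det R Ns hRu]
    obtain ⟨P₀, hP₀⟩ := sqz_conj N₀' N₀ hN₀'sq hN₀N₀ hrank
    have hP₀det := sq_gl_det_ne P₀
    obtain ⟨Pm, hPm⟩ : ∃ Pm : Matrix (Fin (2 * m)) (Fin (2 * m)) F,
        Pm = P₀.val.map F₀.subtype := ⟨_, rfl⟩
    have hPmN : Pm * N' = Ns * Pm := by
      rw [hPm, ← hmap', ← hmap, ← Matrix.map_mul, ← Matrix.map_mul, hP₀]
    have hPmdet : Pm.det = F₀.subtype P₀.val.det := by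
      rw [hPm, ← RingHom.mapMatrix_apply, ← RingHom.map_det]
    have hPmsq : IsSquare Pm.det := by
      rw [hPmdet]
      refine sf_sub_isSquare h2 F₀ q₀ hF₀ hq _ (P₀.val.det).2 ?_
      intro h0
      apply hP₀det
      exact Subtype.ext h0
    have hPmne : Pm.det ≠ 0 := by
      rw [hPmdet]
      intro h0
      apply hP₀det
      exact Subtype.ext h0
    have hcomm : (Pm * R) * Ns = Ns * (Pm * R) := by
      rw [Matrix.mul_assoc, ← hN'R, ← Matrix.mul_assoc, hPmN, Matrix.mul_assoc]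
    obtain ⟨C', hC'⟩ : ∃ C' : Matrix (Fin m ⊕ Fin m) (Fin m ⊕ Fin m) F,
        C' = (Matrix.reindex (sqPar m) (sqPar m)).symm (Pm * R) := ⟨_, rfl⟩
    have hC'r : Matrix.reindex (sqPar m) (sqPar m) C' = Pm * R := by
      rw [hC', Equiv.apply_symm_apply]
    rw [← hC'r, hNs, sq_reindex_mul, sq_reindex_mul] at hcomm
    have hcomm' := (Matrix.reindex (sqPar m) (sqPar m)).injective hcomm
    have hsq := sg_cent_sq m C' hcomm'
    have hdetC : C'.det = Pm.det * ε := by
      rw [← Matrix.det_reindex_self (sqPar m) C', hC'r, Matrix.det_mul, hRdet]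
    rw [hdetC] at hsq
    obtain ⟨s, hs⟩ := hsq
    obtain ⟨t, ht⟩ := hPmsq
    have ht0 : t ≠ 0 := by
      rintro rfl
      rw [mul_zero] at ht
      exact hPmne ht
    apply hε
    refine ⟨s / t, ?_⟩
    rw [ht] at hs
    field_simp
    linear_combination hs

end Cfsg.Agent.Helper37
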