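-- helper37 library: pieces ABS, MC, NIFF, DIAG, HD1, STABD of helper95's CALL S2545.
import Mathlib
import Cfsg.Agent.Helper95.SpBNDefs

set_option autoImplicit false

namespace Cfsg.Agent.Helper37.SpBN

open Matrix Cfsg.Agent.Helper13 Cfsg.Agent.Helper95.SpBN

variable {F : Type*} [Field F] {m : ℕ}

-- === PIECE ABS ===
theorem p_ABS {G : Type*} [Group G] (B N : Subgroup G) {K : Type*} (s : G) (x y : K → G)
    (h1 : ∀ b ∈ B, ∃ t : K, ∃ b' ∈ B, b = b' * x t ∧ s * b' * s⁻¹ ∈ B)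
    (h2 : ∀ n ∈ N, (∀ t, n⁻¹ * x t * n ∈ B) ∨ (∀ t, n⁻¹ * y t * n ∈ B))
    (h3 : ∀ t : K, x t = 1 ∨ ∃ b₁ ∈ B, ∃ t' : K, s * x t = b₁ * y t') :
    ∀ n ∈ N, ∀ b ∈ B, s * b * n ∈ DoubleCoset.doubleCoset (s * n) (B : Set G) B ∪
      DoubleCoset.doubleCoset n (B : Set G) B := by
  intro n hn b hb
  obtain ⟨t, b', hb', rfl, hc⟩ := h1 b hb
  rcases h2 n hn with hx | hy
  · left
    rw [DoubleCoset.mem_doubleCoset]
    exact ⟨s * b' * s⁻¹, hc, n⁻¹ * x t * n, hx t, by group⟩
  · rcases h3 t with h0 | ⟨b₁, hb₁, t', ht'⟩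
    · left
      rw [DoubleCoset.mem_doubleCoset]
      refine ⟨s * b' * s⁻¹, hc, 1, B.one_mem, ?_⟩
      rw [h0]
      group
    · right
      rw [DoubleCoset.mem_doubleCoset]
      refine ⟨s * b' * s⁻¹ * b₁, B.mul_mem hc hb₁, n⁻¹ * y t' * n, hy t', ?_⟩
      have e1 : s * (b' * x t) * n = s * b' * s⁻¹ * (s * x t) * n := by group
      rw [e1, ht']
      group

-- === PIECE MC ===
theorem p_MC (n M n' : Matrix (Fin m ⊕ Fin m) (Fin m ⊕ Fin m) F)
    (π ρ : Equiv.Perm (Fin m ⊕ Fin m)) (hn : Pat n π) (hn' : Pat n' ρ) (x y : Fin m ⊕ Fin m) :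
    (n * M * n') x y = n x (π.symm x) * M (π.symm x) (ρ y) * n' (ρ y) y := by
  rw [Matrix.mul_apply, Finset.sum_eq_single (ρ y)]
  · rw [Matrix.mul_apply, Finset.sum_eq_single (π.symm x)]
    · intro k _ hk
      have h0 : n x k = 0 := by
        by_contra h0
        apply hk
        rw [hn x k h0]
        simp
      rw [h0, zero_mul]
    · intro h; exact absurd (Finset.mem_univ _) h
  · intro l _ hl
    have h0 : n' l y = 0 := by
      by_contra h0
      exact hl (hn' l y h0)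
    rw [h0, mul_zero]
  · intro h; exact absurd (Finset.mem_univ _) h

-- === PIECE NIFF ===
theorem p_NIFF (g : symplecticGroup (Fin m) F) :
    g ∈ spN m F ↔ ∃ π : Equiv.Perm (Fin m ⊕ Fin m), Pat g.1 π := by
  constructor
  · intro hg
    unfold spN at hg
    induction hg using Subgroup.closure_induction with
    | mem x hx => exact hx
    | one =>
      refine ⟨1, fun a b hab => ?_⟩
      by_contra hne
      apply hab
      have hne' : a ≠ b := hne
      show (1 : Matrix (Fin m ⊕ Fin m) (Fin m ⊕ Fin m) F) a b = 0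
      exact Matrix.one_apply_ne hne'
    | mul x y _ _ hx hy =>
      obtain ⟨π, hπ⟩ := hx
      obtain ⟨ρ, hρ⟩ := hy
      exact ⟨π * ρ, pat_mul _ _ π ρ hπ hρ⟩
    | inv x _ hx =>
      obtain ⟨π, hπ⟩ := hx
      exact ⟨π⁻¹, pat_inv x π hπ⟩
  · intro h
    exact Subgroup.subset_closure h

-- === PIECE DIAG ===
theorem p_DIAG (g : symplecticGroup (Fin m) F) (h : IsUp g.1) (a : Fin m ⊕ Fin m) :
    g.1 a a ≠ 0 := by
  have hinv := isUp_inv g h
  have h1 : (g * g⁻¹).1 a a = 1 := by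
    rw [mul_inv_cancel]
    exact Matrix.one_apply_eq a
  have h2 : (g * g⁻¹).1 a a = g.1 a a * (g⁻¹).1 a a := by
    show (g.1 * (g⁻¹).1) a a = _
    rw [Matrix.mul_apply, Finset.sum_eq_single a]
    · intro k _ hk
      rcases lt_trichotomy (rk k) (rk a) with hlt | heq | hgt
      · rw [h a k hlt, zero_mul]
      · exact absurd (rk_injective heq) hk
      · rw [hinv k a hgt, mul_zero]
    · intro h'; exact absurd (Finset.mem_univ _) h'
  rw [h2] at h1
  exact left_ne_zero_of_mul_eq_one h1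

-- === PIECE HD1 ===
theorem p_HD1 (g : symplecticGroup (Fin m) F) (h : IsUp g.1) (π : Equiv.Perm (Fin m ⊕ Fin m))
    (hπ : Pat g.1 π) : π = 1 := by
  have hne := (pat_sp g.1 g.2 π hπ).1
  have hle : ∀ b, rk (π b) ≤ rk b := by
    intro b
    by_contra hlt
    exact hne b (h (π b) b (not_le.mp hlt))
  have key : ∀ n : ℕ, ∀ b : Fin m ⊕ Fin m, rk b = n → π b = b := by
    intro n
    induction n using Nat.strong_induction_on with
    | _ n ih =>
      intro b hb
      rcases (hle b).lt_or_eq with hlt | heq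
      · exfalso
        have h1 := ih (rk (π b)) (by rw [← hb]; exact hlt) (π b) rfl
        have h2 : π b = b := π.injective h1
        rw [h2] at hlt
        exact lt_irrefl _ hlt
      · exact rk_injective heq
  exact Equiv.ext fun b => key (rk b) b rfl

-- === PIECE STABD ===
/-- a matrix that is upper triangular, with `J`-conjugate upper triangular, is diagonal. -/
theorem p_STABD (c d : symplecticGroup (Fin m) F) (hc : IsUp c.1) (hd : IsUp d.1)
    (n₀ : symplecticGroup (Fin m) F) (hn₀ : n₀.1 = J (Fin m) F) (h : c = n₀ * d * n₀⁻¹) :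
    Pat c.1 1 := by
  have hJ : Pat n₀.1 (tauP m) := by rw [hn₀]; exact pat_J
  have hJi : Pat (n₀⁻¹).1 (tauP m)⁻¹ := pat_inv n₀ (tauP m) hJ
  have hsymm : ∀ a, (tauP m).symm a = tauP m a := by
    intro a
    rw [Equiv.symm_apply_eq, tauP_tauP]
  intro a b hab
  by_contra hne
  have hne' : a ≠ b := hne
  have hc1 : c.1 a b =
      n₀.1 a (tauP m a) * d.1 (tauP m a) (tauP m b) * (n₀⁻¹).1 (tauP m b) b := by
    have h1 : c.1 = n₀.1 * d.1 * (n₀⁻¹).1 := by rw [h]; rfl
    have h2 : (tauP m)⁻¹ b = tauP m b := hsymm b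
    rw [h1, p_MC n₀.1 d.1 (n₀⁻¹).1 (tauP m) (tauP m)⁻¹ hJ hJi a b, hsymm, h2]
  rcases lt_trichotomy (rk a) (rk b) with hlt | heq | hgt
  · apply hab
    rw [hc1, hd _ _ (rk_tauP_lt hlt), mul_zero, zero_mul]
  · exact hne' (rk_injective heq)
  · exact hab (hc a b hgt)

end Cfsg.Agent.Helper37.SpBN
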