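import Mathlib
import Cfsg.Prelude.Def_Classical
import Cfsg.Prelude.Def_Characters
import Cfsg.Agent.S0305
import Cfsg.Agent.Helper66.StMIN0

set_option autoImplicit false

namespace Cfsg.Agent.Helper37.StPLUS1

open Cfsg

-- === PIECE PLUS1 ===  (S0305: O_2^+(q) dihedral, so Ω abelian, PΩ trivial; cf. Helper66.StMIN0)
theorem p_PLUS1 {F : Type*} [Field F] [Fintype F] (p : ℕ) [Fact p.Prime] [CharP F p] :
    ∃ χ : Cfsg.POmega F (Cfsg.quadFormPlus 1 F) → ℂ,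
      Cfsg.IsIrrCharacter (Cfsg.POmega F (Cfsg.quadFormPlus 1 F)) χ ∧
      ∀ P : Sylow p (Cfsg.POmega F (Cfsg.quadFormPlus 1 F)), χ 1 = Nat.card P ∧
        ∀ x : Cfsg.POmega F (Cfsg.quadFormPlus 1 F), x ∈ P → x ≠ 1 → χ x = 0 := by
  obtain ⟨e⟩ := Cfsg.Agent.S0305.result (F := F) rfl
  have hcomm : ∀ x y : ↥(Cfsg.Omega F (Cfsg.quadFormPlus 1 F)), x * y = y * x := by
    intro x y
    apply Subtype.ext
    exact Cfsg.Agent.Helper66.StMIN0.comm_of_equiv_dihedral e x.1 y.1 x.2 y.2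
  have hsub : Subsingleton (Cfsg.POmega F (Cfsg.quadFormPlus 1 F)) :=
    Cfsg.Agent.Helper66.StMIN0.subsingleton_quot hcomm
  refine ⟨fun _ => 1, Cfsg.Agent.Helper79.isIrrCharacter_one, fun P => ⟨?_, ?_⟩⟩
  · have : Nat.card (↥(P : Subgroup (Cfsg.POmega F (Cfsg.quadFormPlus 1 F)))) = 1 :=
      Nat.card_eq_one_iff_unique.2 ⟨inferInstance, ⟨1⟩⟩
    rw [this]
    simp
  · intro x _ hx
    exact absurd (Subsingleton.elim x 1) hx

end Cfsg.Agent.Helper37.StPLUS1
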