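import Mathlib
import Cfsg.Prelude.Def_Classical
import Cfsg.Prelude.Def_Characters
import Cfsg.Agent.S0299
import Cfsg.Agent.S2544
import Cfsg.Agent.S0188
import Cfsg.Agent.Helper27.StTRANS

set_option autoImplicit false

namespace Cfsg.Agent.Helper37.StPLUS2

open Cfsg

/-- Steinberg-type characters multiply over direct products. -/
theorem st_prod {G : Type*} [Group G] [Finite G] (p : ℕ) [Fact p.Prime]
    (h : ∃ χ : G → ℂ, Cfsg.IsIrrCharacter G χ ∧ ∀ P : Sylow p G, χ 1 = Nat.card P ∧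
      ∀ x : G, x ∈ P → x ≠ 1 → χ x = 0) :
    ∃ χ : G × G → ℂ, Cfsg.IsIrrCharacter (G × G) χ ∧ ∀ P : Sylow p (G × G), χ 1 = Nat.card P ∧
      ∀ x : G × G, x ∈ P → x ≠ 1 → χ x = 0 := by
  classical
  obtain ⟨St, hirr, hSt⟩ := h
  have hp : p.Prime := Fact.out
  refine ⟨fun x => St x.1 * St x.2,
    (Cfsg.Agent.S0188.result _).mpr ⟨St, St, hirr, hirr, rfl⟩, fun P => ⟨?_, ?_⟩⟩
  · obtain ⟨P₁⟩ : Nonempty (Sylow p G) := inferInstance
    have h1 := (hSt P₁).1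
    show St (1 : G × G).1 * St (1 : G × G).2 = _
    rw [Prod.fst_one, Prod.snd_one, h1, Sylow.card_eq_multiplicity P, Sylow.card_eq_multiplicity P₁,
      Nat.card_prod, Nat.factorization_mul Nat.card_pos.ne' Nat.card_pos.ne']
    simp only [Finsupp.coe_add, Pi.add_apply]
    rw [pow_add]
    push_cast
    ring
  · intro x hx hx1
    show St x.1 * St x.2 = 0
    have hne : x.1 ≠ 1 ∨ x.2 ≠ 1 := by
      by_contra hcon
      push Not at hcon
      exact hx1 (Prod.ext hcon.1 hcon.2)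
    rcases hne with h1 | h2
    · have hPg : IsPGroup p ((P : Subgroup (G × G)).map (MonoidHom.fst G G)) :=
        IsPGroup.map P.isPGroup' _
      obtain ⟨Q, hQ⟩ := hPg.exists_le_sylow
      have hxQ : x.1 ∈ Q := hQ (Subgroup.mem_map.mpr ⟨x, hx, rfl⟩)
      rw [(hSt Q).2 x.1 hxQ h1, zero_mul]
    · have hPg : IsPGroup p ((P : Subgroup (G × G)).map (MonoidHom.snd G G)) :=
        IsPGroup.map P.isPGroup' _
      obtain ⟨Q, hQ⟩ := hPg.exists_le_sylow
      have hxQ : x.2 ∈ Q := hQ (Subgroup.mem_map.mpr ⟨x, hx, rfl⟩)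
      rw [(hSt Q).2 x.2 hxQ h2, mul_zero]

-- === PIECE PLUS2 ===  (S0299 + S2544 + S0188 + Helper27.StTRANS)
theorem p_PLUS2 {F : Type*} [Field F] [Fintype F] (p : ℕ) [Fact p.Prime] [CharP F p]
    (hF : 3 ≤ Fintype.card F) :
    ∃ χ : Cfsg.POmega F (Cfsg.quadFormPlus 2 F) → ℂ,
      Cfsg.IsIrrCharacter (Cfsg.POmega F (Cfsg.quadFormPlus 2 F)) χ ∧
      ∀ P : Sylow p (Cfsg.POmega F (Cfsg.quadFormPlus 2 F)), χ 1 = Nat.card P ∧
        ∀ x : Cfsg.POmega F (Cfsg.quadFormPlus 2 F), x ∈ P → x ≠ 1 → χ x = 0 := by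
  classical
  obtain ⟨e⟩ := Cfsg.Agent.S0299.result (F := F) hF
  haveI : Finite (Matrix.ProjectiveSpecialLinearGroup (Fin 2) F) := inferInstance
  haveI : Finite (Cfsg.POmega F (Cfsg.quadFormPlus 2 F)) := Finite.of_equiv _ e.symm.toEquiv
  exact Cfsg.Agent.Helper27.StTRANS.p_TRANS e p
    (st_prod p (Cfsg.Agent.S2544.result (F := F) p 2 (le_refl 2)))

end Cfsg.Agent.Helper37.StPLUS2
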