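import Mathlib
import Cfsg.Prelude.Def_GeometricClasses
import Cfsg.Prelude.Def_Classical
import Cfsg.Agent.Helper58.TSDefs
import Cfsg.Agent.Helper43.PrimeOrdO3
import Cfsg.Agent.Helper33.OType
import Cfsg.Agent.Helper5.TBBLK
import Cfsg.Agent.Helper43.TBPAR
import Cfsg.Agent.Helper93.TBCYCB

set_option autoImplicit false

/-!
# Sub-CALL TB (helper43) of CALL TS, piece BLKE (helper37; double)
-/

namespace Cfsg.Agent.Helper37.TB

open Module Polynomial Cfsg Cfsg.Geo Cfsg.Agent.Helper58.TS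
open Cfsg.Agent.Helper43 Cfsg.Agent.Helper43.OrthEven Cfsg.Agent.Helper43.CycFactors
  Cfsg.Agent.Helper43.PrimeOrdMat
open scoped MatrixGroups

universe u

section lvl2

variable {F : Type u} [Field F] [Fintype F]

/-- BLKE [M] (uses BLK, PAR, CYCB): the homogeneous block for `i` even.
(`c := fun P' => if P' = P then n else 0`, `StarPoly.star_eq_self_of_even`; `∑ c = n`,
`∏ P' ∈ cycJ, P' ^ c P' = P ^ n`.) -/
theorem tb_blk_even (p : ℕ) [Fact p.Prime] [CharP F p] (r : ℕ) [Fact r.Prime] (hr2 : 2 < r)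
    (hrp : r ≠ p) (heven : Even (orderOf ((Fintype.card F : ℕ) : ZMod r))) (P : F[X])
    (hP : P ∈ cycJ F r) (n : ℕ) :
    ∃ (V : Type u) (_ : AddCommGroup V) (_ : Module F V) (_ : FiniteDimensional F V)
      (Q : QuadraticForm F V) (T : Module.End F V),
      PolarNondeg Q ∧ (∀ v, Q (T v) = Q v) ∧ aeval T (cyclotomic r F) = 0 ∧
      T.charpoly = P ^ n ∧
      finrank F V = 2 * (orderOf ((Fintype.card F : ℕ) : ZMod r) / 2 * n) ∧
      (HasTS Q (orderOf ((Fintype.card F : ℕ) : ZMod r) / 2 * n) ↔ Even n) ∧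
      ∀ U : Submodule F V, U.map T ≤ U → (∀ u ∈ U, Q u = 0) →
        ∃ s, finrank F U = orderOf ((Fintype.card F : ℕ) : ZMod r) * s ∧ 2 * s + n % 2 ≤ n := by
  classical
  have hr : r.Prime := Fact.out
  have hrF : (r : F) ≠ 0 := natCast_ne_zero_of_ne (p := p) hr hrp
  obtain ⟨cf, hcf⟩ : ∃ cf : F[X] → ℕ, cf = fun P' => if P' = P then n else 0 := ⟨_, rfl⟩
  have hsum : ∑ P' ∈ cycJ F r, cf P' = n := by
    rw [hcf, Finset.sum_ite_eq', if_pos hP]
  have hprod : ∏ P' ∈ cycJ F r, P' ^ cf P' = P ^ n := by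
    rw [Finset.prod_eq_single P]
    · rw [hcf]
      simp
    · intro b _ hb
      rw [hcf]
      simp [hb]
    · intro h
      exact absurd hP h
  have hsym : ∀ P' ∈ cycJ F r, cf (Cfsg.Agent.Helper43.SpReal.star P') = cf P' := by
    intro P' hP'
    rw [Cfsg.Agent.Helper43.StarPoly.star_eq_self_of_even (p := p) (q := Fintype.card F) rfl hr
      hrp heven hP']
  obtain ⟨V, iA, iM, iFD, Q, T, l, hnd, hT, hcyc, hch, hfin, hfin2, hts⟩ :=
    Cfsg.Agent.Helper5.TB.tb_blk p r hr2 hrp cf hsym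
  have hpar := Cfsg.Agent.Helper43.TB.tb_par p r hr2 hrp heven Q T hnd hT hcyc cf hch l hfin2
  rw [hsum] at hfin hpar
  rw [hprod] at hch
  have hi0 := orderOf_pos_of_card (p := p) (F := F) (q := Fintype.card F) rfl hr hrp
  obtain ⟨i, hi⟩ : ∃ i, i = orderOf ((Fintype.card F : ℕ) : ZMod r) := ⟨_, rfl⟩
  rw [← hi] at hfin heven hi0 ⊢
  obtain ⟨k, hk⟩ := heven
  have hk2 : i / 2 = k := by omega
  have hmul : i * n = 2 * (k * n) := by rw [hk]; ring
  have hl : l = k * n := by omega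
  rw [hk2]
  refine ⟨V, iA, iM, iFD, Q, T, hnd, hT, hcyc, hch, ?_, ?_, ?_⟩
  · rw [hfin, hmul]
  · rw [← hl]
    exact hpar
  · intro U hUT hU
    obtain ⟨s, hs1, hs2⟩ := Cfsg.Agent.Helper93.TB.tb_cyc_bound r hrF Q T hnd hT hcyc U hUT hU
    rw [← hi] at hs1
    refine ⟨s, hs1, ?_⟩
    rw [hs1, hfin] at hs2
    have h2s : 2 * s ≤ n := by
      by_contra hcon
      have h1 : i * (n + 1) ≤ i * (2 * s) := Nat.mul_le_mul_left i (by omega)
      nlinarith
    omega

end lvl2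

end Cfsg.Agent.Helper37.TB
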