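import Mathlib
import Cfsg.Agent.Helper13.TKDefs

set_option autoImplicit false

namespace Cfsg.Agent.Helper37.TI5956

open Module Polynomial
open Cfsg.Agent.Helper42.SpForm Cfsg.Agent.Helper42.SpGroup Cfsg.Agent.Helper42.SpModels
open Cfsg.Agent.Helper13.TIsp Cfsg.Agent.Helper90.BG
open Cfsg.Agent.Helper11.TI5955 Cfsg.Agent.Helper58.TI5955 Cfsg.Agent.Helper59.TI5955
open Cfsg.Agent.Helper51.TI5955 Cfsg.Agent.Helper70.TI5955
open Cfsg.Agent.Helper39.TI5961 Cfsg.Agent.Helper58.TI5961 Cfsg.Agent.Helper59.TI5961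
open Cfsg.Agent.Helper60.TI5961 Cfsg.Agent.Helper31.TI5961 Cfsg.Agent.Helper19.TI5961

section xf

variable {F : Type*} [Field F]

/-- JTXFER: Jordan type is invariant under conjugation by a linear equivalence. -/
theorem jt_xfer {V V' : Type*} [AddCommGroup V] [Module F V] [AddCommGroup V'] [Module F V']
    (Φ : V ≃ₗ[F] V') (N : Module.End F V) (N' : Module.End F V')
    (h : ∀ v, N' (Φ v) = Φ (N v)) (l : Multiset ℕ) (hl : JT N ⊤ l) : JT N' ⊤ l := by
  intro k
  rw [← hl k]
  have hk : ∀ (k : ℕ) v, (N' ^ k) (Φ v) = Φ ((N ^ k) v) := by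
    intro k
    induction k with
    | zero => intro v; simp
    | succ k ih =>
      intro v
      rw [pow_succ, pow_succ, Module.End.mul_apply, Module.End.mul_apply, h, ih]
  have hker : (⊤ ⊓ LinearMap.ker (N' ^ k) : Submodule F V') =
      (⊤ ⊓ LinearMap.ker (N ^ k) : Submodule F V).map (Φ : V →ₗ[F] V') := by
    ext w
    simp only [top_inf_eq, LinearMap.mem_ker, Submodule.mem_map]
    constructor
    · intro hw
      refine ⟨Φ.symm w, ?_, by simp⟩
      have h3 := hk k (Φ.symm w)
      rw [Φ.apply_symm_apply, hw] at h3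
      apply Φ.injective
      rw [map_zero]
      exact h3.symm
    · rintro ⟨v, hv, rfl⟩
      have h3 := hk k v
      rw [hv, map_zero] at h3
      exact h3
  rw [hker]
  exact LinearEquiv.finrank_map_eq Φ _

end xf

end Cfsg.Agent.Helper37.TI5956
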