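import Mathlib
import Cfsg.Agent.Helper13.TKDefs
import Cfsg.Agent.Helper37.TKJTXFER

set_option autoImplicit false

namespace Cfsg.Agent.Helper37.TI5956

open Module Polynomial
open Cfsg.Agent.Helper42.SpForm Cfsg.Agent.Helper42.SpGroup Cfsg.Agent.Helper42.SpModels
open Cfsg.Agent.Helper13.TIsp Cfsg.Agent.Helper90.BG
open Cfsg.Agent.Helper11.TI5955 Cfsg.Agent.Helper58.TI5955 Cfsg.Agent.Helper59.TI5955
open Cfsg.Agent.Helper51.TI5955 Cfsg.Agent.Helper70.TI5955
open Cfsg.Agent.Helper39.TI5961 Cfsg.Agent.Helper58.TI5961 Cfsg.Agent.Helper59.TI5961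
open Cfsg.Agent.Helper60.TI5961 Cfsg.Agent.Helper31.TI5961 Cfsg.Agent.Helper19.TI5961

section lem

variable {F : Type*} [Field F]

/-- Jordan types add over products. -/
theorem h37_jt_prod {V₁ V₂ : Type*} [AddCommGroup V₁] [Module F V₁] [AddCommGroup V₂] [Module F V₂]
    [FiniteDimensional F V₁] [FiniteDimensional F V₂]
    (N₁ : Module.End F V₁) (N₂ : Module.End F V₂) (l₁ l₂ : Multiset ℕ)
    (h1 : JT N₁ ⊤ l₁) (h2 : JT N₂ ⊤ l₂) : JT (N₁.prodMap N₂) ⊤ (l₁ + l₂) := by
  intro k
  rw [prodMap_pow']
  let e : ↥((⊤ : Submodule F (V₁ × V₂)) ⊓ LinearMap.ker ((N₁ ^ k).prodMap (N₂ ^ k))) ≃ₗ[F]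
      ↥((⊤ : Submodule F V₁) ⊓ LinearMap.ker (N₁ ^ k)) ×
        ↥((⊤ : Submodule F V₂) ⊓ LinearMap.ker (N₂ ^ k)) :=
    { toFun := fun x => (⟨x.1.1, by
          have hx := x.2
          simp only [top_inf_eq, LinearMap.mem_ker, LinearMap.prodMap_apply, Prod.mk_eq_zero] at hx ⊢
          exact hx.1⟩, ⟨x.1.2, by
          have hx := x.2
          simp only [top_inf_eq, LinearMap.mem_ker, LinearMap.prodMap_apply, Prod.mk_eq_zero] at hx ⊢
          exact hx.2⟩)
      map_add' := fun x y => rfl
      map_smul' := fun c x => rfl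
      invFun := fun y => ⟨(y.1.1, y.2.1), by
          have h1 := y.1.2
          have h2 := y.2.2
          simp only [top_inf_eq, LinearMap.mem_ker, LinearMap.prodMap_apply, Prod.mk_eq_zero] at h1 h2 ⊢
          exact ⟨h1, h2⟩⟩
      left_inv := fun x => rfl
      right_inv := fun y => rfl }
  rw [e.finrank_eq, Module.finrank_prod, h1 k, h2 k, Multiset.map_add, Multiset.sum_add]

/-- Jordan type of the shift: one block of size `k + 1`. -/
theorem h37_jt_shift (k : ℕ) : JT (shiftUp F k) ⊤ (Multiset.replicate 1 (k + 1)) := by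
  classical
  intro j
  let e : ↥((⊤ : Submodule F (Fin (k + 1) → F)) ⊓ LinearMap.ker ((shiftUp F k) ^ j)) ≃ₗ[F]
      ({i : Fin (k + 1) // k < i.val + j} → F) :=
    { toFun := fun v i => v.1 i.1
      map_add' := fun x y => rfl
      map_smul' := fun c x => rfl
      invFun := fun w => ⟨fun i => if h : k < i.val + j then w ⟨i, h⟩ else 0, by
          simp only [top_inf_eq, LinearMap.mem_ker]
          funext i
          rw [shiftUp_pow_apply]
          by_cases hji : j ≤ i.val
          · rw [dif_pos hji, dif_neg (by simp only; have := i.2; omega)]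
            rfl
          · rw [dif_neg hji]
            rfl⟩
      left_inv := fun v => by
        apply Subtype.ext
        funext i
        simp only
        by_cases h : k < i.val + j
        · rw [dif_pos h]
        · rw [dif_neg h]
          have hv := v.2
          simp only [top_inf_eq, LinearMap.mem_ker] at hv
          have h1 := congrFun hv ⟨i.val + j, by have := i.2; omega⟩
          rw [shiftUp_pow_apply, dif_pos (by simp)] at h1
          simp only [add_tsub_cancel_right, Fin.eta, Pi.zero_apply] at h1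
          exact h1.symm
      right_inv := fun w => by
        funext i
        simp only
        rw [dif_pos i.2] }
  rw [e.finrank_eq, Module.finrank_fintype_fun_eq_card]
  simp only [Multiset.replicate_one, Multiset.map_singleton, Multiset.sum_singleton]
  rw [Fintype.card_subtype]
  have hset : (Finset.univ.filter fun i : Fin (k + 1) => k < i.val + j) =
      (Finset.Ico (k + 1 - j) (k + 1)).attachFin (fun i hi => (Finset.mem_Ico.mp hi).2) := by
    ext i
    simp only [Finset.mem_filter, Finset.mem_univ, true_and, Finset.mem_attachFin, Finset.mem_Ico]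
    have := i.2
    omega
  rw [hset, Finset.card_attachFin, Nat.card_Ico]
  omega

/-- Transport of a model to the standard symplectic group. -/
theorem h37_model_xfer (n : ℕ) (V : Type*) [AddCommGroup V] [Module F V]
    [FiniteDimensional F V] (B : LinearMap.BilinForm F V) (halt : ∀ v, B v v = 0)
    (hnd : ∀ v, (∀ w, B v w = 0) → v = 0) (hdim : Module.finrank F V = 2 * n)
    (T : Module.End F V) (hT : Preserves B T) (p : ℕ) (hTp : T ^ p = 1) (l : Multiset ℕ)
    (hl : JT (T - 1) ⊤ l) :
    ∃ g : Matrix.symplecticGroup (Fin n) F, toEnd g ^ p = 1 ∧ JT (toEnd g - 1) ⊤ l := by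
  obtain ⟨g, Φ, -, hg⟩ := xfer n V B halt hnd hdim T hT
  have hk : ∀ (k : ℕ) v, (toEnd g ^ k) (Φ v) = Φ ((T ^ k) v) := by
    intro k
    induction k with
    | zero => intro v; simp
    | succ k ih =>
      intro v
      rw [pow_succ, pow_succ, Module.End.mul_apply, Module.End.mul_apply, hg, ih]
  refine ⟨g, ?_, ?_⟩
  · apply LinearMap.ext
    intro w
    obtain ⟨x, rfl⟩ := Φ.surjective w
    rw [hk, hTp]
    rfl
  · refine jt_xfer Φ (T - 1) (toEnd g - 1) (fun v => ?_) l hl
    rw [LinearMap.sub_apply, LinearMap.sub_apply, hg, map_sub]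
    rfl

end lem

end Cfsg.Agent.Helper37.TI5956
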