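import Mathlib
import Cfsg.Agent.Helper13.TKDefs
import Cfsg.Agent.Helper37.TKMODLEM
import Cfsg.Agent.Helper80.TKCAYLEY

set_option autoImplicit false

namespace Cfsg.Agent.Helper37.TI5956

open Module Polynomial
open Cfsg.Agent.Helper42.SpForm Cfsg.Agent.Helper42.SpGroup Cfsg.Agent.Helper42.SpModels
open Cfsg.Agent.Helper13.TIsp Cfsg.Agent.Helper90.BG
open Cfsg.Agent.Helper11.TI5955 Cfsg.Agent.Helper58.TI5955 Cfsg.Agent.Helper59.TI5955
open Cfsg.Agent.Helper51.TI5955 Cfsg.Agent.Helper70.TI5955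
open Cfsg.Agent.Helper39.TI5961 Cfsg.Agent.Helper58.TI5961 Cfsg.Agent.Helper59.TI5961
open Cfsg.Agent.Helper60.TI5961 Cfsg.Agent.Helper31.TI5961 Cfsg.Agent.Helper19.TI5961
open Cfsg.Agent.Helper80.TI5956

section sp

variable {F : Type*} [Field F]

/-- MODEL2 (case a): two Jordan blocks of size `a ≤ p`: hyperbolic model `(Fin a → F) × (Fin a → F)`,
`N = (S, -Sᵀ)` with `S` the shift (skew for `B (x,y) (x',y') = x ⬝ y' - x' ⬝ y`), `cayley_ker`, `xfer`,
`jt_xfer`. -/
theorem model_two (p : ℕ) [Fact p.Prime] [CharP F p] (h2 : (2 : F) ≠ 0) (a : ℕ) (ha : 1 ≤ a)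
    (hap : a ≤ p) :
    ∃ g : Matrix.symplecticGroup (Fin a) F, toEnd g ^ p = 1 ∧
      JT (toEnd g - 1) ⊤ (Multiset.replicate 2 a) := by
  classical
  obtain ⟨k, rfl⟩ : ∃ k, a = k + 1 := ⟨a - 1, by omega⟩
  let W := Fin (k + 1) → F
  let R : LinearMap.BilinForm F W := revForm F k
  let S : Module.End F W := shiftUp F k
  let B₁ : LinearMap.BilinForm F (W × W) := R.comp (LinearMap.fst F W W) (LinearMap.snd F W W)
  let B : LinearMap.BilinForm F (W × W) := B₁ - B₁.flip
  have hB : ∀ x y : W × W, B x y = R x.1 y.2 - R y.1 x.2 := fun x y => rfl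
  let N : Module.End F (W × W) := S.prodMap S
  have hNapp : ∀ x : W × W, N x = (S x.1, S x.2) := fun x => rfl
  have halt : ∀ x, B x x = 0 := by
    intro x
    rw [hB, sub_self]
  have hRr : ∀ w : W, (∀ v, R v w = 0) → w = 0 := by
    intro w hw
    funext i
    have h1 : revForm F k (Pi.single (Fin.rev i) 1) w = 0 := hw _
    rw [revForm_apply, Finset.sum_eq_single (Fin.rev i)] at h1
    · rw [Pi.single_eq_same, mul_one, Fin.rev_rev] at h1
      rcases mul_eq_zero.mp h1 with h | h
      · exact absurd h (pow_ne_zero _ (neg_ne_zero.mpr one_ne_zero))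
      · exact h
    · intro j _ hj
      rw [Pi.single_eq_of_ne hj, mul_zero, zero_mul]
    · intro h
      exact absurd (Finset.mem_univ _) h
  have hnd : ∀ x, (∀ y, B x y = 0) → x = 0 := by
    intro x hx
    apply Prod.ext
    · apply revForm_nondeg F k
      intro w
      have h := hx (0, w)
      rw [hB] at h
      simpa using h
    · apply hRr
      intro v
      have h := hx (v, 0)
      rw [hB] at h
      simpa using h
  have hdim : Module.finrank F (W × W) = 2 * (k + 1) := by
    rw [Module.finrank_prod, Module.finrank_fintype_fun_eq_card]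
    simp only [Fintype.card_fin]
    ring
  have hNp : N ^ p = 0 := by
    change (S.prodMap S) ^ p = 0
    rw [prodMap_pow']
    change ((shiftUp F k) ^ p).prodMap ((shiftUp F k) ^ p) = 0
    rw [shiftUp_pow_eq_zero F k p hap]
    apply LinearMap.ext
    intro x
    rfl
  have hskew : ∀ x y, B (N x) y = - B x (N y) := by
    intro x y
    rw [hB, hB, hNapp, hNapp]
    have h1 := revForm_shift F k x.1 y.2
    have h2 := revForm_shift F k y.1 x.2
    change revForm F k (shiftUp F k x.1) y.2 - revForm F k y.1 (shiftUp F k x.2) =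
      - (revForm F k x.1 (shiftUp F k y.2) - revForm F k (shiftUp F k y.1) x.2)
    linear_combination h1 - h2
  obtain ⟨U, hU, hUp, hker⟩ := cayley_ker B N p h2 hNp hskew
  have e2 : Multiset.replicate 2 (k + 1) =
      Multiset.replicate 1 (k + 1) + Multiset.replicate 1 (k + 1) :=
    Multiset.replicate_add 1 1 (k + 1)
  have hJT : JT (U - 1) ⊤ (Multiset.replicate 2 (k + 1)) := by
    intro j
    rw [hker j, e2]
    exact h37_jt_prod S S _ _ (h37_jt_shift k) (h37_jt_shift k) j
  exact h37_model_xfer (k + 1) (W × W) B halt hnd hdim U hU p hUp _ hJT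

end sp

end Cfsg.Agent.Helper37.TI5956
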