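import Mathlib
import Cfsg.Agent.Helper13.TKDefs
import Cfsg.Agent.Helper37.TKMODLEM

set_option autoImplicit false

namespace Cfsg.Agent.Helper37.TI5956

open Module Polynomial
open Cfsg.Agent.Helper42.SpForm Cfsg.Agent.Helper42.SpGroup Cfsg.Agent.Helper42.SpModels
open Cfsg.Agent.Helper13.TIsp Cfsg.Agent.Helper90.BG
open Cfsg.Agent.Helper11.TI5955 Cfsg.Agent.Helper58.TI5955 Cfsg.Agent.Helper59.TI5955
open Cfsg.Agent.Helper51.TI5955 Cfsg.Agent.Helper70.TI5955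
open Cfsg.Agent.Helper39.TI5961 Cfsg.Agent.Helper58.TI5961 Cfsg.Agent.Helper59.TI5961
open Cfsg.Agent.Helper60.TI5961 Cfsg.Agent.Helper31.TI5961 Cfsg.Agent.Helper19.TI5961

section sp

variable {F : Type*} [Field F]

/-- MODELSUM (case a): orthogonal sum of two models (`sumForm`, `LinearMap.prodMap`,
`preserves_prodMap`, `prodMap_pow'`, `xfer`, `jt_xfer`; `ker (N₁ × N₂) ^ k = ker N₁ ^ k × ker N₂ ^ k`). -/
theorem model_sum (p : ℕ) (n₁ n₂ : ℕ) (g₁ : Matrix.symplecticGroup (Fin n₁) F)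
    (g₂ : Matrix.symplecticGroup (Fin n₂) F) (h₁ : toEnd g₁ ^ p = 1) (h₂ : toEnd g₂ ^ p = 1)
    (l₁ l₂ : Multiset ℕ) (hl₁ : JT (toEnd g₁ - 1) ⊤ l₁) (hl₂ : JT (toEnd g₂ - 1) ⊤ l₂) :
    ∃ g : Matrix.symplecticGroup (Fin (n₁ + n₂)) F, toEnd g ^ p = 1 ∧
      JT (toEnd g - 1) ⊤ (l₁ + l₂) := by
  refine h37_model_xfer (n₁ + n₂) ((Fin n₁ ⊕ Fin n₁ → F) × (Fin n₂ ⊕ Fin n₂ → F))
    (sumForm (stdForm n₁) (stdForm n₂))
    (sumForm_alt _ _ (stdForm_self n₁) (stdForm_self n₂))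
    (sumForm_nondeg _ _ (stdForm_nondeg n₁) (stdForm_nondeg n₂)) ?_
    ((toEnd g₁).prodMap (toEnd g₂)) (preserves_prodMap (preserves_toEnd g₁) (preserves_toEnd g₂))
    p ?_ (l₁ + l₂) ?_
  · rw [Module.finrank_prod, Module.finrank_fintype_fun_eq_card, Module.finrank_fintype_fun_eq_card]
    simp only [Fintype.card_sum, Fintype.card_fin]
    ring
  · rw [prodMap_pow', h₁, h₂]
    apply LinearMap.ext
    intro x
    rfl
  · have hsub : (toEnd g₁).prodMap (toEnd g₂) - 1 = (toEnd g₁ - 1).prodMap (toEnd g₂ - 1) := by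
      apply LinearMap.ext
      intro x
      rfl
    rw [hsub]
    exact h37_jt_prod _ _ l₁ l₂ hl₁ hl₂

end sp

end Cfsg.Agent.Helper37.TI5956
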