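import Mathlib
import Cfsg.Prelude.Def_ParabolicCharacters

/-!
CALL S2314 (helper40), piece T1A (helper37; double): double count of (p-element, fixed coset).
-/

set_option autoImplicit false

namespace Cfsg.Agent.Helper37.UCT1A

/-- conjugation preserves the order -/
theorem t1a_orderOf_conj {X : Type*} [Group X] (g x : X) : orderOf (g⁻¹ * x * g) = orderOf x := by
  have h := MulEquiv.orderOf_eq (MulAut.conj g⁻¹) x
  rw [MulAut.conj_apply, inv_inv] at h
  exact h

/-- an element fixes the coset `gH` iff its conjugate by `g` lies in `H` -/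
theorem t1a_smul_mk_iff {X : Type*} [Group X] (H : Subgroup X) (x g : X) :
    x • (g : X ⧸ H) = (g : X ⧸ H) ↔ g⁻¹ * x * g ∈ H := by
  rw [MulAction.Quotient.smul_mk, QuotientGroup.eq, smul_eq_mul, ← H.inv_mem_iff]
  have e : ((x * g)⁻¹ * g)⁻¹ = g⁻¹ * x * g := by group
  rw [e]

open Classical in
/-- the number of `p`-elements fixing a given coset -/
theorem t1a_count {X : Type*} [Group X] [Fintype X] (H : Subgroup X) (p : ℕ) (c : X ⧸ H) :
    (Finset.univ.filter (fun x : X => (∃ k : ℕ, orderOf x = p ^ k) ∧ x • c = c)).card =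
      Nat.card {h : X // h ∈ H ∧ ∃ k : ℕ, orderOf h = p ^ k} := by
  induction c using QuotientGroup.induction_on with
  | H g =>
    rw [← Fintype.card_subtype, ← Nat.card_eq_fintype_card]
    refine Nat.card_congr
      { toFun := fun x => ⟨g⁻¹ * x.1 * g, (t1a_smul_mk_iff H x.1 g).1 x.2.2, by
          obtain ⟨k, hk⟩ := x.2.1
          exact ⟨k, by rw [t1a_orderOf_conj, hk]⟩⟩
        invFun := fun h => ⟨g * h.1 * g⁻¹, by
          obtain ⟨k, hk⟩ := h.2.2
          refine ⟨k, ?_⟩
          have := t1a_orderOf_conj g⁻¹ h.1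
          rw [inv_inv] at this
          rw [this, hk], by
          rw [t1a_smul_mk_iff]
          have e : g⁻¹ * (g * h.1 * g⁻¹) * g = h.1 := by group
          rw [e]
          exact h.2.1⟩
        left_inv := fun x => by
          apply Subtype.ext
          show g * (g⁻¹ * x.1 * g) * g⁻¹ = x.1
          group
        right_inv := fun h => by
          apply Subtype.ext
          show g⁻¹ * (g * h.1 * g⁻¹) * g = h.1
          group }

open Classical in
/-- T1A (pure Mathlib): double count of (p-element, fixed coset). -/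
theorem sum_fpc_pelts {X : Type*} [Group X] [Fintype X] (H : Subgroup X) (p : ℕ) :
    (∑ x : X, if (∃ k : ℕ, orderOf x = p ^ k) then Cfsg.fixedPointCharacter H x else 0) =
      (H.index : ℂ) * (Nat.card {h : X // h ∈ H ∧ ∃ k : ℕ, orderOf h = p ^ k} : ℂ) := by
  have hterm : ∀ x : X, (if (∃ k : ℕ, orderOf x = p ^ k) then Cfsg.fixedPointCharacter H x else 0) =
      ((∑ c : X ⧸ H, if ((∃ k : ℕ, orderOf x = p ^ k) ∧ x • c = c) then 1 else 0 : ℕ) : ℂ) := by
    intro x
    by_cases hx : ∃ k : ℕ, orderOf x = p ^ k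
    · rw [if_pos hx]
      have h1 : Nat.card (MulAction.fixedBy (X ⧸ H) x) =
          ∑ c : X ⧸ H, if ((∃ k : ℕ, orderOf x = p ^ k) ∧ x • c = c) then 1 else 0 := by
        rw [Nat.card_eq_fintype_card, Fintype.card_subtype, Finset.card_filter]
        apply Finset.sum_congr rfl
        intro c _
        simp only [hx, true_and, MulAction.mem_fixedBy]
      show ((Nat.card (MulAction.fixedBy (X ⧸ H) x) : ℕ) : ℂ) = _
      rw [h1]
    · rw [if_neg hx]
      simp [hx]
  rw [Finset.sum_congr rfl (fun x _ => hterm x), ← Nat.cast_sum, Finset.sum_comm, ← Nat.cast_mul]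
  congr 1
  have hc : ∀ c : X ⧸ H, (∑ x : X, if ((∃ k : ℕ, orderOf x = p ^ k) ∧ x • c = c) then 1 else 0) =
      Nat.card {h : X // h ∈ H ∧ ∃ k : ℕ, orderOf h = p ^ k} := by
    intro c
    rw [← Finset.card_filter]
    exact t1a_count H p c
  rw [Finset.sum_congr rfl (fun c _ => hc c), Finset.sum_const, Finset.card_univ, smul_eq_mul,
    Subgroup.index_eq_card, Nat.card_eq_fintype_card (α := X ⧸ H)]

end Cfsg.Agent.Helper37.UCT1A
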